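import Cfsg.Agent.H1.Hall
import Cfsg.Agent.H27.Rad
import Cfsg.Agent.H60.Cores
import Cfsg.Prelude.Def_OddOrderLocal

/-!
# Hall `π`-subgroups in groups with a normal solvable subgroup of `π`-index

If `G ⊴ Γ` is solvable and every prime dividing `|Γ : G|` lies in `π`, then `Γ` has Hall
`π`-subgroups, and every `π`-subgroup of `Γ` is conjugate into any given Hall `π`-subgroup.
-/

set_option autoImplicit false
open Cfsg
open scoped Pointwise

namespace Cfsg.Agent.H66

universe u

open Cfsg.Agent.H1

theorem pi_hall_aux (π : Set ℕ) (k : ℕ) : ∀ (Γ : Type u) [Group Γ] [Finite Γ],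
    Nat.card Γ = k → ∀ G : Subgroup Γ, G.Normal → Group.IsSolvable G →
    (∀ r : ℕ, r.Prime → r ∣ G.index → r ∈ π) →
    (∃ H : Subgroup Γ, Cfsg.IsPiHall π H) ∧
    (∀ U H : Subgroup Γ, (∀ r : ℕ, r.Prime → r ∣ Nat.card U → r ∈ π) → Cfsg.IsPiHall π H →
      ∃ g : Γ, MulAut.conj g • U ≤ H) := by
  induction k using Nat.strong_induction_on with
  | _ k ih =>
  intro Γ _ _ hk G hGn hGs hGi
  by_cases hGb : G = ⊥
  · have hall : ∀ r : ℕ, r.Prime → r ∣ Nat.card Γ → r ∈ π := by
      intro r hr hd
      apply hGi r hr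
      rw [hGb, Subgroup.index_bot]; exact hd
    refine ⟨⟨⊤, ?_, ?_⟩, ?_⟩
    · intro r hr hd
      rw [Subgroup.card_top] at hd
      exact hall r hr hd
    · intro r hr _ hd
      rw [Subgroup.index_top] at hd
      exact hr.one_lt.ne' (Nat.dvd_one.mp hd)
    · intro U H _ hH
      refine ⟨1, ?_⟩
      have hH1 : H.index = 1 := by
        by_contra hne
        obtain ⟨r, hr, hd⟩ := Nat.exists_prime_and_dvd hne
        exact hH.2 r hr (hall r hr (hd.trans (Subgroup.index_dvd_card H))) hd
      rw [Subgroup.index_eq_one.mp hH1]; exact le_top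
  · have : Nontrivial G := (Subgroup.nontrivial_iff_ne_bot G).mpr hGb
    have := hGs
    have := hGn
    obtain ⟨p, N0, hp, hN0n, hN0b, hN0p⟩ := exists_normal_pgroup (G := G)
    have : Fact p.Prime := ⟨hp⟩
    obtain ⟨N, hNdef⟩ : ∃ N : Subgroup Γ, N = H27.radIn (fun K _ => IsPGroup p K) G := ⟨_, rfl⟩
    have hNn : N.Normal := by
      rw [hNdef]; exact H27.radIn_normal (H27.isoInv_pGroup p) G
    have hNp : IsPGroup p N := by
      rw [hNdef]
      exact (H60.isPGroup_pCore (G := G) p).map G.subtype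
    have hNb : N ≠ ⊥ := by
      intro h
      rw [hNdef] at h
      have h1 : H27.rad (fun K _ => IsPGroup p K) G = ⊥ :=
        (Subgroup.map_eq_bot_iff_of_injective _ G.subtype_injective).mp h
      have h2 : N0 ≤ H27.rad (fun K _ => IsPGroup p K) G := H27.le_rad hN0n hN0p
      rw [h1] at h2
      exact hN0b (le_bot_iff.mp h2)
    have hNgt : 1 < Nat.card N := (Subgroup.one_lt_card_iff_ne_bot N).mpr hNb
    have hQcard : Nat.card (Γ ⧸ N) * Nat.card N = Nat.card Γ :=
      (Subgroup.card_eq_card_quotient_mul_card_subgroup N).symm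
    have hQlt : Nat.card (Γ ⧸ N) < k := by
      rw [← hk, ← hQcard]; exact lt_mul_of_one_lt_right Nat.card_pos hNgt
    have hGbn : (G.map (QuotientGroup.mk' N)).Normal :=
      Subgroup.Normal.map hGn _ (QuotientGroup.mk'_surjective N)
    have hGbs : Group.IsSolvable (G.map (QuotientGroup.mk' N)) :=
      Group.isSolvable_of_surjective ((QuotientGroup.mk' N).subgroupMap_surjective G)
    have hGbi : ∀ r : ℕ, r.Prime → r ∣ (G.map (QuotientGroup.mk' N)).index → r ∈ π :=
      fun r hr hd => hGi r hr (hd.trans (Subgroup.index_map_dvd G (QuotientGroup.mk'_surjective N)))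
    obtain ⟨⟨Hb, hHb⟩, ihU⟩ := ih _ hQlt (Γ ⧸ N) rfl (G.map (QuotientGroup.mk' N)) hGbn hGbs hGbi
    have hmapHall : ∀ H : Subgroup Γ, Cfsg.IsPiHall π H →
        Cfsg.IsPiHall π (H.map (QuotientGroup.mk' N)) := by
      intro H hH
      refine ⟨fun r hr hd => hH.1 r hr (hd.trans (Subgroup.card_map_dvd _ _)), ?_⟩
      intro r hr hrπ hd
      exact hH.2 r hr hrπ (hd.trans (Subgroup.index_map_dvd H (QuotientGroup.mk'_surjective N)))
    have hlift : ∀ U H : Subgroup Γ, (∀ r : ℕ, r.Prime → r ∣ Nat.card U → r ∈ π) →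
        Cfsg.IsPiHall π H → ∃ g : Γ, MulAut.conj g • U ≤ H ⊔ N := by
      intro U H hU hH
      obtain ⟨gb, hgb⟩ := ihU (U.map (QuotientGroup.mk' N)) (H.map (QuotientGroup.mk' N))
        (fun r hr hd => hU r hr (hd.trans (Subgroup.card_map_dvd _ _))) (hmapHall H hH)
      obtain ⟨g, rfl⟩ := QuotientGroup.mk'_surjective N gb
      refine ⟨g, ?_⟩
      intro x hx
      have h1 : QuotientGroup.mk' N x ∈
          MulAut.conj (QuotientGroup.mk' N g) • U.map (QuotientGroup.mk' N) := by
        rw [← map_conj_smul]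
        exact Subgroup.mem_map_of_mem _ hx
      have h2 := hgb h1
      have h3 : x ∈ (H.map (QuotientGroup.mk' N)).comap (QuotientGroup.mk' N) := h2
      rwa [Subgroup.comap_map_eq, QuotientGroup.ker_mk'] at h3
    obtain ⟨a, ha⟩ := IsPGroup.iff_card.mp hNp
    by_cases hpπ : p ∈ π
    · -- `N` is a `π`-group: it lies in every Hall `π`-subgroup
      have hNH : ∀ H : Subgroup Γ, Cfsg.IsPiHall π H → N ≤ H := by
        intro H hH
        have h4 : H.relIndex (H ⊔ N) = 1 := by
          by_contra hne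
          obtain ⟨r, hr, hd⟩ := Nat.exists_prime_and_dvd hne
          have hrn : r ∣ H.index := hd.trans (Subgroup.relIndex_dvd_index_of_le le_sup_left)
          have h3 : r ∣ Nat.card H * Nat.card N :=
            (hd.trans (Subgroup.relIndex_dvd_card _ _)).trans (card_sup_dvd_of_normal H N)
          have hrπ : r ∈ π := by
            rcases (Nat.Prime.dvd_mul hr).mp h3 with h | h
            · exact hH.1 r hr h
            · rw [ha] at h
              have := (Nat.prime_dvd_prime_iff_eq hr hp).mp (hr.dvd_of_dvd_pow h)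
              rw [this]; exact hpπ
          exact hH.2 r hr hrπ hrn
        exact le_sup_right.trans (Subgroup.relIndex_eq_one.mp h4)
      constructor
      · refine ⟨Hb.comap (QuotientGroup.mk' N), ?_, ?_⟩
        · intro r hr hd
          rw [card_comap_mk'] at hd
          rcases (Nat.Prime.dvd_mul hr).mp hd with h | h
          · exact hHb.1 r hr h
          · rw [ha] at h
            have := (Nat.prime_dvd_prime_iff_eq hr hp).mp (hr.dvd_of_dvd_pow h)
            rw [this]; exact hpπ
        · intro r hr hrπ hd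
          rw [Subgroup.index_comap_of_surjective _ (QuotientGroup.mk'_surjective N)] at hd
          exact hHb.2 r hr hrπ hd
      · intro U H hU hH
        obtain ⟨g, hg⟩ := hlift U H hU hH
        exact ⟨g, hg.trans (sup_le le_rfl (hNH H hH))⟩
    · -- `N` is a `π'`-group: Schur–Zassenhaus
      have hNsolv : Group.IsSolvable N := isSolvable_of_isPGroup N hNp
      have hcopπ : ∀ U : Subgroup Γ, (∀ r : ℕ, r.Prime → r ∣ Nat.card U → r ∈ π) →
          (Nat.card U).Coprime (Nat.card N) := by
        intro U hU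
        rw [ha]
        exact Nat.Coprime.pow_right a
          ((Nat.Prime.coprime_iff_not_dvd hp).mpr (fun h => hpπ (hU p hp h))).symm
      have hHbc : (Nat.card Hb).Coprime p :=
        ((Nat.Prime.coprime_iff_not_dvd hp).mpr (fun h => hpπ (hHb.1 p hp h))).symm
      constructor
      · have hKcard : Nat.card (Hb.comap (QuotientGroup.mk' N)) = Nat.card Hb * Nat.card N :=
          card_comap_mk' N Hb
        have hNK : N ≤ Hb.comap (QuotientGroup.mk' N) := by
          have := MonoidHom.ker_le_comap (QuotientGroup.mk' N) Hb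
          rwa [QuotientGroup.ker_mk'] at this
        have hidx : (N.subgroupOf (Hb.comap (QuotientGroup.mk' N))).index = Nat.card Hb := by
          have h2 := Subgroup.card_mul_index (N.subgroupOf (Hb.comap (QuotientGroup.mk' N)))
          rw [card_subgroupOf_of_le hNK, hKcard, mul_comm (Nat.card Hb)] at h2
          exact Nat.eq_of_mul_eq_mul_left Nat.card_pos h2
        have hcop : (Nat.card (N.subgroupOf (Hb.comap (QuotientGroup.mk' N)))).Coprime
            (N.subgroupOf (Hb.comap (QuotientGroup.mk' N))).index := by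
          rw [card_subgroupOf_of_le hNK, hidx, ha]
          exact (Nat.Coprime.pow_right a hHbc).symm
        have hnorm : (N.subgroupOf (Hb.comap (QuotientGroup.mk' N))).Normal :=
          Subgroup.normal_subgroupOf
        obtain ⟨H', hH'⟩ := Subgroup.exists_right_complement'_of_coprime hcop
        have hHcard : Nat.card (H'.map (Subgroup.subtype _)) = Nat.card Hb := by
          rw [Subgroup.card_subtype, ← hH'.symm.index_eq_card, hidx]
        refine ⟨H'.map (Subgroup.subtype _), ?_, ?_⟩
        · intro r hr hd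
          rw [hHcard] at hd
          exact hHb.1 r hr hd
        · intro r hr hrπ hd
          have h1 := Subgroup.card_mul_index (H'.map (Subgroup.subtype _))
          have h2 := Subgroup.card_mul_index Hb
          rw [hHcard, ← hQcard, ← h2, ha] at h1
          have h3 : (H'.map (Subgroup.subtype _)).index = Hb.index * p ^ a := by
            have : Nat.card Hb * (H'.map (Subgroup.subtype _)).index
                = Nat.card Hb * (Hb.index * p ^ a) := by rw [h1]; ring
            exact Nat.eq_of_mul_eq_mul_left Nat.card_pos this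
          rw [h3] at hd
          rcases (Nat.Prime.dvd_mul hr).mp hd with h | h
          · exact hHb.2 r hr hrπ h
          · have := (Nat.prime_dvd_prime_iff_eq hr hp).mp (hr.dvd_of_dvd_pow h)
            rw [this] at hrπ; exact hpπ hrπ
      · intro U H hU hH
        obtain ⟨g, hg⟩ := hlift U H hU hH
        have hVc : Nat.card (MulAut.conj g • U : Subgroup Γ) = Nat.card U := card_conj_smul g U
        have hVcop : (Nat.card (MulAut.conj g • U : Subgroup Γ)).Coprime (Nat.card N) := by
          rw [hVc]; exact hcopπ U hU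
        have hVN : (MulAut.conj g • U : Subgroup Γ) ≤ Subgroup.normalizer (N : Set Γ) := by
          rw [Subgroup.normalizer_eq_top]; exact le_top
        have hHN : H ≤ Subgroup.normalizer (N : Set Γ) := by
          rw [Subgroup.normalizer_eq_top]; exact le_top
        have hHcop : (Nat.card H).Coprime (Nat.card N) := hcopπ H hH.1
        have hBsup : (H ⊓ (MulAut.conj g • U ⊔ N)) ⊔ N = MulAut.conj g • U ⊔ N := by
          apply le_antisymm
          · exact sup_le inf_le_right le_sup_right
          · intro x hx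
            have hx' : x ∈ H ⊔ N := (sup_le hg le_sup_right) hx
            obtain ⟨h, hh, n, hn, rfl⟩ := Subgroup.mem_sup_of_normal_right.mp hx'
            have hmem : h ∈ MulAut.conj g • U ⊔ N := by
              have := (MulAut.conj g • U ⊔ N).mul_mem hx
                ((MulAut.conj g • U ⊔ N).inv_mem
                  ((le_sup_right : N ≤ MulAut.conj g • U ⊔ N) hn))
              simpa using this
            exact Subgroup.mul_mem_sup ⟨hh, hmem⟩ hn
        have hBc : Nat.card (H ⊓ (MulAut.conj g • U ⊔ N) : Subgroup Γ)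
            = Nat.card (MulAut.conj g • U : Subgroup Γ) := by
          have hdisj : (H ⊓ (MulAut.conj g • U ⊔ N)) ⊓ N = ⊥ := by
            have h0 : H ⊓ N = ⊥ := (Subgroup.disjoint_of_coprime_natCard hHcop).eq_bot
            rw [eq_bot_iff, ← h0]
            exact le_inf (inf_le_left.trans inf_le_left) inf_le_right
          have h1 := card_sup_of_le_normalizer (H ⊓ (MulAut.conj g • U ⊔ N)) N
            (inf_le_left.trans hHN) hdisj
          have h2 := card_sup_of_le_normalizer (MulAut.conj g • U) N hVN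
            (Subgroup.disjoint_of_coprime_natCard hVcop).eq_bot
          rw [hBsup, h2] at h1
          exact (Nat.eq_of_mul_eq_mul_right Nat.card_pos h1).symm
        obtain ⟨d, hd, hdB⟩ := sz_conj_internal (MulAut.conj g • U) N
          (H ⊓ (MulAut.conj g • U ⊔ N)) hVN hVcop (Or.inr hNsolv) inf_le_right hBc
        refine ⟨d * g, ?_⟩
        rw [conj_mul_smul, hdB]; exact inf_le_left

/-- Two Hall `π`-subgroups have the same order. -/
theorem piHall_card_eq {Γ : Type*} [Group Γ] [Finite Γ] {π : Set ℕ} {H₁ H₂ : Subgroup Γ}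
    (h1 : Cfsg.IsPiHall π H₁) (h2 : Cfsg.IsPiHall π H₂) : Nat.card H₁ = Nat.card H₂ := by
  have key : ∀ H K : Subgroup Γ, Cfsg.IsPiHall π H → Cfsg.IsPiHall π K →
      Nat.card H ∣ Nat.card K := by
    intro H K hH hK
    have e1 := Subgroup.card_mul_index H
    have e2 := Subgroup.card_mul_index K
    have hc : (Nat.card H).Coprime K.index := by
      apply Nat.Coprime.symm
      rw [Nat.coprime_comm]
      apply Nat.coprime_of_dvd
      intro r hr hd1 hd2
      exact hK.2 r hr (hH.1 r hr hd1) hd2
    have : Nat.card H ∣ Nat.card K * K.index := by rw [e2, ← e1]; exact dvd_mul_right _ _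
    exact hc.dvd_of_dvd_mul_right this
  exact Nat.dvd_antisymm (key _ _ h1 h2) (key _ _ h2 h1)

/-- Conjugates of Hall `π`-subgroups are Hall `π`-subgroups. -/
theorem isPiHall_conj_smul {Γ : Type*} [Group Γ] [Finite Γ] {π : Set ℕ} {H : Subgroup Γ}
    (h : Cfsg.IsPiHall π H) (g : Γ) : Cfsg.IsPiHall π (MulAut.conj g • H) := by
  have hc : Nat.card (MulAut.conj g • H : Subgroup Γ) = Nat.card H := card_conj_smul g H
  have hi : (MulAut.conj g • H : Subgroup Γ).index = H.index := by
    have e1 := Subgroup.card_mul_index (MulAut.conj g • H : Subgroup Γ)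
    have e2 := Subgroup.card_mul_index H
    rw [hc, ← e2] at e1
    exact Nat.eq_of_mul_eq_mul_left Nat.card_pos e1
  refine ⟨?_, ?_⟩
  · intro r hr hd; rw [hc] at hd; exact h.1 r hr hd
  · intro r hr hrπ hd; rw [hi] at hd; exact h.2 r hr hrπ hd

/-- Internal form: if `G ≤ Γ` is solvable, normalised by `Γ`, and every prime dividing `|Γ : G|`
lies in `π`, then every `π`-subgroup of `Γ` lies in a Hall `π`-subgroup of `Γ`, and the Hall
`π`-subgroups of `Γ` are `Γ`-conjugate. -/
theorem pi_hall_internal {X : Type u} [Group X] [Finite X] (π : Set ℕ) (Γ G : Subgroup X)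
    (hn : Γ ≤ Subgroup.normalizer (G : Set X)) (hs : Group.IsSolvable G)
    (hi : ∀ r : ℕ, r.Prime → r ∣ G.relIndex Γ → r ∈ π) :
    (∀ U : Subgroup X, U ≤ Γ → (∀ r : ℕ, r.Prime → r ∣ Nat.card U → r ∈ π) →
      ∃ K : Subgroup X, Cfsg.IsPiHallOf π K Γ ∧ U ≤ K) ∧
    (∀ K₁ K₂ : Subgroup X, Cfsg.IsPiHallOf π K₁ Γ → Cfsg.IsPiHallOf π K₂ Γ →
      ∃ g ∈ Γ, K₂ = MulAut.conj g • K₁) := by
  have hGn : (G.subgroupOf Γ).Normal := Subgroup.normal_subgroupOf_of_le_normalizer hn
  have hGs : Group.IsSolvable (G.subgroupOf Γ) := isSolvable_subgroupOf G Γ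
  obtain ⟨⟨H', hH'⟩, hconj⟩ := pi_hall_aux π _ Γ rfl (G.subgroupOf Γ) hGn hGs hi
  have T1 : ∀ K' : Subgroup Γ, Cfsg.IsPiHall π K' → Cfsg.IsPiHallOf π (K'.map Γ.subtype) Γ := by
    intro K' hK'
    refine ⟨Subgroup.map_subtype_le K', ?_, ?_⟩
    · intro r hr hd
      rw [Subgroup.card_subtype] at hd
      exact hK'.1 r hr hd
    · intro r hr hrπ hd
      have : (K'.map Γ.subtype).relIndex Γ = K'.index := by
        show ((K'.map Γ.subtype).comap Γ.subtype).index = K'.index
        rw [Subgroup.comap_map_eq_self_of_injective Γ.subtype_injective]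
      rw [this] at hd
      exact hK'.2 r hr hrπ hd
  have T2 : ∀ K : Subgroup X, Cfsg.IsPiHallOf π K Γ → Cfsg.IsPiHall π (K.subgroupOf Γ) := by
    intro K hK
    refine ⟨?_, ?_⟩
    · intro r hr hd
      rw [card_subgroupOf_of_le hK.1] at hd
      exact hK.2.1 r hr hd
    · intro r hr hrπ hd
      exact hK.2.2 r hr hrπ hd
  constructor
  · intro U hUΓ hU
    obtain ⟨g', hg'⟩ := hconj (U.subgroupOf Γ) H'
      (fun r hr hd => hU r hr (by rwa [card_subgroupOf_of_le hUΓ] at hd)) hH'
    refine ⟨(MulAut.conj g'⁻¹ • H').map Γ.subtype, T1 _ (isPiHall_conj_smul hH' _), ?_⟩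
    intro x hx
    refine ⟨⟨x, hUΓ hx⟩, ?_, rfl⟩
    show (⟨x, hUΓ hx⟩ : Γ) ∈ MulAut.conj g'⁻¹ • H'
    rw [mem_conj_smul_iff, inv_inv]
    exact hg' (conj_mem_conj_smul g' _ (U.subgroupOf Γ) (Subgroup.mem_subgroupOf.mpr hx))
  · intro K₁ K₂ h1 h2
    obtain ⟨g', hg'⟩ := hconj (K₁.subgroupOf Γ) (K₂.subgroupOf Γ) (T2 K₁ h1).1 (T2 K₂ h2)
    have hc : Nat.card (K₂.subgroupOf Γ) ≤
        Nat.card (MulAut.conj g' • K₁.subgroupOf Γ : Subgroup Γ) := by
      rw [card_conj_smul, piHall_card_eq (T2 K₁ h1) (T2 K₂ h2)]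
    have heq := Subgroup.eq_of_le_of_card_ge hg' hc
    exact ⟨g', g'.2, (conj_smul_eq_of_subgroupOf h1.1 h2.1 g' heq).symm⟩

end Cfsg.Agent.H66
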