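import Mathlib
import Cfsg.Agent.H14.PLength

/-!
# Hall–Higman `l_p ≤ 2 e_p` for odd `p` (S3786): shared definitions and piece statements

`p` is an odd prime.  In a `p`-soluble group `H` with `O_p(H) = 1` acting faithfully on an
`𝔽_p`-module `V` such that every `p`-element `y` has `y ^ (p ^ (m+1)) = 1` and
`(y - 1) ^ (p ^ (m+1) - 1) = 0` on `V`, the elements `y ^ (p ^ m)` of a `p`-subgroup commute
pairwise (`MAB`), and therefore lie in `O_{p',p}(H)` (`CoreH`).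

Every piece proves one of the `Prop`-valued statements below (possibly from others taken as
hypotheses).  All groups and modules live in one universe `u`.
-/

set_option autoImplicit false
set_option linter.style.haveILetI false
set_option linter.unusedVariables false
set_option linter.unusedSectionVars false

namespace Cfsg.Agent.H66.HHF

open Cfsg

universe u

/-- `y ^ (p ^ m)` centralizes every `y`-invariant abelian `p'`-subgroup, for every `y` with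
`y ^ (p ^ (m+1)) = 1`. -/
def AbCent (p m : ℕ) (H : Type u) [Group H] : Prop :=
  ∀ y : H, y ^ p ^ (m + 1) = 1 → ∀ B : Subgroup H, (∀ a ∈ B, ∀ b ∈ B, a * b = b * a) →
    (Nat.card B).Coprime p → (∀ b ∈ B, y * b * y⁻¹ ∈ B) → ∀ b ∈ B, y ^ p ^ m * b = b * y ^ p ^ m

/-! ## Linear algebra in characteristic `p` -/

/-- **Frob**: `∑_{i < p^k} T^i = (T - 1)^(p^k - 1)` and `T^(p^k) - 1 = (T - 1)^(p^k)` for an
endomorphism `T` of an `𝔽_p`-module. -/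
def FrobStatement : Prop :=
  ∀ (p : ℕ) [Fact p.Prime] (V : Type u) [AddCommGroup V] [Module (ZMod p) V]
    (T : Module.End (ZMod p) V) (k : ℕ),
    (∑ i ∈ Finset.range (p ^ k), T ^ i) = (T - 1) ^ (p ^ k - 1) ∧ T ^ p ^ k - 1 = (T - 1) ^ p ^ k

/-- **Lin**: on the module `V = P₁/Φ` (presented by `ι`), `(x - 1)^(p^k - 1)` sends the class of
`u ∈ P₁` to the class of `(u x)^(p^k) x^(-p^k)`. -/
def LinStatement : Prop :=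
  ∀ (Γ : Type u) [Group Γ] [Finite Γ] (p : ℕ) [Fact p.Prime] (P₁ : Subgroup Γ) [P₁.Normal]
    (V : Type u) [AddCommGroup V] [Module (ZMod p) V]
    (θ : (Γ ⧸ P₁) →* Module.End (ZMod p) V) (ι : Γ → V),
    (∀ a ∈ P₁, ∀ b ∈ P₁, ι (a * b) = ι a + ι b) →
    (∀ g, ∀ u ∈ P₁, θ (QuotientGroup.mk' P₁ g) (ι u) = ι (g * u * g⁻¹)) →
    ∀ (x : Γ) (k : ℕ) (u : Γ), u ∈ P₁ →
      (u * x) ^ p ^ k * (x ^ p ^ k)⁻¹ ∈ P₁ ∧
      ((θ (QuotientGroup.mk' P₁ x) - 1) ^ (p ^ k - 1)) (ι u) = ι ((u * x) ^ p ^ k * (x ^ p ^ k)⁻¹)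

/-- **ZB**: Theorem B of Hall–Higman (form `hhB_aux`) for a faithful `𝔽_p`-representation. -/
def ZBStatement : Prop :=
  ∀ (H : Type u) [Group H] [Finite H] (p q : ℕ) [Fact p.Prime] [Fact q.Prime], p ≠ q →
    ∀ (V : Type u) [AddCommGroup V] [Module (ZMod p) V] [Finite V]
      (θ : H →* Module.End (ZMod p) V), Function.Injective θ →
    ∀ (Q : Subgroup H), IsPGroup q Q → ∀ (g : H) (n : ℕ), g ^ p ^ (n + 1) = 1 →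
      g ∈ Subgroup.normalizer (Q : Set H) → (∃ a ∈ Q, g ^ p ^ n * a ≠ a * g ^ p ^ n) →
      ∃ N : ℕ, (θ g - 1) ^ (N - 1) ≠ 0 ∧ (N = p ^ (n + 1) ∨ ∃ n₀ k : ℕ, 1 ≤ n₀ ∧ n₀ ≤ n + 1 ∧
        1 ≤ k ∧ p ^ n₀ - 1 = q ^ k ∧ (¬ ∀ a ∈ Q, ∀ b ∈ Q, a * b = b * a) ∧
        N = p ^ (n + 1 - n₀) * (p ^ n₀ - 1))

/-- **ZBG**: Theorem B (form `hhB_group`) for a faithful `𝔽_p`-representation of a `p`-soluble
group with `O_p = 1`. -/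
def ZBGStatement : Prop :=
  ∀ (H : Type u) [Group H] [Finite H] (p : ℕ) [Fact p.Prime], IsPSolvable p H → pCore p H = ⊥ →
    ∀ (V : Type u) [AddCommGroup V] [Module (ZMod p) V] [Finite V]
      (θ : H →* Module.End (ZMod p) V), Function.Injective θ →
    ∀ (x : H) (m : ℕ), x ^ p ^ (m + 1) = 1 → x ^ p ^ m ≠ 1 →
    ∃ N : ℕ, (θ x - 1) ^ (N - 1) ≠ 0 ∧ (N = p ^ (m + 1) ∨ ∃ (n₀ q k : ℕ), 1 ≤ n₀ ∧ n₀ ≤ m + 1 ∧
      q.Prime ∧ 1 ≤ k ∧ p ^ n₀ - 1 = q ^ k ∧ (∀ T : Sylow q H, ¬ IsMulCommutative T) ∧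
      N = p ^ (m + 1 - n₀) * (p ^ n₀ - 1))

/-- **P1**: if every `y` with `y^(p^(m+1)) = 1` has `(y - 1)^(p^(m+1) - 1) = 0` on a faithful
`𝔽_p`-module, then `AbCent p m H`. -/
def P1Statement : Prop :=
  ∀ (H : Type u) [Group H] [Finite H] (p : ℕ) [Fact p.Prime]
    (V : Type u) [AddCommGroup V] [Module (ZMod p) V] [Finite V]
    (θ : H →* Module.End (ZMod p) V), Function.Injective θ → ∀ m : ℕ,
    (∀ y : H, y ^ p ^ (m + 1) = 1 → (θ y - 1) ^ (p ^ (m + 1) - 1) = 0) → AbCent p m H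

/-- **KeyA**: the non-exceptional step (`p` odd, `p` not Fermat or abelian Sylow 2-subgroups). -/
def KeyAStatement : Prop :=
  ∀ (Γ : Type u) [Group Γ] [Finite Γ] (p : ℕ) [Fact p.Prime], p ≠ 2 → IsPSolvable p Γ →
    pPrimeCore p Γ = ⊥ →
    ((¬ ∃ k : ℕ, p = 2 ^ k + 1) ∨ ∀ S : Sylow 2 Γ, IsMulCommutative (S : Subgroup Γ)) →
    ∀ (x : Γ), (∃ j, x ^ p ^ j = 1) → ∀ m : ℕ, x ^ p ^ m ∉ pCore p Γ →
    ∃ g : Γ, (∃ j, g ^ p ^ j = 1) ∧ g ^ p ^ (m + 1) ≠ 1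

/-! ## Group theory: the weight argument -/

/-- **CritQ**: a critical pair `(C, Z)` inside an arbitrary `q`-subgroup `Q`, invariant under
everything normalizing `Q`. -/
def CritQStatement : Prop :=
  ∀ (H : Type u) [Group H] [Finite H] (q : ℕ) [Fact q.Prime] (Q : Subgroup H), IsPGroup q Q →
    ∃ C Z : Subgroup H, C ≤ Q ∧ Z ≤ C ∧
      (∀ g : H, (∀ x ∈ Q, g * x * g⁻¹ ∈ Q) →
        (∀ x ∈ C, g * x * g⁻¹ ∈ C) ∧ (∀ x ∈ Z, g * x * g⁻¹ ∈ Z)) ∧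
      (∀ x ∈ C, ∀ z ∈ Z, x * z = z * x) ∧ (∀ x ∈ C, ∀ y ∈ C, x * y * x⁻¹ * y⁻¹ ∈ Z) ∧
      ∀ y : H, (∀ x ∈ Q, y * x * y⁻¹ ∈ Q) → (orderOf y).Coprime q →
        (∀ x ∈ C, y * x = x * y) → ∀ x ∈ Q, y * x = x * y

/-- **Faith**: an element not centralizing the normal `p'`-subgroup `Kb` fails to centralize some
`D`-invariant `q`-subgroup of `Kb` (`D` a `p`-subgroup). -/
def FaithStatement : Prop :=
  ∀ (H : Type u) [Group H] [Finite H] (p : ℕ) [Fact p.Prime] (Kb D : Subgroup H), Kb.Normal →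
    (Nat.card Kb).Coprime p → IsPGroup p D → ∀ z : H, (∃ k ∈ Kb, z * k ≠ k * z) →
    ∃ (q : ℕ) (_ : Fact q.Prime) (Q : Subgroup H), q ≠ p ∧ IsPGroup q Q ∧ Q ≤ Kb ∧
      (∀ d ∈ D, ∀ x ∈ Q, d * x * d⁻¹ ∈ Q) ∧ ∃ a ∈ Q, z * a ≠ a * z

/-- **Irr**: a minimal `B`-invariant `X` between `Z` and `C` on which `z` acts nontrivially mod
`Z`: `z` is fixed-point-free on `X/Z`, and every `β ∈ B` is trivial or fixed-point-free on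
`X/Z`. -/
def IrrStatement : Prop :=
  ∀ (H : Type u) [Group H] [Finite H] (p : ℕ) [Fact p.Prime] (B C Z : Subgroup H),
    (∀ a ∈ B, ∀ b ∈ B, a * b = b * a) → Z ≤ C → (Nat.card C).Coprime p →
    (∀ x ∈ C, ∀ ζ ∈ Z, x * ζ = ζ * x) → (∀ x ∈ C, ∀ y ∈ C, x * y * x⁻¹ * y⁻¹ ∈ Z) →
    (∀ β ∈ B, ∀ x ∈ C, β * x * β⁻¹ ∈ C) → (∀ β ∈ B, ∀ x ∈ Z, β * x * β⁻¹ ∈ Z) →
    ∀ z ∈ B, z ^ p = 1 → (∃ x ∈ C, z * x * z⁻¹ * x⁻¹ ∉ Z) →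
    ∃ X : Subgroup H, Z ≤ X ∧ X ≤ C ∧ (∀ β ∈ B, ∀ x ∈ X, β * x * β⁻¹ ∈ X) ∧ (∃ x ∈ X, x ∉ Z) ∧
      (∀ x ∈ X, z * x * z⁻¹ * x⁻¹ ∈ Z → x ∈ Z) ∧
      ∀ β ∈ B, (∀ x ∈ X, β * x * β⁻¹ * x⁻¹ ∈ Z) ∨ (∀ x ∈ X, β * x * β⁻¹ * x⁻¹ ∈ Z → x ∈ Z)

/-- **Orth**: if `β` is trivial on `X₁/Z` and fixed-point-free on `X₂/Z` (and centralizes `Z`),
then `X₁` and `X₂` commute elementwise. -/
def OrthStatement : Prop :=
  ∀ (H : Type u) [Group H] [Finite H] (C Z X₁ X₂ : Subgroup H), Z ≤ X₁ → X₁ ≤ C → Z ≤ X₂ →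
    X₂ ≤ C → (∀ x ∈ C, ∀ ζ ∈ Z, x * ζ = ζ * x) → (∀ x ∈ C, ∀ y ∈ C, x * y * x⁻¹ * y⁻¹ ∈ Z) →
    ∀ β : H, (∀ ζ ∈ Z, β * ζ = ζ * β) → (∀ x ∈ X₂, β * x * β⁻¹ ∈ X₂) →
    (∀ x ∈ X₁, β * x * β⁻¹ * x⁻¹ ∈ Z) → (∀ x ∈ X₂, β * x * β⁻¹ * x⁻¹ ∈ Z → x ∈ Z) →
    ∀ x ∈ X₁, ∀ x' ∈ X₂, x * x' = x' * x

/-- **F5**: commuting `b`, `z` of order dividing `p` acting on `X/Z` (`p'`-group), `z`
fixed-point-free and `X ≠ Z`: some `b z^j` has a nontrivial fixed point on `X/Z`. -/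
def F5Statement : Prop :=
  ∀ (H : Type u) [Group H] [Finite H] (p : ℕ) [Fact p.Prime] (X Z : Subgroup H), Z ≤ X →
    (Nat.card X).Coprime p → (∀ x ∈ X, ∀ ζ ∈ Z, x * ζ = ζ * x) →
    (∀ x ∈ X, ∀ y ∈ X, x * y * x⁻¹ * y⁻¹ ∈ Z) →
    ∀ b z : H, b * z = z * b → b ^ p = 1 → z ^ p = 1 →
    (∀ x ∈ X, b * x * b⁻¹ ∈ X) → (∀ x ∈ Z, b * x * b⁻¹ ∈ Z) →
    (∀ x ∈ X, z * x * z⁻¹ ∈ X) → (∀ x ∈ Z, z * x * z⁻¹ ∈ Z) →
    (∃ x ∈ X, x ∉ Z) → (∀ x ∈ X, z * x * z⁻¹ * x⁻¹ ∈ Z → x ∈ Z) →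
    ∃ j : ℕ, ∃ x ∈ X, x ∉ Z ∧ (b * z ^ j) * x * (b * z ^ j)⁻¹ * x⁻¹ ∈ Z

/-- **Cyc**: if `y^(p^(m+1)) = 1` and `p^(m+1) ∤ j`, some power of `y^j` is `y^(p^m)`. -/
def CycStatement : Prop :=
  ∀ (H : Type u) [Group H] (p : ℕ) [Fact p.Prime] (m : ℕ) (y : H), y ^ p ^ (m + 1) = 1 →
    ∀ j : ℕ, ¬ p ^ (m + 1) ∣ j → ∃ t : ℕ, y ^ (j * t) = y ^ p ^ m

/-- **WT** (the weight argument): `B` an abelian subgroup of exponent `p` of the `p`-group `D`,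
centralizing all `D`-invariant abelian subgroups of the normal `p'`-subgroup `Kb ⊇ C_H(Kb)`;
`y ∈ D` normalizes `B`, `y₀ = y^(p^m)` centralizes all `y`-invariant abelian subgroups of `Kb`.
If `b ∈ B` and `[b, y₀]` commutes with `y₀`, then `b` commutes with `y₀`. -/
def WTStatement : Prop :=
  ∀ (H : Type u) [Group H] [Finite H] (p : ℕ) [Fact p.Prime] (m : ℕ) (Kb D B : Subgroup H),
    Kb.Normal → (Nat.card Kb).Coprime p → Subgroup.centralizer (Kb : Set H) ≤ Kb →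
    IsPGroup p D → B ≤ D → (∀ a ∈ B, ∀ b ∈ B, a * b = b * a) → (∀ b ∈ B, b ^ p = 1) →
    (∀ A : Subgroup H, A ≤ Kb → (∀ a ∈ A, ∀ b ∈ A, a * b = b * a) →
      (∀ d ∈ D, ∀ a ∈ A, d * a * d⁻¹ ∈ A) → ∀ β ∈ B, ∀ a ∈ A, β * a = a * β) →
    ∀ y ∈ D, y ^ p ^ (m + 1) = 1 → (∀ β ∈ B, y * β * y⁻¹ ∈ B) →
    (∀ A : Subgroup H, A ≤ Kb → (∀ a ∈ A, ∀ b ∈ A, a * b = b * a) →
      (∀ a ∈ A, y * a * y⁻¹ ∈ A) → ∀ a ∈ A, y ^ p ^ m * a = a * y ^ p ^ m) →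
    ∀ b ∈ B, (b * y ^ p ^ m * b⁻¹ * (y ^ p ^ m)⁻¹) * y ^ p ^ m =
        y ^ p ^ m * (b * y ^ p ^ m * b⁻¹ * (y ^ p ^ m)⁻¹) →
      b * y ^ p ^ m = y ^ p ^ m * b

/-! ## Group theory: `p`-groups -/

/-- **NAB**: in a finite `p`-group `D` (`p` odd), a conjugation-closed set `S` of elements of
order dividing `p` that is not pairwise commuting yields a normal abelian subgroup `B` of
exponent `p` inside `⟨S⟩`, `b ∈ B` and `s ∈ S` with `[b, s] ≠ 1` commuting with `s`. -/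
def NABStatement : Prop :=
  ∀ (D : Type u) [Group D] [Finite D] (p : ℕ) [Fact p.Prime], p ≠ 2 → IsPGroup p D →
    ∀ S : Set D, (∀ s ∈ S, s ^ p = 1) → (∀ d : D, ∀ s ∈ S, d * s * d⁻¹ ∈ S) →
    (¬ ∀ s ∈ S, ∀ t ∈ S, s * t = t * s) →
    ∃ B : Subgroup D, B ≤ Subgroup.closure S ∧ B.Normal ∧ (∀ a ∈ B, ∀ b ∈ B, a * b = b * a) ∧
      (∀ b ∈ B, b ^ p = 1) ∧ ∃ b ∈ B, ∃ s ∈ S, b * s ≠ s * b ∧
        (b * s * b⁻¹ * s⁻¹) * s = s * (b * s * b⁻¹ * s⁻¹)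

/-- **MAB**: under `AbCent`, the `p^m`-th powers of the elements of a `p`-subgroup of exponent
dividing `p^(m+1)` commute pairwise (`p` odd). -/
def MABStatement : Prop :=
  ∀ (H : Type u) [Group H] [Finite H] (p : ℕ) [Fact p.Prime], p ≠ 2 → IsPSolvable p H →
    pCore p H = ⊥ → ∀ m : ℕ, AbCent p m H → ∀ D : Subgroup H, IsPGroup p D →
    (∀ d ∈ D, d ^ p ^ (m + 1) = 1) →
    ∀ x ∈ D, ∀ y ∈ D, x ^ p ^ m * y ^ p ^ m = y ^ p ^ m * x ^ p ^ m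

/-- **CoreH**: under `AbCent` and exponent `p^(m+1)`, every `x^(p^m)` lies in `O_{p',p}(H)`. -/
def CoreHStatement : Prop :=
  ∀ (H : Type u) [Group H] [Finite H] (p : ℕ) [Fact p.Prime], p ≠ 2 → IsPSolvable p H →
    pCore p H = ⊥ → ∀ m : ℕ, AbCent p m H →
    (∀ g : H, (∃ j, g ^ p ^ j = 1) → g ^ p ^ (m + 1) = 1) →
    ∀ x : H, (∃ j, x ^ p ^ j = 1) →
      QuotientGroup.mk' (pPrimeCore p H) (x ^ p ^ m) ∈ pCore p (H ⧸ pPrimeCore p H)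

/-- **KeyB**: the two-layer step: if all `p^(n+1)`-th powers of `p`-elements lie in `M`, then all
`p^n`-th powers lie in the fourth term of the upper `p`-series above `M`. -/
def KeyBStatement : Prop :=
  ∀ (G : Type u) [Group G] [Finite G] (p : ℕ) [Fact p.Prime], p ≠ 2 → IsPSolvable p G →
    ∀ (n : ℕ) (M : {H : Subgroup G // H.Normal}),
      (∀ g : G, (∃ j, g ^ p ^ j = 1) → g ^ p ^ (n + 1) ∈ M.1) →
      ∀ g : G, (∃ j, g ^ p ^ j = 1) → g ^ p ^ n ∈ (H14.relSeries p G M 4).1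

end Cfsg.Agent.H66.HHF
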