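import Cfsg.Agent.H52.SoDefs

/-!
# S2944 (`N_G(K) = N_G(W_K)` for `K` in the zero family): statements of the pieces

Team project led by helper66, on top of helper52's pieces for S2942 / S2943 (`SnDefs`, `SoDefs`),
after the paper blueprints of helper68 and helper79.

Route.  `W = W_K`, `N = N_G(W)` (a 2-local subgroup), `J = J(T) ≤ N_G(K) ≤ N`.  Choose a Sylow
2-subgroup `S` of `N` over `J`; the zero-family condition gives `J(S) = J(T)`, so `K` is a
`J(S)`-component and `N` lies in the family of `S`.  Inside `X = ↥N` (`Q = O₂(X)`,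
`V = Ω₁(Z(Q))`, `C = C_X(V)`, `M = J(X)`): `W = [V, K]` is normal in `X`, so `K C` is normal
(UNIQ); the odd-order elements of `M` commute modulo `Q` (ODDQ, from the full structure theorem
S0617 and `[C, M] ≤ Q`), which forces `K^n Q = K Q` for all `n` (KQN) and then `K^n = K` (KN).
For the second claim, `J(T^g) ≤ N` is `J(T^m)` for some `m ∈ N` (JEQ) and `K^m = K`.
-/

set_option autoImplicit false
open Cfsg

namespace Cfsg.Agent.H66.Sp

open Cfsg.Agent.H52.Sn

universe u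

/-- CONJG: transport by conjugation with an arbitrary element. -/
def StConjG : Prop := ∀ {G : Type u} [Group G] [Finite G] (T K : Subgroup G) (g : G),
  thompsonSubgroupOf 2 (T.map (MulAut.conj g).toMonoidHom) =
      (thompsonSubgroupOf 2 T).map (MulAut.conj g).toMonoidHom ∧
  wOf (K.map (MulAut.conj g).toMonoidHom) = (wOf K).map (MulAut.conj g).toMonoidHom ∧
  (IsJComponent T K →
    IsJComponent (T.map (MulAut.conj g).toMonoidHom) (K.map (MulAut.conj g).toMonoidHom))

/-- BASIC: elementary facts about a `J(T)`-component. -/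
def StBasic : Prop := ∀ {G : Type u} [Group G] [Finite G] (T K : Subgroup G), IsJComponent T K →
  K ≤ Subgroup.normalizer (wOf K : Set G) ∧
  thompsonSubgroupOf 2 T ≤ Subgroup.normalizer (K : Set G) ∧
  Subgroup.normalizer (K : Set G) ≤ Subgroup.normalizer (wOf K : Set G) ∧
  IsPGroup 2 ↥(wOf K) ∧ wOf K ≠ ⊥ ∧ thompsonSubgroupOf 2 T ≠ ⊥

/-- SYL: a 2-subgroup of `N` lies in a Sylow 2-subgroup of `N`. -/
def StSyl : Prop := ∀ {G : Type u} [Group G] [Finite G] (P N : Subgroup G),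
  IsPGroup 2 ↥P → P ≤ N → ∃ S : Subgroup G, P ≤ S ∧ IsSylowTwoIn S N

/-- LFAM: `N_G(W_K)` lies in the family of each of its Sylow 2-subgroups `S` for which `K` is a
`J(S)`-component. -/
def StLFam : Prop := ∀ {G : Type u} [Group G] [Finite G], IsCharacteristicTwoType G →
  ∀ (S K : Subgroup G), IsJComponent S K →
  IsSylowTwoIn S (Subgroup.normalizer (wOf K : Set G)) →
  Subgroup.normalizer (wOf K : Set G) ∈ jOvergroups S

/-- KCN: if `[V, K]` (of order 4) is normal in `X`, then `K C` is normal in `X`. -/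
def StKCN : Prop := ∀ {X : Type u} [Group X] [Finite X] (V T Q M J K O : Subgroup X) [V.Normal],
  IsElementaryAbelian 2 V →
  Facts T (Subgroup.centralizer (V : Set X)) Q M J K O → O ≤ Q →
  Nat.card ↥⁅V, K⁆ = 4 → (⁅V, K⁆).Normal →
  ∀ n : X, K.map (MulAut.conj n).toMonoidHom ⊔ Subgroup.centralizer (V : Set X) =
    K ⊔ Subgroup.centralizer (V : Set X)

/-- KQN: if the odd-order elements of `M` commute modulo `Q` and `K C` is normal, then every
conjugate of `K` lies in `K Q`. -/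
def StKQN : Prop := ∀ {X : Type u} [Group X] [Finite X] (C Q M J K O : Subgroup X),
  C.Normal → Q.Normal → M.Normal → IsPGroup 2 ↥Q → Q ≤ C → ⁅C, J⁆ ≤ Q → J ≤ M →
  (∀ x ∈ M, ∀ y ∈ M, Odd (orderOf x) → Odd (orderOf y) → x * y * x⁻¹ * y⁻¹ ∈ Q) →
  Subgroup.closure {g : X | g ∈ K ∧ Odd (orderOf g)} = K → ⁅K, J⁆ = K →
  O ≤ K → O ≤ Q → O.relIndex K = 3 → ¬ K ≤ C → ⁅K, C⁆ ≤ Q →
  (∀ n : X, K.map (MulAut.conj n).toMonoidHom ⊔ C = K ⊔ C) →
  ∀ n : X, K.map (MulAut.conj n).toMonoidHom ≤ K ⊔ Q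

/-- KN: a subgroup generated by its odd-order elements, normalized by the normal 2-subgroup `Q`,
all of whose conjugates lie in `K Q`, is normal. -/
def StKN : Prop := ∀ {X : Type u} [Group X] [Finite X] (Q K : Subgroup X),
  Q.Normal → IsPGroup 2 ↥Q → Q ≤ Subgroup.normalizer (K : Set X) →
  Subgroup.closure {g : X | g ∈ K ∧ Odd (orderOf g)} = K →
  (∀ n : X, K.map (MulAut.conj n).toMonoidHom ≤ K ⊔ Q) → K.Normal

/-- CEXT: if `ψ` maps `M` onto a group generated by independent normal copies of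
`SL(2,2) ≅ S₃`, and the kernel of `ψ` is central in `M` modulo `Q` with `ker ψ / Q` of odd order,
then the odd-order elements of `M` commute modulo `Q`. -/
def StCExt : Prop := ∀ {X : Type u} [Group X] [Finite X] {Hh : Type u} [Group Hh] [Finite Hh]
    (ψ : X →* Hh) (M Q : Subgroup X) {ι : Type u} (E : ι → Subgroup Hh),
  M.Normal → Q.Normal → Q ≤ ψ.ker → ⁅ψ.ker, M⁆ ≤ Q → Odd (Q.relIndex ψ.ker) →
  (∀ i, M.map ψ ≤ Subgroup.normalizer ((E i : Subgroup Hh) : Set Hh)) →
  (∀ i, Nonempty (↥(E i) ≃* Matrix.SpecialLinearGroup (Fin 2) (ZMod 2))) →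
  iSupIndep E → (⨆ i, E i) = M.map ψ →
  ∀ x ∈ M, ∀ y ∈ M, Odd (orderOf x) → Odd (orderOf y) → x * y * x⁻¹ * y⁻¹ ∈ Q

/-- ODDQ: under the hypotheses of GL and RED, the odd-order elements of `J(X)` commute modulo
`O₂(X)` (and not only modulo `C_X(V)`). -/
def StOddQ : Prop := ∀ {X : Type u} [Group X] [Finite X] (V T : Subgroup X) [V.Normal],
  IsElementaryAbelian 2 V → IsPSolvable 2 X →
  pCore 2 (X ⧸ Subgroup.centralizer (V : Set X)) = ⊥ →
  IsPGroup 2 ↥T → Odd T.index →
  pCore 2 X ≤ Subgroup.centralizer (V : Set X) →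
  T ⊓ Subgroup.centralizer (V : Set X) ≤ pCore 2 X →
  Subgroup.centralizer (V : Set X) ≤ Subgroup.normalizer (T : Set X) →
  ∀ x ∈ thompsonSubgroup 2 X, ∀ y ∈ thompsonSubgroup 2 X, Odd (orderOf x) → Odd (orderOf y) →
    x * y * x⁻¹ * y⁻¹ ∈ pCore 2 X

/-- JEQ: a conjugate of `J(T)` inside `N` is `J(T^m)` for some `m ∈ N`, when `J(T) = J(S)` for a
Sylow 2-subgroup `S` of `N`. -/
def StJEq : Prop := ∀ {G : Type u} [Group G] [Finite G] (T S N : Subgroup G) (g : G),
  IsPGroup 2 ↥T → IsSylowTwoIn S N →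
  thompsonSubgroupOf 2 S = thompsonSubgroupOf 2 T →
  thompsonSubgroupOf 2 (T.map (MulAut.conj g).toMonoidHom) ≤ N →
  ∃ m ∈ N, thompsonSubgroupOf 2 (T.map (MulAut.conj g).toMonoidHom) =
    thompsonSubgroupOf 2 (T.map (MulAut.conj m).toMonoidHom)

/-- The statement S2944. -/
def StMain3 : Prop := ∀ {G : Type u} [Group G] [Finite G],
  IsCharacteristicTwoType G →
  (∀ N : Subgroup G, IsTwoLocal N → Group.IsSolvable ↥N) →
  (∀ S : Sylow 2 G, Subgroup.centralizer (omegaCenterOf (S : Subgroup G) : Set G) ≤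
      Subgroup.normalizer ((S : Subgroup G) : Set G)) →
  ∀ (T : Subgroup G), IsPGroup 2 ↥T → T ≠ ⊥ → ∀ (K : Subgroup G), K ∈ jComponentsZero T →
  Subgroup.normalizer (K : Set G) = Subgroup.normalizer (wOf K : Set G) ∧
    ∀ g : G, thompsonSubgroupOf 2 (T.map (MulAut.conj g).toMonoidHom) ≤
        Subgroup.normalizer (wOf K : Set G) →
      IsJComponent (T.map (MulAut.conj g).toMonoidHom) K

end Cfsg.Agent.H66.Sp
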