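import Mathlib
import Cfsg.Agent.H64.JzDefs
import Cfsg.Agent.H64.JyDefs
import Cfsg.Agent.Helper55.ThJ
import Cfsg.Agent.S2950
import Cfsg.Agent.H39.JzLex

/-! JY-NOTIN (project JY = S2953, helper64): for `T < S` there is `x ∈ N_S(T)` outside `L`
(`T` is a Sylow 2-subgroup of `L` by S2950; normalizers grow in the 2-group `S`). -/

set_option autoImplicit false
open Cfsg

namespace Cfsg.Agent.H66.Jy

open Cfsg.Agent.H64.Jz

universe u

variable {G : Type u} [Group G]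

/-- a Sylow 2-subgroup of `L` contained in a 2-subgroup of `L` equals it -/
theorem sylowIn_eqY [Finite G] {T L S : Subgroup G} (h : IsSylowTwoIn T L) (hTS : T ≤ S)
    (hSL : S ≤ L) (hS : IsPGroup 2 ↥S) : T = S := by
  have : Fact (Nat.Prime 2) := ⟨Nat.prime_two⟩
  obtain ⟨-, -, hodd⟩ := h
  have hmul : T.relIndex S * S.relIndex L = T.relIndex L :=
    Subgroup.relIndex_mul_relIndex T S L hTS hSL
  obtain ⟨n, hn⟩ := hS.index (T.subgroupOf S)
  have hn' : T.relIndex S = 2 ^ n := hn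
  have h1 : T.relIndex S = 1 := by
    rcases Nat.eq_zero_or_pos n with h0 | hpos
    · rw [hn', h0, pow_zero]
    · exfalso
      have hd : 2 ∣ T.relIndex L := by
        rw [← hmul, hn']
        exact Dvd.dvd.mul_right (dvd_pow_self 2 (Nat.pos_iff_ne_zero.mp hpos)) _
      exact (Nat.not_even_iff_odd.mpr hodd) (even_iff_two_dvd.mpr hd)
  exact le_antisymm hTS (Subgroup.relIndex_eq_one.mp h1)

/-- `T` is a Sylow 2-subgroup of the maximal 2-local `L` of a `Base` (S2950) -/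
theorem sylowIn_of_base [Finite G] (S : Sylow 2 G) (M T K L : Subgroup G)
    (hB : Base S M T K L) : IsSylowTwoIn T L := by
  obtain ⟨⟨hL, hN, hZ⟩, hO, hM, hMJ, hT, hTSle, hK, hLmax, hKL⟩ := hB
  obtain ⟨L₀, hL₀max, hKL₀, huniq, -, hsyl₀⟩ :=
    Cfsg.Agent.S2950.result hL hN hZ hO S M hM hMJ T hT K hK
  have hLL₀ : L = L₀ := huniq L hLmax hKL
  rw [hLL₀]
  exact hsyl₀

/-- JY-NOTIN in explicit form -/
theorem notin_of_base [Finite G] (S : Sylow 2 G) (M T K L : Subgroup G)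
    (hB : Base S M T K L) (hne : T ≠ (S : Subgroup G)) :
    ∃ x : G, x ∈ (S : Subgroup G) ∧ x ∈ Subgroup.normalizer (T : Set G) ∧ x ∉ L := by
  have hsyl := sylowIn_of_base S M T K L hB
  have hTS : T ≤ (S : Subgroup G) := hB.2.2.2.2.2.1
  have hS2 : IsPGroup 2 ↥(S : Subgroup G) := S.2
  obtain ⟨x, hxS, hxN, hxT⟩ := Cfsg.Agent.H39.Jz.exists_normalizer_not_mem hS2 hTS hne
  refine ⟨x, hxS, hxN, ?_⟩
  intro hxL
  have hTL : T ≤ L := hsyl.1
  have heq : T = (S : Subgroup G) ⊓ L :=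
    sylowIn_eqY hsyl (le_inf hTS hTL) inf_le_right (hS2.to_le inf_le_left)
  apply hxT
  rw [heq]
  exact ⟨hxS, hxL⟩

/-- JY-NOTIN -/
theorem notIn : Cfsg.Agent.H64.Jy.StNotIn.{u} := by
  intro G _ _ S M T K L hB hne
  obtain ⟨x, hxS, hxN, hxL⟩ := notin_of_base S M T K L hB hne
  have hSM : (S : Subgroup G) ≤ M :=
    (Subgroup.le_normalizer.trans
      (Cfsg.Agent.Helper55.ThJ.normalizer_le (S : Subgroup G))).trans hB.2.2.2.1
  exact ⟨x, hSM hxS, hxN, hxL⟩

example : Cfsg.Agent.H64.Jy.StNotIn.{u} := notIn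

end Cfsg.Agent.H66.Jy
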