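import Mathlib
import Cfsg.Agent.H36.WreathQuot
import Cfsg.Agent.H80.GroupBasic
import Cfsg.Agent.H80.PSolvable

/-!
# Sections of type `C_p ≀ C_p`

* `WrPattern p W`: the abstract description of `C_p ≀ C_p` used in S3787.
* `wrPattern_of_surjective`: the pattern for a quotient.
* `exists_wreath_section`: a group `E` with a normal elementary abelian subgroup `A`, an element
  `y` with `y^p ∈ A` and `x ∈ A` whose norm `∏_{i<p} y^i x y^{-i}` is nontrivial has a section of
  type `C_p ≀ C_p` (in `Type`) carried by a subgroup of `A ⊔ ⟨y⟩`.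
-/

set_option autoImplicit false
set_option linter.style.haveILetI false
set_option linter.unusedVariables false
set_option linter.unusedSectionVars false

namespace Cfsg.Agent.H66

/-- The abstract description of the wreath product `C_p ≀ C_p`. -/
def WrPattern (p : ℕ) (W : Type*) [Group W] : Prop :=
  ∃ (B : Subgroup W) (t : W), B.Normal ∧ IsMulCommutative B ∧ (∀ b ∈ B, b ^ p = 1) ∧
    Nat.card B = p ^ p ∧ orderOf t = p ∧ t ∉ B ∧ Nat.card W = p ^ (p + 1) ∧
    Nat.card ↥(B ⊓ Subgroup.centralizer ({t} : Set W)) = p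

theorem card_map_of_injOn {K W : Type*} [Group K] [Group W] (φ : K →* W) (S : Subgroup K)
    (h : ∀ a ∈ S, ∀ b ∈ S, φ a = φ b → a = b) : Nat.card (S.map φ) = Nat.card S := by
  symm
  apply Nat.card_congr
  refine Equiv.ofBijective (fun s : S => (⟨φ s, Subgroup.mem_map_of_mem φ s.2⟩ : S.map φ)) ⟨?_, ?_⟩
  · intro a b hab
    have h1 : φ a = φ b := congrArg Subtype.val hab
    exact Subtype.ext (h a a.2 b b.2 h1)
  · rintro ⟨w, s, hs, rfl⟩
    exact ⟨⟨s, hs⟩, rfl⟩

theorem wrPattern_of_surjective {K W : Type*} [Group K] [Finite K] [Group W] (p : ℕ)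
    [Fact p.Prime] (φ : K →* W) (hφ : Function.Surjective φ) (B₁ : Subgroup K) [hB₁n : B₁.Normal]
    (hcomm : ∀ a ∈ B₁, ∀ b ∈ B₁, a * b = b * a) (hexp : ∀ b ∈ B₁, b ^ p = 1)
    (hcard : Nat.card B₁ = p ^ p) (t : K) (htop : B₁ ⊔ Subgroup.zpowers t = ⊤)
    (htp : t ^ p ∈ φ.ker) (hker : φ.ker ⊓ B₁ = ⊥) (ht : t ∉ B₁ ⊔ φ.ker)
    (hC : Nat.card ↥(B₁ ⊓ Subgroup.centralizer ({t} : Set K)) = p) : WrPattern p W := by
  have hp : p.Prime := Fact.out
  haveI : Finite W := Finite.of_surjective φ hφ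
  have hinj : ∀ a ∈ B₁, ∀ b ∈ B₁, φ a = φ b → a = b := by
    intro a ha b hb hab
    have h1 : a⁻¹ * b ∈ φ.ker ⊓ B₁ := by
      refine Subgroup.mem_inf.mpr ⟨?_, B₁.mul_mem (B₁.inv_mem ha) hb⟩
      rw [MonoidHom.mem_ker, map_mul, map_inv, hab, inv_mul_cancel]
    rw [hker, Subgroup.mem_bot] at h1
    exact inv_mul_eq_one.mp h1
  have hBn : (B₁.map φ).Normal := hB₁n.map φ hφ
  have htB : φ t ∉ B₁.map φ := by
    rintro ⟨b, hb, hbt⟩
    apply ht
    have h1 : b⁻¹ * t ∈ φ.ker := by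
      rw [MonoidHom.mem_ker, map_mul, map_inv, hbt, inv_mul_cancel]
    have h2 : t = b * (b⁻¹ * t) := by group
    rw [h2]
    exact Subgroup.mul_mem_sup hb h1
  have htp' : φ t ^ p = 1 := by rw [← map_pow]; exact htp
  have ht1 : φ t ≠ 1 := by
    intro h
    exact htB (h ▸ Subgroup.one_mem _)
  have hcardB : Nat.card (B₁.map φ) = p ^ p := by
    rw [card_map_of_injOn φ B₁ hinj, hcard]
  refine ⟨B₁.map φ, φ t, hBn, ⟨⟨?_⟩⟩, ?_, hcardB, orderOf_eq_prime htp' ht1, htB, ?_, ?_⟩
  · rintro ⟨_, a, ha, rfl⟩ ⟨_, b, hb, rfl⟩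
    apply Subtype.ext
    show φ a * φ b = φ b * φ a
    rw [← map_mul, ← map_mul, hcomm a ha b hb]
  · rintro _ ⟨b, hb, rfl⟩
    rw [← map_pow, hexp b hb, map_one]
  · -- card W
    have h1 : B₁.map φ ⊔ Subgroup.zpowers (φ t) = ⊤ := by
      rw [← MonoidHom.map_zpowers, ← Subgroup.map_sup, htop, Subgroup.map_top_of_surjective φ hφ]
    have h2 : Subgroup.zpowers (QuotientGroup.mk' (B₁.map φ) (φ t)) = ⊤ := by
      have h3 := congrArg (Subgroup.map (QuotientGroup.mk' (B₁.map φ))) h1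
      rw [Subgroup.map_sup, QuotientGroup.map_mk'_self, bot_sup_eq, MonoidHom.map_zpowers,
        Subgroup.map_top_of_surjective _ (QuotientGroup.mk'_surjective _)] at h3
      exact h3
    have h4 : orderOf (QuotientGroup.mk' (B₁.map φ) (φ t)) = p := by
      apply orderOf_eq_prime
      · rw [← map_pow, htp', map_one]
      · intro h
        exact htB ((QuotientGroup.eq_one_iff _).mp h)
    have h5 : (B₁.map φ).index = p := by
      rw [Subgroup.index_eq_card, ← Subgroup.card_top (G := W ⧸ B₁.map φ), ← h2, Nat.card_zpowers,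
        h4]
    rw [← Subgroup.card_mul_index (B₁.map φ), hcardB, h5, pow_succ]
  · -- centralizer
    have h1 : B₁.map φ ⊓ Subgroup.centralizer ({φ t} : Set W) =
        (B₁ ⊓ Subgroup.centralizer ({t} : Set K)).map φ := by
      ext w
      constructor
      · intro hw
        obtain ⟨⟨b, hb, rfl⟩, hw2⟩ := Subgroup.mem_inf.mp hw
        refine ⟨b, Subgroup.mem_inf.mpr ⟨hb, ?_⟩, rfl⟩
        rw [Subgroup.mem_centralizer_iff] at hw2 ⊢
        intro h hh
        rw [Set.mem_singleton_iff] at hh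
        rw [hh]
        have h2 := hw2 (φ t) rfl
        have h3 : t * b * t⁻¹ ∈ B₁ := hB₁n.conj_mem b hb t
        have h4 : t * b * t⁻¹ = b := by
          apply hinj _ h3 b hb
          rw [map_mul, map_mul, map_inv, h2, mul_inv_cancel_right]
        calc t * b = t * b * t⁻¹ * t := by group
          _ = b * t := by rw [h4]
      · rintro ⟨b, hb, rfl⟩
        obtain ⟨hb1, hb2⟩ := Subgroup.mem_inf.mp hb
        refine Subgroup.mem_inf.mpr ⟨Subgroup.mem_map_of_mem φ hb1, ?_⟩
        rw [Subgroup.mem_centralizer_iff] at hb2 ⊢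
        intro h hh
        rw [Set.mem_singleton_iff] at hh
        rw [hh, ← map_mul, ← map_mul, hb2 t rfl]
    rw [h1, card_map_of_injOn φ _ (fun a ha b hb => hinj a (Subgroup.mem_inf.mp ha).1 b
      (Subgroup.mem_inf.mp hb).1), hC]

/-- A copy of `Fin n` carrying no algebraic instances. -/
def FinCopy (n : ℕ) : Type := Fin n

instance instFiniteFinCopy (n : ℕ) : Finite (FinCopy n) := inferInstanceAs (Finite (Fin n))

theorem exists_type_zero_quotient {K : Type*} [Group K] [Finite K] (N : Subgroup K) [N.Normal] :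
    ∃ (W : Type) (_ : Group W) (_ : Finite W) (φ : K →* W), Function.Surjective φ ∧ φ.ker = N := by
  let e : FinCopy (Nat.card (K ⧸ N)) ≃ K ⧸ N := (Finite.equivFin (K ⧸ N)).symm
  letI : Group (FinCopy (Nat.card (K ⧸ N))) := e.group
  let e' : FinCopy (Nat.card (K ⧸ N)) ≃* K ⧸ N :=
    { e with map_mul' := fun a b => e.apply_symm_apply (e a * e b) }
  refine ⟨FinCopy (Nat.card (K ⧸ N)), inferInstance, inferInstance,
    e'.symm.toMonoidHom.comp (QuotientGroup.mk' N), ?_, ?_⟩
  · exact e'.symm.surjective.comp (QuotientGroup.mk'_surjective N)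
  · ext k
    rw [MonoidHom.mem_ker, MonoidHom.comp_apply]
    show e'.symm (QuotientGroup.mk' N k) = 1 ↔ k ∈ N
    rw [MulEquiv.map_eq_one_iff]
    exact QuotientGroup.eq_one_iff k

/-- `∏_{i<k} y^i x y^{-i}`. -/
def normProd {E : Type*} [Group E] (y x : E) : ℕ → E
  | 0 => 1
  | k + 1 => normProd y x k * (y ^ k * x * (y ^ k)⁻¹)

theorem normProd_mul_pow {E : Type*} [Group E] (y x : E) :
    ∀ k, normProd y x k * y ^ k = (x * y) ^ k
  | 0 => by simp [normProd]
  | k + 1 => by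
    rw [normProd, pow_succ (x * y), ← normProd_mul_pow y x k, pow_succ]
    group

theorem map_normProd {E F : Type*} [Group E] [Group F] (f : E →* F) (y x : E) :
    ∀ k, f (normProd y x k) = normProd (f y) (f x) k
  | 0 => by simp [normProd]
  | k + 1 => by
    rw [normProd, normProd, map_mul, map_normProd f y x k]
    simp

open scoped IsMulCommutative in
theorem exists_wreath_data {E : Type*} [Group E] [Finite E] (p : ℕ) [Fact p.Prime]
    (A : Subgroup E) [hAn : A.Normal] (hAc : ∀ a ∈ A, ∀ b ∈ A, a * b = b * a)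
    (hAe : ∀ a ∈ A, a ^ p = 1)
    (y : E) (hyp : y ^ p ∈ A) (x : E) (hx : x ∈ A) (hz : normProd y x p ≠ 1) :
    ∃ (B₁ N : Subgroup E) (t : E), B₁ ≤ A ∧ Nat.card B₁ = p ^ p ∧
      t ∈ Subgroup.normalizer (B₁ : Set E) ∧ t ^ p ∈ N ∧ N ≤ A ∧ (∀ n ∈ N, t * n = n * t) ∧
      N ⊓ B₁ = ⊥ ∧ t ∉ A ∧ Nat.card ↥(B₁ ⊓ Subgroup.centralizer ({t} : Set E)) = p ∧
      t ∈ A ⊔ Subgroup.zpowers y ∧ N ≤ Subgroup.zpowers t := by
  classical
  have hp : p.Prime := Fact.out
  have hp0 : 0 < p := hp.pos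
  have hyA : y ∉ A := by
    intro hy
    apply hz
    have h1 : ∀ k, normProd y x k = x ^ k := by
      intro k
      induction k with
      | zero => simp [normProd]
      | succ k ih =>
        have h2 : y ^ k * x * (y ^ k)⁻¹ = x := by
          have h3 : y ^ k * x = x * y ^ k := hAc _ (A.pow_mem hy k) _ hx
          rw [h3, mul_inv_cancel_right]
        rw [normProd, ih, h2, pow_succ]
    rw [h1, hAe x hx]
  obtain ⟨g, hg⟩ : ∃ g : ℕ → E, ∀ i, g i = y ^ i * x * (y ^ i)⁻¹ :=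
    ⟨fun i => y ^ i * x * (y ^ i)⁻¹, fun i => rfl⟩
  have hgA : ∀ i, g i ∈ A := by
    intro i; rw [hg]; exact hAn.conj_mem x hx (y ^ i)
  have hgsucc : ∀ i, y * g i * y⁻¹ = g (i + 1) := by
    intro i; rw [hg, hg, pow_succ']; group
  have hg0 : g 0 = x := by rw [hg]; simp
  have hgp : g p = g 0 := by
    rw [hg0, hg]
    have h3 : y ^ p * x = x * y ^ p := hAc _ hyp _ hx
    rw [h3, mul_inv_cancel_right]
  obtain ⟨Bk, hBk0, hBks⟩ : ∃ Bk : ℕ → Subgroup E, Bk 0 = ⊥ ∧
      ∀ k, Bk (k + 1) = Bk k ⊔ Subgroup.zpowers (g k) :=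
    ⟨fun k => Nat.rec ⊥ (fun k B => B ⊔ Subgroup.zpowers (g k)) k, rfl, fun k => rfl⟩
  have hBkA : ∀ k, Bk k ≤ A := by
    intro k
    induction k with
    | zero => rw [hBk0]; exact bot_le
    | succ k ih => rw [hBks]; exact sup_le ih (Subgroup.zpowers_le.mpr (hgA k))
  have hBkmono : ∀ k l, k ≤ l → Bk k ≤ Bk l := by
    intro k l hkl
    induction hkl with
    | refl => exact le_rfl
    | step _ ih => rw [hBks]; exact ih.trans le_sup_left
  have hgmem : ∀ i k, i < k → g i ∈ Bk k := by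
    intro i k hik
    have h1 : g i ∈ Bk (i + 1) := by
      rw [hBks]; exact Subgroup.mem_sup_right (Subgroup.mem_zpowers _)
    exact hBkmono (i + 1) k hik h1
  have hBkcard : ∀ k, Nat.card (Bk k) ∣ p ^ k := by
    intro k
    induction k with
    | zero => rw [hBk0, Subgroup.card_bot, pow_zero]
    | succ k ih =>
      rw [hBks, pow_succ]
      have h1 : Bk k ≤ Subgroup.normalizer ((Subgroup.zpowers (g k) : Subgroup E) : Set E) := by
        refine le_trans ?_ (Subgroup.centralizer_le_normalizer _)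
        intro b hb
        rw [Subgroup.mem_centralizer_iff]
        intro h hh
        obtain ⟨j, rfl⟩ := Subgroup.mem_zpowers_iff.mp hh
        exact hAc _ (A.zpow_mem (hgA k) j) _ (hBkA k hb)
      have h2 := H80.card_sup_dvd_mul (Bk k) (Subgroup.zpowers (g k)) h1
      have h3 : Nat.card (Subgroup.zpowers (g k)) ∣ p := by
        rw [Nat.card_zpowers]; exact orderOf_dvd_of_pow_eq_one (hAe _ (hgA k))
      exact h2.trans (Nat.mul_dvd_mul ih h3)
  obtain ⟨B₁, hB₁⟩ : ∃ B₁ : Subgroup E, B₁ = Bk p := ⟨_, rfl⟩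
  have hB₁A : B₁ ≤ A := by rw [hB₁]; exact hBkA p
  have hxB₁ : x ∈ B₁ := by rw [hB₁, ← hg0]; exact hgmem 0 p hp0
  have hyconj : ∀ b ∈ B₁, y * b * y⁻¹ ∈ B₁ := by
    have h1 : ∀ k, k ≤ p → Bk k ≤ (Bk p).comap (MulAut.conj y).toMonoidHom := by
      intro k
      induction k with
      | zero => intro _; rw [hBk0]; exact bot_le
      | succ k ih =>
        intro hk
        rw [hBks]
        refine sup_le (ih (by omega)) ?_
        rw [Subgroup.zpowers_le, Subgroup.mem_comap]
        show y * g k * y⁻¹ ∈ Bk p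
        rw [hgsucc]
        rcases Nat.lt_or_ge (k + 1) p with h | h
        · exact hgmem (k + 1) p h
        · have e : k + 1 = p := by omega
          rw [e, hgp]; exact hgmem 0 p hp0
    intro b hb
    rw [hB₁] at hb ⊢
    exact h1 p le_rfl hb
  have hyN : y ∈ Subgroup.normalizer (B₁ : Set E) := Subgroup.mem_normalizer_fintype hyconj
  haveI : IsMulCommutative ↥B₁ :=
    ⟨⟨fun a b => Subtype.ext (hAc _ (hB₁A a.2) _ (hB₁A b.2))⟩⟩
  let c : ↥B₁ →* ↥B₁ := MonoidHom.mk' (fun b => ⟨y * b * y⁻¹, hyconj b b.2⟩)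
    (by intro a b; apply Subtype.ext; simp [mul_assoc])
  have hccoe : ∀ b : ↥B₁, ((c b : ↥B₁) : E) = y * b * y⁻¹ := fun b => rfl
  have hciter : ∀ (i : ℕ) (b : ↥B₁), ((c^[i] b : ↥B₁) : E) = y ^ i * b * (y ^ i)⁻¹ := by
    intro i
    induction i with
    | zero => intro b; simp
    | succ i ih =>
      intro b
      rw [Function.iterate_succ_apply', hccoe, ih, pow_succ']
      group
  have hc : ∀ a : ↥B₁, c^[p] a = a := by
    intro a
    apply Subtype.ext
    rw [hciter]
    have h3 : y ^ p * (a : E) = a * y ^ p := hAc _ hyp _ (hB₁A a.2)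
    rw [h3, mul_inv_cancel_right]
  have hprodcoe : ∀ (b : ↥B₁) (k : ℕ),
      ((∏ i ∈ Finset.range k, c^[i] b : ↥B₁) : E) = normProd y b k := by
    intro b k
    induction k with
    | zero => simp [normProd]
    | succ k ih => rw [Finset.prod_range_succ, Subgroup.coe_mul, ih, hciter, normProd]
  obtain ⟨x₁, hx₁⟩ : ∃ x₁ : ↥B₁, x₁ = ⟨x, hxB₁⟩ := ⟨_, rfl⟩
  obtain ⟨z₁, hz₁⟩ : ∃ z₁ : ↥B₁, z₁ = ∏ i ∈ Finset.range p, c^[i] x₁ := ⟨_, rfl⟩
  have hz₁coe : (z₁ : E) = normProd y x p := by rw [hz₁, hprodcoe, hx₁]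
  have hz₁ne : z₁ ≠ 1 := by
    intro h
    apply hz
    rw [← hz₁coe, h]; rfl
  have hexpM : ∀ a : ↥B₁, a ^ p = 1 := by
    intro a
    apply Subtype.ext
    rw [Subgroup.coe_pow]
    exact hAe a (hB₁A a.2)
  obtain ⟨B₀, hzB₀, hB₀idx⟩ := H36.exists_index_prime_notMem hexpM z₁ hz₁ne
  have hge := H36.card_ge_of_norm_notMem hexpM c hc x₁ ⊥ B₀ bot_le (by
    intro k hk
    rw [Subgroup.mem_bot] at hk ⊢
    rw [hk, map_one]) (by rw [← hz₁]; exact hzB₀)
  rw [Subgroup.card_bot, mul_one] at hge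
  have hcardB₁ : Nat.card ↥B₁ = p ^ p := by
    apply Nat.le_antisymm
    · exact Nat.le_of_dvd (pow_pos hp0 p) (by rw [hB₁]; exact hBkcard p)
    · exact hge
  let Cfix : Subgroup ↥B₁ := MonoidHom.eqLocus c (MonoidHom.id ↥B₁)
  have hCfix : ∀ b : ↥B₁, b ∈ Cfix ↔ c b = b := fun b => Iff.rfl
  have hz₁fix : z₁ ∈ Cfix := by
    rw [hCfix, hz₁, map_prod]
    have h1 : ∀ i, c (c^[i] x₁) = c^[i + 1] x₁ :=
      fun i => (Function.iterate_succ_apply' c i x₁).symm
    simp only [h1]
    have h2 := Finset.prod_range_succ (fun i => c^[i] x₁) p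
    have h3 := Finset.prod_range_succ' (fun i => c^[i] x₁) p
    rw [h2] at h3
    rw [hc x₁] at h3
    exact (mul_right_cancel h3).symm
  have hK₀ : Nat.card ↥(Cfix ⊓ B₀) = 1 := by
    have h1 := H36.card_ge_of_norm_notMem hexpM c hc x₁ (Cfix ⊓ B₀) B₀ inf_le_right (by
      intro k hk
      have h2 : c k = k := (hCfix k).mp (Subgroup.mem_inf.mp hk).1
      rw [h2]; exact hk) (by rw [← hz₁]; exact hzB₀)
    rw [hcardB₁] at h1
    have h2 : 0 < Nat.card ↥(Cfix ⊓ B₀) := Nat.card_pos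
    have h3 : 0 < p ^ p := pow_pos hp0 p
    nlinarith
  have hCfixcard : Nat.card ↥Cfix = p := by
    have h1 := H80.card_eq_card_mul_relIndex (inf_le_left : Cfix ⊓ B₀ ≤ Cfix)
    rw [hK₀, one_mul] at h1
    have h2 : (Cfix ⊓ B₀).relIndex Cfix = B₀.relIndex Cfix := by
      rw [inf_comm]; exact Subgroup.inf_relIndex_right B₀ Cfix
    have h3 : B₀.relIndex Cfix ∣ p := by
      rw [← hB₀idx]; exact Subgroup.relIndex_dvd_index_of_normal B₀ Cfix
    rw [h2] at h1
    rw [← h1] at h3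
    rcases (Nat.dvd_prime hp).mp h3 with h4 | h4
    · exfalso
      have h5 : Cfix = ⊥ := Subgroup.card_eq_one.mp h4
      rw [h5, Subgroup.mem_bot] at hz₁fix
      exact hz₁ne hz₁fix
    · exact h4
  have hCE : Nat.card ↥(B₁ ⊓ Subgroup.centralizer ({y} : Set E)) = p := by
    have h1 : Cfix = (B₁ ⊓ Subgroup.centralizer ({y} : Set E)).subgroupOf B₁ := by
      ext b
      rw [hCfix, Subgroup.mem_subgroupOf, Subgroup.mem_inf, Subgroup.mem_centralizer_iff]
      constructor
      · intro h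
        refine ⟨b.2, ?_⟩
        intro h' hh'
        rw [Set.mem_singleton_iff] at hh'
        rw [hh']
        have h2 : y * (b : E) * y⁻¹ = b := congrArg Subtype.val h
        calc y * (b : E) = y * b * y⁻¹ * y := by group
          _ = b * y := by rw [h2]
      · rintro ⟨_, h⟩
        apply Subtype.ext
        have h2 := h y rfl
        show y * (b : E) * y⁻¹ = b
        rw [h2, mul_inv_cancel_right]
    rw [← Nat.card_congr (Subgroup.subgroupOfEquivOfLe
      (inf_le_left : B₁ ⊓ Subgroup.centralizer ({y} : Set E) ≤ B₁)).toEquiv, ← h1]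
    exact hCfixcard
  by_cases hw : y ^ p ∈ B₁
  · have hwfix : (⟨y ^ p, hw⟩ : ↥B₁) ∈ Cfix := by
      rw [hCfix]
      apply Subtype.ext
      show y * y ^ p * y⁻¹ = y ^ p
      rw [← pow_succ', pow_succ, mul_inv_cancel_right]
    have hCz : Subgroup.zpowers z₁ = Cfix := by
      apply Subgroup.eq_of_le_of_card_ge (Subgroup.zpowers_le.mpr hz₁fix)
      rw [hCfixcard, Nat.card_zpowers, orderOf_eq_prime (hexpM z₁) hz₁ne]
    rw [← hCz] at hwfix
    obtain ⟨j, hj⟩ := mem_powers_iff_mem_zpowers.mpr hwfix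
    have hj' : z₁ ^ j = ⟨y ^ p, hw⟩ := hj
    obtain ⟨a, ha⟩ : ∃ a : ↥B₁, a = x₁ ^ (j * (p - 1)) := ⟨_, rfl⟩
    have hNa : ∏ i ∈ Finset.range p, c^[i] a = z₁ ^ (j * (p - 1)) := by
      rw [ha, hz₁, ← Finset.prod_pow]
      apply Finset.prod_congr rfl
      intro i _
      exact iterate_map_pow c i x₁ (j * (p - 1))
    refine ⟨B₁, ⊥, (a : E) * y, hB₁A, hcardB₁, ?_, ?_, bot_le, ?_, bot_inf_eq _, ?_, ?_, ?_,
      bot_le⟩
    · exact Subgroup.mul_mem _ (Subgroup.le_normalizer a.2) hyN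
    · rw [Subgroup.mem_bot, ← normProd_mul_pow, ← hprodcoe, hNa]
      have h1 : ((z₁ ^ (j * (p - 1)) : ↥B₁) : E) * y ^ p =
          ((z₁ ^ (j * (p - 1)) * z₁ ^ j : ↥B₁) : E) := by
        rw [Subgroup.coe_mul, hj']
      rw [h1, ← pow_add]
      have h2 : j * (p - 1) + j = p * j := by
        have h3 : p - 1 + 1 = p := Nat.sub_add_cancel hp0
        calc j * (p - 1) + j = j * (p - 1 + 1) := by ring
          _ = p * j := by rw [h3, mul_comm]
      rw [h2, pow_mul, hexpM, one_pow]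
      rfl
    · intro n hn
      rw [Subgroup.mem_bot] at hn
      rw [hn, mul_one, one_mul]
    · intro h
      apply hyA
      have e : y = (a : E)⁻¹ * ((a : E) * y) := by group
      rw [e]
      exact A.mul_mem (A.inv_mem (hB₁A a.2)) h
    · have h1 : B₁ ⊓ Subgroup.centralizer ({(a : E) * y} : Set E) =
          B₁ ⊓ Subgroup.centralizer ({y} : Set E) := by
        ext b
        rw [Subgroup.mem_inf, Subgroup.mem_inf]
        refine and_congr_right (fun hb => ?_)
        rw [Subgroup.mem_centralizer_iff, Subgroup.mem_centralizer_iff]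
        have hab : (a : E) * b = b * a := hAc _ (hB₁A a.2) _ (hB₁A hb)
        constructor
        · intro h h' hh'
          rw [Set.mem_singleton_iff] at hh'
          rw [hh']
          have h2 := h _ rfl
          calc y * b = (a : E)⁻¹ * ((a : E) * y * b) := by group
            _ = (a : E)⁻¹ * (b * ((a : E) * y)) := by rw [h2]
            _ = (a : E)⁻¹ * (b * (a : E)) * y := by group
            _ = (a : E)⁻¹ * ((a : E) * b) * y := by rw [hab]
            _ = b * y := by group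
        · intro h h' hh'
          rw [Set.mem_singleton_iff] at hh'
          rw [hh']
          have h2 := h y rfl
          calc (a : E) * y * b = (a : E) * (y * b) := by group
            _ = (a : E) * (b * y) := by rw [h2]
            _ = ((a : E) * b) * y := by group
            _ = b * (a : E) * y := by rw [hab]
            _ = b * ((a : E) * y) := by group
      rw [h1]
      exact hCE
    · exact Subgroup.mul_mem _ (Subgroup.mem_sup_left (hB₁A a.2))
        (Subgroup.mem_sup_right (Subgroup.mem_zpowers y))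
  · have hw1 : y ^ p ≠ 1 := fun h => hw (h ▸ B₁.one_mem)
    have hwo : orderOf (y ^ p) = p := orderOf_eq_prime (hAe _ hyp) hw1
    refine ⟨B₁, Subgroup.zpowers (y ^ p), y, hB₁A, hcardB₁, hyN, Subgroup.mem_zpowers _,
      Subgroup.zpowers_le.mpr hyp, ?_, ?_, hyA, hCE,
      Subgroup.mem_sup_right (Subgroup.mem_zpowers y), ?_⟩
    · intro n hn
      obtain ⟨k, rfl⟩ := Subgroup.mem_zpowers_iff.mp hn
      exact (((Commute.refl y).pow_right p).zpow_right k).eq
    · rw [eq_bot_iff]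
      intro n hn
      obtain ⟨hn1, hn2⟩ := Subgroup.mem_inf.mp hn
      rw [Subgroup.mem_bot]
      by_contra hne
      apply hw
      have h1 : Subgroup.zpowers n ≤ Subgroup.zpowers (y ^ p) := Subgroup.zpowers_le.mpr hn1
      have h2 : Subgroup.zpowers n = Subgroup.zpowers (y ^ p) := by
        apply Subgroup.eq_of_le_of_card_ge h1
        rw [Nat.card_zpowers, Nat.card_zpowers, hwo,
          orderOf_eq_prime (hAe n (hB₁A hn2)) hne]
      have h4 : y ^ p ∈ Subgroup.zpowers n := by rw [h2]; exact Subgroup.mem_zpowers _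
      exact (Subgroup.zpowers_le.mpr hn2) h4
    · exact Subgroup.zpowers_le.mpr (Subgroup.pow_mem _ (Subgroup.mem_zpowers y) p)

theorem exists_wreath_section {E : Type*} [Group E] [Finite E] (p : ℕ) [Fact p.Prime]
    (A : Subgroup E) [hAn : A.Normal] (hAc : ∀ a ∈ A, ∀ b ∈ A, a * b = b * a)
    (hAe : ∀ a ∈ A, a ^ p = 1)
    (y : E) (hyp : y ^ p ∈ A) (x : E) (hx : x ∈ A) (hz : normProd y x p ≠ 1) :
    ∃ (K : Subgroup E) (W : Type) (_ : Group W) (_ : Finite W) (ψ : ↥K →* W),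
      K ≤ A ⊔ Subgroup.zpowers y ∧ Function.Surjective ψ ∧ WrPattern p W := by
  obtain ⟨B₁, N, t, hB₁A, hcard, htN, htp, hNA, hNt, hNB, htA, hC, htAy, hNt'⟩ :=
    exists_wreath_data p A hAc hAe y hyp x hx hz
  obtain ⟨K, hK⟩ : ∃ K : Subgroup E, K = B₁ ⊔ Subgroup.zpowers t := ⟨_, rfl⟩
  have hB₁K : B₁ ≤ K := by rw [hK]; exact le_sup_left
  have htK : t ∈ K := by rw [hK]; exact Subgroup.mem_sup_right (Subgroup.mem_zpowers t)
  have hNK : N ≤ K := hNt'.trans (by rw [hK]; exact le_sup_right)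
  have hKA : K ≤ A ⊔ Subgroup.zpowers y := by
    rw [hK]; exact sup_le (hB₁A.trans le_sup_left) (Subgroup.zpowers_le.mpr htAy)
  have hKnormB : K ≤ Subgroup.normalizer (B₁ : Set E) := by
    rw [hK]; exact sup_le Subgroup.le_normalizer (Subgroup.zpowers_le.mpr htN)
  haveI hB₁n : (B₁.subgroupOf K).Normal :=
    (Subgroup.normal_subgroupOf_iff_le_normalizer hB₁K).mpr hKnormB
  have hKcentN : K ≤ Subgroup.centralizer (N : Set E) := by
    rw [hK]
    refine sup_le ?_ (Subgroup.zpowers_le.mpr ?_)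
    · intro b hb
      rw [Subgroup.mem_centralizer_iff]
      intro n hn
      exact hAc n (hNA hn) b (hB₁A hb)
    · rw [Subgroup.mem_centralizer_iff]
      intro n hn
      exact (hNt n hn).symm
  haveI hNn : (N.subgroupOf K).Normal :=
    (Subgroup.normal_subgroupOf_iff_le_normalizer hNK).mpr
      (hKcentN.trans (Subgroup.centralizer_le_normalizer _))
  obtain ⟨W, hWg, hWf, φ, hφ, hφker⟩ := exists_type_zero_quotient (N.subgroupOf K)
  refine ⟨K, W, hWg, hWf, φ, hKA, hφ, ?_⟩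
  apply wrPattern_of_surjective p φ hφ (B₁.subgroupOf K) ?_ ?_ ?_ ⟨t, htK⟩ ?_ ?_ ?_ ?_ ?_
  · intro a ha b hb
    exact Subtype.ext (hAc _ (hB₁A ha) _ (hB₁A hb))
  · intro b hb
    apply Subtype.ext
    rw [Subgroup.coe_pow]
    exact hAe _ (hB₁A hb)
  · rw [Nat.card_congr (Subgroup.subgroupOfEquivOfLe hB₁K).toEquiv]
    exact hcard
  · apply Subgroup.map_injective K.subtype_injective
    rw [Subgroup.map_sup, Subgroup.map_subgroupOf_eq_of_le hB₁K, MonoidHom.map_zpowers,
      ← MonoidHom.range_eq_map, Subgroup.range_subtype]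
    exact hK.symm
  · rw [hφker, Subgroup.mem_subgroupOf]
    exact htp
  · rw [hφker, eq_bot_iff]
    intro k hk
    obtain ⟨h1, h2⟩ := Subgroup.mem_inf.mp hk
    have h3 : (k : E) ∈ N ⊓ B₁ := Subgroup.mem_inf.mpr ⟨h1, h2⟩
    rw [hNB, Subgroup.mem_bot] at h3
    rw [Subgroup.mem_bot]
    exact Subtype.ext h3
  · intro h
    apply htA
    rw [hφker] at h
    have h1 : t ∈ (B₁.subgroupOf K ⊔ N.subgroupOf K).map K.subtype := ⟨⟨t, htK⟩, h, rfl⟩
    rw [Subgroup.map_sup, Subgroup.map_subgroupOf_eq_of_le hB₁K,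
      Subgroup.map_subgroupOf_eq_of_le hNK] at h1
    exact (sup_le hB₁A hNA) h1
  · have h1 : B₁.subgroupOf K ⊓ Subgroup.centralizer ({(⟨t, htK⟩ : ↥K)} : Set ↥K) =
        (B₁ ⊓ Subgroup.centralizer ({t} : Set E)).subgroupOf K := by
      ext k
      rw [Subgroup.mem_inf, Subgroup.mem_subgroupOf, Subgroup.mem_subgroupOf, Subgroup.mem_inf,
        Subgroup.mem_centralizer_iff, Subgroup.mem_centralizer_iff]
      refine and_congr_right (fun _ => ?_)
      constructor
      · intro h h' hh'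
        rw [Set.mem_singleton_iff] at hh'
        rw [hh']
        exact congrArg Subtype.val (h ⟨t, htK⟩ rfl)
      · intro h h' hh'
        rw [Set.mem_singleton_iff] at hh'
        rw [hh']
        exact Subtype.ext (h t rfl)
    rw [h1, Nat.card_congr (Subgroup.subgroupOfEquivOfLe
      ((inf_le_left : B₁ ⊓ Subgroup.centralizer ({t} : Set E) ≤ B₁).trans hB₁K)).toEquiv]
    exact hC

end Cfsg.Agent.H66
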