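import Cfsg.Agent.H66.HHQ
import Cfsg.Agent.H66.Wreath
import Cfsg.Agent.H76.FrattiniAut
import Cfsg.Agent.H3.PGroup
import Cfsg.Agent.H1.Frattini
import Cfsg.Agent.H52.ThS4
import Cfsg.Agent.H14.PLength

/-!
# Linearisation of the action on `O_p / Φ(O_p)` and Theorem B

* `exists_linearization`: an action on a finite elementary abelian `p`-group gives a linear
  representation over any field of characteristic `p`.
* `exists_normProd_ne_one`: in a `p`-soluble group `Γ` with `O_{p'}(Γ) = 1`, `p` odd and not a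
  Fermat prime, an element `x ∉ O_p(Γ)` with `x ^ p ∈ O_p(Γ)` has a nontrivial "norm" on
  `O_p(Γ) / Φ(O_p(Γ))`.
-/

set_option autoImplicit false
set_option linter.style.haveILetI false
set_option linter.unusedVariables false
set_option linter.unusedSectionVars false

namespace Cfsg.Agent.H66

open Cfsg
open scoped TensorProduct
open scoped commutatorElement

universe u v w

/-- The `ZMod p`-linear action on `Additive M` given by an action by automorphisms on `M`. -/
def zmodLinHom (p : ℕ) {E : Type*} [Group E] {M : Type*} [CommGroup M]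
    [Module (ZMod p) (Additive M)] (c : E →* MulAut M) : E →* Module.End (ZMod p) (Additive M) where
  toFun e := AddMonoidHom.toZModLinearMap p (MonoidHom.toAdditive (c e).toMonoidHom)
  map_one' := by
    apply LinearMap.ext; intro v; rw [map_one]; rfl
  map_mul' := by
    intro a b; apply LinearMap.ext; intro v; rw [map_mul]; rfl

theorem exists_linearization {E : Type u} [Group E] {M : Type v} [CommGroup M] [Finite M]
    (p : ℕ) [Fact p.Prime] (hM : ∀ m : M, m ^ p = 1) (c : E →* MulAut M)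
    (K : Type w) [Field K] [Algebra (ZMod p) K] [CharP K p] :
    ∃ (V : Type (max v w)) (_ : AddCommGroup V) (_ : Module K V) (_ : FiniteDimensional K V)
      (ρ : E →* Module.End K V), (∀ e, ρ e = 1 ↔ c e = 1) ∧
      ∀ e, (ρ e - 1) ^ (p - 1) ≠ 0 → ∃ m : M, ∏ i ∈ Finset.range p, ((c e) ^ i) m ≠ 1 := by
  classical
  have hp : p.Prime := Fact.out
  have hexp' : ∀ a : Additive M, p • a = 0 := fun a => by
    have := hM (Additive.toMul a)
    exact congrArg Additive.ofMul this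
  haveI : Module (ZMod p) (Additive M) := AddCommGroup.zmodModule hexp'
  obtain ⟨T, hTdef⟩ : ∃ T : E →* Module.End (ZMod p) (Additive M), T = zmodLinHom p c := ⟨_, rfl⟩
  have hT : ∀ e (m : M), T e (Additive.ofMul m) = Additive.ofMul (c e m) := by
    intro e m; rw [hTdef]; rfl
  obtain ⟨ρ, hρ⟩ : ∃ ρ : E →* Module.End K (K ⊗[ZMod p] Additive M),
      ρ = ((Module.End.baseChangeHom (ZMod p) K (Additive M) :
          Module.End (ZMod p) (Additive M) →ₐ[ZMod p] Module.End K (K ⊗[ZMod p] Additive M)) :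
          Module.End (ZMod p) (Additive M) →* Module.End K (K ⊗[ZMod p] Additive M)).comp T :=
    ⟨_, rfl⟩
  have hρapply : ∀ e, ρ e = Module.End.baseChangeHom (ZMod p) K (Additive M) (T e) := by
    intro e; rw [hρ]; rfl
  refine ⟨K ⊗[ZMod p] Additive M, inferInstance, inferInstance, inferInstance, ρ, ?_, ?_⟩
  · intro e
    constructor
    · intro he
      rw [hρapply] at he
      have h1 : T e = 1 := by
        have h0 : Module.End.baseChangeHom (ZMod p) K (Additive M) (T e) =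
            Module.End.baseChangeHom (ZMod p) K (Additive M) 1 := by rw [he, map_one]
        exact LinearMap.baseChangeHom_injective (ZMod p) (Additive M) K h0
      ext m
      have h2 := hT e m
      rw [h1] at h2
      exact (congrArg Additive.toMul h2).symm
    · intro he
      have h1 : T e = zmodLinHom p (MonoidHom.id (MulAut M)) (c e) := by rw [hTdef]; rfl
      rw [hρapply, h1, he, map_one, map_one]
  · intro e he
    have h1 : (ρ e - 1) ^ (p - 1) = ∑ i ∈ Finset.range p, (ρ e) ^ i := by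
      have := geom_sum_eq_sub_one_pow (K := K) p 1 (ρ e)
      rw [pow_one] at this
      exact this.symm
    have h2 : ∑ i ∈ Finset.range p, (ρ e) ^ i =
        Module.End.baseChangeHom (ZMod p) K (Additive M) (∑ i ∈ Finset.range p, (T e) ^ i) := by
      rw [map_sum]
      apply Finset.sum_congr rfl
      intro i _
      rw [map_pow, hρapply]
    have h3 : ∑ i ∈ Finset.range p, (T e) ^ i ≠ 0 := by
      intro h
      apply he
      rw [h1, h2, h, map_zero]
    by_contra hcon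
    push Not at hcon
    apply h3
    apply LinearMap.ext
    intro v
    have h4 : ∀ i (m : M), ((T e) ^ i) (Additive.ofMul m) = Additive.ofMul (((c e) ^ i) m) := by
      intro i
      induction i with
      | zero => intro m; rfl
      | succ i ih =>
        intro m
        rw [pow_succ', pow_succ', Module.End.mul_apply, ih, hT]
        rfl
    rw [← ofMul_toMul v, LinearMap.sum_apply, LinearMap.zero_apply]
    rw [Finset.sum_congr rfl (fun i _ => h4 i (Additive.toMul v)), ← ofMul_prod, hcon]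
    rfl

open scoped IsMulCommutative in
theorem normProd_eq_prod_conjNormal {E : Type*} [Group E] (A : Subgroup E) [A.Normal]
    [IsMulCommutative A] (y : E) (m : ↥A) (k : ℕ) :
    normProd y (m : E) k =
      ((∏ i ∈ Finset.range k, ((MulAut.conjNormal y : MulAut ↥A) ^ i) m : ↥A) : E) := by
  induction k with
  | zero => simp [normProd]
  | succ k ih =>
    rw [normProd, Finset.prod_range_succ, Subgroup.coe_mul, ih, ← map_pow,
      MulAut.conjNormal_apply]

open scoped IsMulCommutative in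
theorem exists_normProd_ne_one {Γ : Type u} [Group Γ] [Finite Γ] {p : ℕ} [Fact p.Prime]
    (hp2 : p ≠ 2) (hnf : ¬ ∃ k : ℕ, p = 2 ^ k + 1)
    (hsol : IsPSolvable p Γ) (hO : pPrimeCore p Γ = ⊥) (P₁ : Subgroup Γ) (hP₁ : P₁ = pCore p Γ)
    (Φ : Subgroup Γ) [hΦn : Φ.Normal] (hΦ : Φ = (frattini ↥P₁).map P₁.subtype)
    (x : Γ) (hx : x ∉ P₁) (hxp : x ^ p ∈ P₁) :
    ∃ a ∈ P₁.map (QuotientGroup.mk' Φ), normProd (QuotientGroup.mk' Φ x) a p ≠ 1 := by
  classical
  have hp : p.Prime := Fact.out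
  haveI hP₁n : P₁.Normal := by rw [hP₁]; infer_instance
  have hP₁p : IsPGroup p P₁ := by rw [hP₁]; exact H14.pCore_isPGroup p Γ
  obtain ⟨A, hA⟩ : ∃ A : Subgroup (Γ ⧸ Φ), A = P₁.map (QuotientGroup.mk' Φ) := ⟨_, rfl⟩
  rw [← hA]
  haveI hAn : A.Normal := by
    rw [hA]; exact Subgroup.Normal.map hP₁n _ (QuotientGroup.mk'_surjective Φ)
  have hcommΦ : ∀ g, (∀ a ∈ P₁, g * a * g⁻¹ * a⁻¹ ∈ Φ) ↔
      ∀ b ∈ A, QuotientGroup.mk' Φ g * b * (QuotientGroup.mk' Φ g)⁻¹ = b := by
    intro g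
    constructor
    · intro h b hb
      rw [hA] at hb
      obtain ⟨a, ha, rfl⟩ := hb
      rw [← map_inv, ← map_mul, ← map_mul]
      have h1 := (QuotientGroup.eq_one_iff (N := Φ) _).mpr (h a ha)
      rw [← mul_inv_eq_one, ← map_inv, ← map_mul]
      exact h1
    · intro h a ha
      have h1 := h (QuotientGroup.mk' Φ a) (by rw [hA]; exact Subgroup.mem_map_of_mem _ ha)
      rw [← mul_inv_eq_one, ← map_inv, ← map_mul, ← map_mul, ← map_inv, ← map_mul] at h1
      exact (QuotientGroup.eq_one_iff (N := Φ) _).mp h1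
  have hcommP : ∀ g ∈ P₁, ∀ a ∈ P₁, g * a * g⁻¹ * a⁻¹ ∈ Φ := by
    intro g hg a ha
    rw [hΦ]
    refine ⟨⁅(⟨g, hg⟩ : ↥P₁), (⟨a, ha⟩ : ↥P₁)⁆, ?_, ?_⟩
    · exact H3.commutator_le_frattini hP₁p
        (Subgroup.commutator_mem_commutator (Subgroup.mem_top _) (Subgroup.mem_top _))
    · simp [commutatorElement_def]
  have hAc : ∀ a ∈ A, ∀ b ∈ A, a * b = b * a := by
    intro a ha b hb
    have ha' := ha
    rw [hA] at ha'
    obtain ⟨g, hg, rfl⟩ := ha'
    have h1 := (hcommΦ g).mp (hcommP g hg) b hb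
    calc QuotientGroup.mk' Φ g * b
        = QuotientGroup.mk' Φ g * b * (QuotientGroup.mk' Φ g)⁻¹ * QuotientGroup.mk' Φ g := by
          group
      _ = b * QuotientGroup.mk' Φ g := by rw [h1]
  have hAe : ∀ a ∈ A, a ^ p = 1 := by
    intro a ha
    rw [hA] at ha
    obtain ⟨g, hg, rfl⟩ := ha
    rw [← map_pow]
    apply (QuotientGroup.eq_one_iff (N := Φ) _).mpr
    rw [hΦ]
    exact ⟨(⟨g, hg⟩ : ↥P₁) ^ p, H3.pow_mem_frattini hP₁p _, rfl⟩
  haveI hAcomm : IsMulCommutative A := ⟨⟨fun a b => Subtype.ext (hAc a a.2 b b.2)⟩⟩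
  have hM : ∀ m : ↥A, m ^ p = 1 := fun m => Subtype.ext (by
    rw [Subgroup.coe_pow]; exact hAe m m.2)
  obtain ⟨c, hc⟩ : ∃ c : (Γ ⧸ Φ) →* MulAut ↥A, c = MulAut.conjNormal := ⟨_, rfl⟩
  have hc1 : ∀ e, c e = 1 ↔ ∀ b ∈ A, e * b * e⁻¹ = b := by
    intro e
    rw [hc]
    constructor
    · intro h b hb
      have h1 := congrArg (fun f : MulAut ↥A => ((f ⟨b, hb⟩ : ↥A) : Γ ⧸ Φ)) h
      simp only [MulAut.conjNormal_apply, MulAut.one_apply] at h1
      exact h1
    · intro h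
      ext b
      rw [MulAut.conjNormal_apply, MulAut.one_apply]
      exact h b b.2
  obtain ⟨V, iV1, iV2, iV3, ρ₀, hρ1, hρ2⟩ :=
    exists_linearization p hM c (AlgebraicClosure (ZMod p))
  -- the kernel of the action is contained in `P₁`
  have hker : ∀ g : Γ, (∀ a ∈ P₁, g * a * g⁻¹ * a⁻¹ ∈ Φ) → g ∈ P₁ := by
    obtain ⟨C, hC⟩ : ∃ C : Subgroup Γ, C = (c.comp (QuotientGroup.mk' Φ)).ker := ⟨_, rfl⟩
    haveI hCn : C.Normal := by rw [hC]; infer_instance
    have hCmem : ∀ g, g ∈ C ↔ ∀ a ∈ P₁, g * a * g⁻¹ * a⁻¹ ∈ Φ := by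
      intro g
      rw [hC, MonoidHom.mem_ker, MonoidHom.comp_apply, hc1, hcommΦ]
    have hprime : ∀ h ∈ C, (orderOf h).Coprime p → h = 1 := by
      intro h hh hcop
      obtain ⟨α, hα⟩ : ∃ α : MulAut ↥P₁, α = MulAut.conjNormal h := ⟨_, rfl⟩
      have hα1 : α = 1 := by
        apply H76.eq_one_of_trivial_on_frattini_of_coprime hP₁p α
        · intro y
          have h1 := (hCmem h).mp hh y y.2
          rw [hΦ] at h1
          obtain ⟨z, hz, hz'⟩ := h1
          have h2 : z = α y * y⁻¹ := by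
            apply Subtype.ext
            rw [Subgroup.coe_mul, hα, MulAut.conjNormal_apply, Subgroup.coe_inv]
            exact hz'
          rw [← h2]; exact hz
        · apply Nat.Coprime.coprime_dvd_left _ hcop
          rw [hα]
          exact orderOf_map_dvd _ h
      have h2 : h ∈ Subgroup.centralizer ((P₁ : Subgroup Γ) : Set Γ) := by
        rw [Subgroup.mem_centralizer_iff]
        intro y hy
        have h3 := congrArg (fun f : MulAut ↥P₁ => ((f ⟨y, hy⟩ : ↥P₁) : Γ)) hα1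
        simp only [hα, MulAut.conjNormal_apply, MulAut.one_apply] at h3
        calc y * h = h * y * h⁻¹ * h := by rw [h3]
          _ = h * y := by group
      have h3 : h ∈ P₁ := by
        have := H80.centralizer_pCore_le p hsol hO
        rw [← hP₁] at this
        exact this h2
      obtain ⟨k, hk⟩ := hP₁p ⟨h, h3⟩
      have h4 : h ^ p ^ k = 1 := by
        have := congrArg Subtype.val hk
        simpa using this
      have h5 : orderOf h ∣ p ^ k := orderOf_dvd_of_pow_eq_one h4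
      have h6 : orderOf h = 1 := Nat.Coprime.eq_one_of_dvd (Nat.Coprime.pow_right k hcop) h5
      exact orderOf_eq_one_iff.mp h6
    have hCp : IsPGroup p C := by
      intro g
      have hn0 : orderOf (g : Γ) ≠ 0 := (orderOf_pos (g : Γ)).ne'
      obtain ⟨k, m, hm, hn⟩ := Nat.exists_eq_pow_mul_and_not_dvd hn0 p hp.ne_one
      refine ⟨k, ?_⟩
      apply Subtype.ext
      rw [Subgroup.coe_pow, Subgroup.coe_one]
      apply hprime _ (C.pow_mem g.2 _)
      have h1 : ((g : Γ) ^ p ^ k) ^ m = 1 := by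
        rw [← pow_mul, ← hn]; exact pow_orderOf_eq_one _
      have h2 : orderOf ((g : Γ) ^ p ^ k) ∣ m := orderOf_dvd_of_pow_eq_one h1
      exact Nat.Coprime.coprime_dvd_left h2 ((Nat.Prime.coprime_iff_not_dvd hp).mpr hm).symm
    intro g hg
    have h1 : C ≤ pCore p Γ := H80.le_pCore p C hCn hCp
    rw [← hP₁] at h1
    exact h1 ((hCmem g).mpr hg)
  obtain ⟨ρ₁, hρ₁⟩ : ∃ ρ₁ : Γ →* Module.End (AlgebraicClosure (ZMod p)) V,
      ρ₁ = ρ₀.comp (QuotientGroup.mk' Φ) := ⟨_, rfl⟩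
  have hρ₁1 : ∀ g, ρ₁ g = 1 ↔ ∀ a ∈ P₁, g * a * g⁻¹ * a⁻¹ ∈ Φ := by
    intro g
    rw [hρ₁, MonoidHom.comp_apply, hρ1, hc1, hcommΦ]
  have hle : P₁ ≤ ρ₁.ker := by
    intro g hg
    rw [MonoidHom.mem_ker, hρ₁1]
    exact hcommP g hg
  obtain ⟨ρ, hρ⟩ : ∃ ρ : (Γ ⧸ P₁) →* Module.End (AlgebraicClosure (ZMod p)) V,
      ρ = QuotientGroup.lift P₁ ρ₁ hle := ⟨_, rfl⟩
  have hρmk : ∀ g, ρ (QuotientGroup.mk' P₁ g) = ρ₁ g := by
    intro g; rw [hρ]; rfl
  have hρinj : Function.Injective ρ := by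
    intro a b hab
    obtain ⟨g, rfl⟩ := QuotientGroup.mk'_surjective P₁ a
    obtain ⟨g', rfl⟩ := QuotientGroup.mk'_surjective P₁ b
    rw [hρmk, hρmk] at hab
    have h1 : ρ₁ (g⁻¹ * g') = 1 := by
      have hu : IsUnit (ρ₁ g) := (Group.isUnit g).map ρ₁
      apply hu.mul_left_cancel
      rw [← map_mul, mul_inv_cancel_left, mul_one, hab]
    have h2 : g⁻¹ * g' ∈ P₁ := hker _ ((hρ₁1 _).mp h1)
    exact QuotientGroup.eq.mpr h2
  have hsolH : IsPSolvable p (Γ ⧸ P₁) := H80.isPSolvable_quotient p P₁ hsol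
  have hOpH : pCore p (Γ ⧸ P₁) = ⊥ := by
    subst hP₁
    exact pCore_quotient_pCore_bot p
  have hx1 : (QuotientGroup.mk' P₁ x) ^ p ^ (0 + 1) = 1 := by
    rw [zero_add, pow_one, ← map_pow]
    exact (QuotientGroup.eq_one_iff (N := P₁) _).mpr hxp
  have hx2 : (QuotientGroup.mk' P₁ x) ^ p ^ 0 ≠ 1 := by
    rw [pow_zero, pow_one]
    intro h
    exact hx ((QuotientGroup.eq_one_iff (N := P₁) x).mp h)
  obtain ⟨N, hN, hcases⟩ := hhB_group hsolH hOpH ρ hρinj (QuotientGroup.mk' P₁ x) 0 hx1 hx2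
  have hNp : N = p := by
    rcases hcases with h | ⟨n₀, q, k, h1, h2, h3, h4, h5, h6, h7⟩
    · rw [h, zero_add, pow_one]
    · exfalso
      have hn₀ : n₀ = 1 := by omega
      rw [hn₀, pow_one] at h5
      have hodd : Odd p := hp.eq_two_or_odd'.resolve_left hp2
      have h2q : 2 ∣ q ^ k := by
        rw [← h5]
        obtain ⟨r, hr⟩ := hodd
        exact ⟨r, by omega⟩
      have hq2 : q = 2 :=
        ((Nat.prime_dvd_prime_iff_eq Nat.prime_two h3).mp (Nat.prime_two.dvd_of_dvd_pow h2q)).symm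
      apply hnf
      refine ⟨k, ?_⟩
      rw [← hq2, ← h5]
      have := hp.one_lt
      omega
  rw [hNp, hρmk, hρ₁, MonoidHom.comp_apply] at hN
  obtain ⟨m, hm⟩ := hρ2 _ hN
  refine ⟨(m : Γ ⧸ Φ), m.2, ?_⟩
  rw [normProd_eq_prod_conjNormal A (QuotientGroup.mk' Φ x) m p]
  intro h
  apply hm
  apply Subtype.ext
  rw [hc]
  exact h

theorem map_frattini_quotient_facts {Γ : Type u} [Group Γ] [Finite Γ] {p : ℕ} [Fact p.Prime]
    (P₁ : Subgroup Γ) [hP₁n : P₁.Normal] (hP₁p : IsPGroup p P₁)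
    (Φ : Subgroup Γ) [hΦn : Φ.Normal] (hΦ : Φ = (frattini ↥P₁).map P₁.subtype) :
    (P₁.map (QuotientGroup.mk' Φ)).Normal ∧
      (∀ a ∈ P₁.map (QuotientGroup.mk' Φ), ∀ b ∈ P₁.map (QuotientGroup.mk' Φ), a * b = b * a) ∧
      (∀ a ∈ P₁.map (QuotientGroup.mk' Φ), a ^ p = 1) := by
  refine ⟨Subgroup.Normal.map hP₁n _ (QuotientGroup.mk'_surjective Φ), ?_, ?_⟩
  · rintro _ ⟨g, hg, rfl⟩ _ ⟨a, ha, rfl⟩
    have h0 : g * a * g⁻¹ * a⁻¹ ∈ Φ := by
      rw [hΦ]
      refine ⟨⁅(⟨g, hg⟩ : ↥P₁), (⟨a, ha⟩ : ↥P₁)⁆, ?_, ?_⟩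
      · exact H3.commutator_le_frattini hP₁p
          (Subgroup.commutator_mem_commutator (Subgroup.mem_top _) (Subgroup.mem_top _))
      · simp [commutatorElement_def]
    have h1 := (QuotientGroup.eq_one_iff (N := Φ) _).mpr h0
    have h2 : QuotientGroup.mk' Φ (g * a * g⁻¹ * a⁻¹) = 1 := h1
    rw [map_mul, map_mul, map_mul, map_inv, map_inv, mul_inv_eq_one, mul_inv_eq_iff_eq_mul] at h2
    exact h2
  · rintro _ ⟨g, hg, rfl⟩
    rw [← map_pow]
    apply (QuotientGroup.eq_one_iff (N := Φ) _).mpr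
    rw [hΦ]
    exact ⟨(⟨g, hg⟩ : ↥P₁) ^ p, H3.pow_mem_frattini hP₁p _, rfl⟩

/-- A `p`-group involved in a finite group is involved in each of its Sylow `p`-subgroups. -/
theorem involves_sylow {G : Type*} [Group G] [Finite G] {p : ℕ} [Fact p.Prime] (P : Sylow p G)
    {W : Type*} [Group W] [Finite W] (n : ℕ) (hW : Nat.card W = p ^ n) (h : Involves W G) :
    Involves W ↥(P : Subgroup G) := by
  have hp : p.Prime := Fact.out
  obtain ⟨K, R, hn, ⟨e⟩⟩ := h
  obtain ⟨f, hf⟩ : ∃ f : ↥K →* W,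
      f = e.toMonoidHom.comp (QuotientGroup.mk' (R.subgroupOf K)) := ⟨_, rfl⟩
  have hfs : Function.Surjective f := by
    rw [hf]; exact e.surjective.comp (QuotientGroup.mk'_surjective _)
  obtain ⟨S⟩ : Nonempty (Sylow p ↥K) := inferInstance
  have hSf : (S : Subgroup ↥K).map f = ⊤ := by
    have h1 : ((S.mapSurjective hfs : Sylow p W) : Subgroup W) = (S : Subgroup ↥K).map f := rfl
    apply Subgroup.eq_top_of_card_eq
    rw [← h1, Sylow.card_eq_multiplicity, hW, Nat.Prime.factorization_pow hp]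
    simp
  have hSp : IsPGroup p ((S : Subgroup ↥K).map K.subtype) := S.isPGroup'.map K.subtype
  obtain ⟨Q, hQ⟩ := hSp.exists_le_sylow
  obtain ⟨g, rfl⟩ := MulAction.exists_smul_eq G P Q
  have h1 : Involves W ↥((g • P : Sylow p G) : Subgroup G) := by
    refine H52.involves_of_hom (A := ↥(S : Subgroup ↥K))
      ((K.subtype.comp (S : Subgroup ↥K).subtype).codRestrict _
        (fun s => hQ ⟨s.1, s.2, rfl⟩)) ?_ (f.comp (S : Subgroup ↥K).subtype) ?_
    · rw [MonoidHom.injective_codRestrict]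
      exact K.subtype_injective.comp (S : Subgroup ↥K).subtype_injective
    · intro w
      have hw : w ∈ (S : Subgroup ↥K).map f := by rw [hSf]; exact Subgroup.mem_top w
      obtain ⟨s, hs, rfl⟩ := hw
      exact ⟨⟨s, hs⟩, rfl⟩
  exact H52.involves_of_injective (Sylow.equivSMul P g).symm.toMonoidHom
    (Sylow.equivSMul P g).symm.injective h1

theorem relSeries_one_eq_top {G : Type*} [Group G] [Finite G] (p : ℕ) [Fact p.Prime]
    (M : {H : Subgroup G // H.Normal}) (hM : ∀ g : G, (∃ j, g ^ p ^ j = 1) → g ∈ M.1) :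
    (H14.relSeries p G M 1).1 = ⊤ := by
  haveI : M.1.Normal := M.2
  rw [H14.relSeries_one]
  obtain ⟨S⟩ : Nonempty (Sylow p G) := inferInstance
  have hS : (S : Subgroup G) ≤ M.1 := by
    intro s hs
    obtain ⟨k, hk⟩ := S.isPGroup' ⟨s, hs⟩
    exact hM s ⟨k, congrArg Subtype.val hk⟩
  have hcop : (Nat.card (G ⧸ M.1)).Coprime p := by
    rw [← Subgroup.index_eq_card]
    have h1 : M.1.index ∣ (S : Subgroup G).index := Subgroup.index_dvd_of_le hS
    have h2 : ¬ p ∣ (S : Subgroup G).index := S.not_dvd_index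
    have h3 : ¬ p ∣ M.1.index := fun h => h2 (h.trans h1)
    exact ((Nat.Prime.coprime_iff_not_dvd Fact.out).mpr h3).symm
  have htop : pPrimeCore p (G ⧸ M.1) = ⊤ := by
    rw [eq_top_iff]
    apply H14.le_pPrimeCore inferInstance
    rw [Subgroup.card_top]; exact hcop
  rw [htop, Subgroup.comap_top]

theorem exists_wreath_involved {Γ : Type u} [Group Γ] [Finite Γ] {p : ℕ} [Fact p.Prime]
    (hp2 : p ≠ 2) (hnf : ¬ ∃ k : ℕ, p = 2 ^ k + 1)
    (hsol : IsPSolvable p Γ) (hO : pPrimeCore p Γ = ⊥) (g : Γ) (hg : ∃ j, g ^ p ^ j = 1)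
    (hgP : g ∉ pCore p Γ) :
    ∃ (W : Type) (_ : Group W) (_ : Finite W), WrPattern p W ∧ Involves W Γ := by
  classical
  have hp : p.Prime := Fact.out
  obtain ⟨P₁, hP₁⟩ : ∃ P₁ : Subgroup Γ, P₁ = pCore p Γ := ⟨_, rfl⟩
  rw [← hP₁] at hgP
  haveI hP₁n : P₁.Normal := by rw [hP₁]; infer_instance
  have hP₁p : IsPGroup p P₁ := by rw [hP₁]; exact H14.pCore_isPGroup p Γ
  have hex : ∃ k, g ^ p ^ k ∈ P₁ := by
    obtain ⟨j, hj⟩ := hg
    exact ⟨j, by rw [hj]; exact P₁.one_mem⟩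
  obtain ⟨k, hk⟩ : ∃ k, k = Nat.find hex := ⟨_, rfl⟩
  have hk1 : g ^ p ^ k ∈ P₁ := by rw [hk]; exact Nat.find_spec hex
  have hk0 : k ≠ 0 := by
    intro h0
    rw [h0, pow_zero, pow_one] at hk1
    exact hgP hk1
  obtain ⟨x, hxdef⟩ : ∃ x, x = g ^ p ^ (k - 1) := ⟨_, rfl⟩
  have hx : x ∉ P₁ := by
    rw [hxdef]
    exact Nat.find_min hex (by rw [← hk]; omega)
  have hxp : x ^ p ∈ P₁ := by
    rw [hxdef, ← pow_mul, ← pow_succ]
    have : k - 1 + 1 = k := by omega
    rw [this]; exact hk1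
  obtain ⟨Φ, hΦ⟩ : ∃ Φ : Subgroup Γ, Φ = (frattini ↥P₁).map P₁.subtype := ⟨_, rfl⟩
  haveI hΦn : Φ.Normal := by
    rw [hΦ]
    apply Subgroup.normalizer_eq_top_iff.mp
    rw [eq_top_iff]
    refine le_trans ?_ (H1.normalizer_le_normalizer_map_of_characteristic P₁ (frattini ↥P₁))
    rw [Subgroup.normalizer_eq_top_iff.mpr hP₁n]
  obtain ⟨a, ha, hz⟩ := exists_normProd_ne_one hp2 hnf hsol hO P₁ hP₁ Φ hΦ x hx hxp
  obtain ⟨hAn, hAc, hAe⟩ := map_frattini_quotient_facts P₁ hP₁p Φ hΦ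
  have hyp : (QuotientGroup.mk' Φ x) ^ p ∈ P₁.map (QuotientGroup.mk' Φ) := by
    rw [← map_pow]; exact Subgroup.mem_map_of_mem _ hxp
  obtain ⟨K, W, hWg, hWf, ψ, hKA, hψ, hpat⟩ :=
    exists_wreath_section p (P₁.map (QuotientGroup.mk' Φ)) hAc hAe (QuotientGroup.mk' Φ x) hyp
      a ha hz
  refine ⟨W, hWg, hWf, hpat, ?_⟩
  exact H52.involves_of_surjective (QuotientGroup.mk' Φ) (QuotientGroup.mk'_surjective Φ)
    (H52.involves_of_hom K.subtype K.subtype_injective ψ hψ)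

end Cfsg.Agent.H66
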