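import Mathlib
import Cfsg.Prelude.Def_Solvable

/-!
# Gross's theorem (S3795): shared definitions and piece statements

`σ` is a fixed-point-free automorphism with `σ ^ (2 ^ n) = 1`; `τ = σ ^ (2 ^ (n - 1))`.
Every piece of the project proves one of the `Prop`-valued statements below (possibly from
others taken as hypotheses).  All groups and modules live in one universe `u`; fields in `Type`.
-/

set_option autoImplicit false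
set_option linter.style.haveILetI false
set_option linter.unusedVariables false
set_option linter.unusedSectionVars false

namespace Cfsg.Agent.H66.Gross

open Cfsg
open scoped commutatorElement

universe u

/-- `(ρ, X)` is a fixed-point-free `σ`-module of level `n`: `σ ^ (2 ^ n) = 1`, `X ^ (2 ^ n) = 1`,
`X ρ(h) = ρ(σ h) X`, and `X` has no nonzero fixed vector. -/
def IsFpfMod {H : Type*} [Group H] (σ : MulAut H) (n : ℕ) {K : Type*} [Field K] {V : Type*}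
    [AddCommGroup V] [Module K V] (ρ : H →* Module.End K V) (X : Module.End K V) : Prop :=
  σ ^ (2 ^ n) = 1 ∧ X ^ (2 ^ n) = 1 ∧ (∀ h, X * ρ h = ρ (σ h) * X) ∧ ∀ v, X v = v → v = 0

/-- The weight space of the function `χ` for the subgroup `A`. -/
def wtSp {H : Type*} [Group H] {K : Type*} [Field K] {V : Type*} [AddCommGroup V] [Module K V]
    (ρ : H →* Module.End K V) (A : Subgroup H) (χ : H → K) : Submodule K V where
  carrier := {v | ∀ z ∈ A, ρ z v = χ z • v}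
  add_mem' := by
    intro a b ha hb z hz
    rw [map_add, ha z hz, hb z hz, smul_add]
  zero_mem' := by
    intro z hz
    rw [map_zero, smul_zero]
  smul_mem' := by
    intro c v hv z hz
    rw [map_smul, hv z hz, smul_comm]

theorem mem_wtSp {H : Type*} [Group H] {K : Type*} [Field K] {V : Type*} [AddCommGroup V]
    [Module K V] (ρ : H →* Module.End K V) (A : Subgroup H) (χ : H → K) (v : V) :
    v ∈ wtSp ρ A χ ↔ ∀ z ∈ A, ρ z v = χ z • v := Iff.rfl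

/-- `(C, Z)` is a critical pair: `C` a `σ`-invariant `q`-subgroup, `Z ≤ C` `σ`-invariant and
central in `C`, containing the commutators and `q`-th powers of `C`, and fixed pointwise by
`τ = σ ^ (2 ^ (n - 1))`. -/
def IsCritPair {H : Type*} [Group H] (σ : MulAut H) (n q : ℕ) (C Z : Subgroup H) : Prop :=
  IsPGroup q C ∧ Z ≤ C ∧ (∀ x ∈ C, σ x ∈ C) ∧ (∀ z ∈ Z, σ z ∈ Z) ∧
  (∀ x ∈ C, ∀ z ∈ Z, x * z = z * x) ∧ (∀ x ∈ C, ∀ y ∈ C, ⁅x, y⁆ ∈ Z) ∧ (∀ x ∈ C, x ^ q ∈ Z) ∧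
  (∀ z ∈ Z, (σ ^ (2 ^ (n - 1))) z = z)

/-- The elements of `C` inverted by `τ` modulo `Z`. -/
def invSet {H : Type*} [Group H] (σ : MulAut H) (n : ℕ) (C Z : Subgroup H) : Set H :=
  {x | x ∈ C ∧ x * (σ ^ (2 ^ (n - 1))) x ∈ Z}

/-- Admissible forms: alternating, `ρ`-invariant, `𝒯`-invariant (`𝒯 = X ^ (2 ^ (n - 1))`), of
rank at most two on the `(-1)`-eigenspace of `𝒯`. -/
def IsAdmForm {P : Type*} [Group P] (n : ℕ) {K : Type*} [Field K] {V : Type*}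
    [AddCommGroup V] [Module K V] (ρ : P →* Module.End K V) (X : Module.End K V)
    (β : V →ₗ[K] V →ₗ[K] K) : Prop :=
  (∀ x, β x x = 0) ∧ (∀ g x y, β (ρ g x) (ρ g y) = β x y) ∧
  (∀ x y, β ((X ^ (2 ^ (n - 1))) x) ((X ^ (2 ^ (n - 1))) y) = β x y) ∧
  ∃ x₁ x₂ : V, ∀ x, (X ^ (2 ^ (n - 1))) x = -x → ∃ a b : K, ∀ y, (X ^ (2 ^ (n - 1))) y = -y →
    β (x - a • x₁ - b • x₂) y = 0

/-! ## Linear pieces -/

/-- **R1** (weights). -/
def R1Statement : Prop :=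
  ∀ (H : Type u) [Group H] [Finite H] (σ : MulAut H) (n : ℕ), 0 < n →
    ∀ (K : Type) [Field K] [IsAlgClosed K] (V : Type u) [AddCommGroup V] [Module K V]
      [FiniteDimensional K V] (ρ : H →* Module.End K V) (X : Module.End K V),
      IsFpfMod σ n ρ X →
    ∀ (B : Subgroup H), (∀ b ∈ B, σ b ∈ B) → (∀ a ∈ B, ∀ b ∈ B, ρ a * ρ b = ρ b * ρ a) →
      ((Nat.card B : K) ≠ 0) → ∀ b ∈ B, ρ ((σ ^ (2 ^ (n - 1))) b) = ρ b

/-- **R2Irr** (irreducible critical case, general `N`). -/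
def R2IrrStatement : Prop :=
  ∀ (Γ : Type u) [Group Γ] [Finite Γ] (K : Type) [Field K] [IsAlgClosed K] (W : Type u)
    [AddCommGroup W] [Module K W] [FiniteDimensional K W] [Nontrivial W]
    (ρ : Γ →* Module.End K W) (Z : Subgroup Γ) (N : ℕ), 1 < N → ((N : K) ≠ 0) →
    (∀ U : Submodule K W, (∀ a : Γ, ∀ w ∈ U, ρ a w ∈ U) → U = ⊥ ∨ U = ⊤) →
    (∀ a b : Γ, a * b * a⁻¹ * b⁻¹ ∈ Z) → (∀ z ∈ Z, ∃ c : K, ρ z = c • 1) →
    (∀ a : Γ, (∀ b : Γ, ρ (b * a * b⁻¹ * a⁻¹) = 1) → a ∈ Z) → Z ≠ ⊤ →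
    ∀ (σ : MulAut Γ), σ ^ N = 1 →
    (∀ a, a ∉ Z → ∀ i, 0 < i → i < N → (σ ^ i) a * a⁻¹ ∉ Z) →
    ∀ (g : Module.End K W), g ^ N = 1 → (∀ a, g * ρ a = ρ (σ a) * g) → (∀ v, g v = v → v = 0) →
    Module.finrank K W = N - 1 ∧ ∀ c : K, c ^ N = 1 → c ≠ 1 → ∃ v : W, v ≠ 0 ∧ g v = c • v

/-- **R2** (critical case on an arbitrary module). -/
def R2Statement : Prop :=
  ∀ (Γ : Type u) [Group Γ] [Finite Γ] (K : Type) [Field K] [IsAlgClosed K] (V : Type u)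
    [AddCommGroup V] [Module K V] [FiniteDimensional K V] [Nontrivial V]
    (ρ : Γ →* Module.End K V) (Z : Subgroup Γ) (k : ℕ), 0 < k → ((2 : K) ≠ 0) →
    ((Nat.card Γ : K) ≠ 0) →
    (∀ a b : Γ, a * b * a⁻¹ * b⁻¹ ∈ Z) → (∀ z ∈ Z, ∃ c : K, ρ z = c • 1) →
    (∀ a : Γ, (∀ b : Γ, ρ (b * a * b⁻¹ * a⁻¹) = 1) → a ∈ Z) → Z ≠ ⊤ →
    ∀ (σ : MulAut Γ) (X : Module.End K V), IsFpfMod σ k ρ X →
    (∀ a, a ∉ Z → ∀ i, 0 < i → i < 2 ^ k → (σ ^ i) a * a⁻¹ ∉ Z) →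
    Z.index = (2 ^ k - 1) ^ 2 ∧
    ∀ U : Submodule K V, (∀ a : Γ, ∀ u ∈ U, ρ a u ∈ U) → U ≠ ⊤ →
      ∃ v w : V, (X ^ (2 ^ (k - 1))) v = -v ∧ (X ^ (2 ^ (k - 1))) w = -w ∧
        ∀ a b : K, a • v + b • w ∈ U → a = 0 ∧ b = 0

/-- **WS** (restriction to a weight space). -/
def WSStatement : Prop :=
  ∀ (H : Type u) [Group H] [Finite H] (σ : MulAut H) (n : ℕ), 0 < n →
    ∀ (K : Type) [Field K] [IsAlgClosed K] (V : Type u) [AddCommGroup V] [Module K V]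
      [FiniteDimensional K V] (ρ : H →* Module.End K V) (X : Module.End K V),
      IsFpfMod σ n ρ X →
    ∀ (A Γ : Subgroup H), (∀ a ∈ A, σ a ∈ A) → (∀ a ∈ Γ, σ a ∈ Γ) →
      (∀ a ∈ A, ∀ b ∈ Γ, ρ a * ρ b = ρ b * ρ a) →
      (∀ a ∈ A, ρ ((σ ^ (2 ^ (n - 1))) a) = ρ a) →
    ∀ (χ : H → K) (w : V), w ≠ 0 → (∀ a ∈ A, ρ a w = χ a • w) →
      ∃ (j k : ℕ) (σ' : MulAut Γ) (ρ' : Γ →* Module.End K (wtSp ρ A χ))
        (X' : Module.End K (wtSp ρ A χ)),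
        0 < k ∧ j * 2 ^ k = 2 ^ n ∧ (∀ a ∈ A, χ ((σ ^ j) a) = χ a) ∧
        (∀ a : Γ, ((σ' a : Γ) : H) = (σ ^ j) (a : H)) ∧
        (∀ a : Γ, (((σ' ^ (2 ^ (k - 1))) a : Γ) : H) = (σ ^ (2 ^ (n - 1))) (a : H)) ∧
        (∀ (a : Γ) (v : wtSp ρ A χ), ((ρ' a v : wtSp ρ A χ) : V) = ρ (a : H) (v : V)) ∧
        (∀ v : wtSp ρ A χ, ((X' v : wtSp ρ A χ) : V) = (X ^ j) (v : V)) ∧
        (∀ v : wtSp ρ A χ, (((X' ^ (2 ^ (k - 1))) v : wtSp ρ A χ) : V) =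
          (X ^ (2 ^ (n - 1))) (v : V)) ∧
        IsFpfMod σ' k ρ' X'

/-- **Span**: a module is spanned by the common eigenvectors of a commuting subgroup of
invertible order. -/
def SpanStatement : Prop :=
  ∀ (P : Type u) [Group P] [Finite P] (K : Type) [Field K] [IsAlgClosed K] (V : Type u)
    [AddCommGroup V] [Module K V] [FiniteDimensional K V] (ρ : P →* Module.End K V)
    (D : Subgroup P), ((Nat.card D : K) ≠ 0) → (∀ a ∈ D, ∀ b ∈ D, ρ a * ρ b = ρ b * ρ a) →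
    Submodule.span K {v : V | ∀ d ∈ D, ∃ c : K, ρ d v = c • v} = ⊤

/-- **Pair**: two isotropic vectors of the `(-1)`-eigenspace are dependent modulo the radical. -/
def PairStatement : Prop :=
  ∀ (K : Type) [Field K] (V : Type u) [AddCommGroup V] [Module K V], ((2 : K) ≠ 0) →
    ∀ (T : Module.End K V) (β : V →ₗ[K] V →ₗ[K] K), T * T = 1 → (∀ x, β x x = 0) →
    (∀ x y, β (T x) (T y) = β x y) →
    (∃ x₁ x₂ : V, ∀ x, T x = -x → ∃ a b : K, ∀ y, T y = -y → β (x - a • x₁ - b • x₂) y = 0) →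
    ∀ v w : V, T v = -v → T w = -w → β v w = 0 →
      ∃ a b : K, ¬(a = 0 ∧ b = 0) ∧ ∀ y, β (a • v + b • w) y = 0

/-! ## Small group-theoretic pieces -/

/-- **Free**: freeness of the action on `Γ/Z` from inversion modulo `Z`. -/
def FreeStatement : Prop :=
  ∀ (Γ : Type u) [Group Γ] [Finite Γ], Odd (Nat.card Γ) → ∀ (σ : MulAut Γ) (k : ℕ), 0 < k →
    σ ^ (2 ^ k) = 1 →
    ∀ (Z : Subgroup Γ), (∀ z ∈ Z, σ z ∈ Z) → (∀ a b : Γ, a * b * a⁻¹ * b⁻¹ ∈ Z) →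
    (∀ a : Γ, a * (σ ^ (2 ^ (k - 1))) a ∈ Z) →
    ∀ a, a ∉ Z → ∀ i, 0 < i → i < 2 ^ k → (σ ^ i) a * a⁻¹ ∉ Z

/-- **NT**: `q ^ d + 1 = 2 ^ k` forces `d = 1`. -/
def NTStatement : Prop :=
  ∀ q d k : ℕ, q.Prime → 0 < d → q ^ d + 1 = 2 ^ k → d = 1

/-- **Stab**: an element of order prime to `q` stabilising the chain `1 ≤ Z ≤ C` of the
`q`-group `C` centralises `C`. -/
def StabStatement : Prop :=
  ∀ (H : Type u) [Group H] [Finite H] (q : ℕ) [Fact q.Prime] (C Z : Subgroup H), IsPGroup q C →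
    Z ≤ C → ∀ z : H, (orderOf z).Coprime q → (∀ k ∈ Z, z * k = k * z) →
    (∀ x ∈ C, ⁅z, x⁆ ∈ Z) → ∀ x ∈ C, z * x = x * z

/-- **Cyc**: an abelian subgroup of exponent `q` acts on a common eigenvector through a cyclic
quotient. -/
def CycStatement : Prop :=
  ∀ (H : Type u) [Group H] [Finite H] (q : ℕ) [Fact q.Prime] (K : Type) [Field K] (V : Type u)
    [AddCommGroup V] [Module K V] (ρ : H →* Module.End K V) (A : Subgroup H),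
    (∀ a ∈ A, a ^ q = 1) → (∀ a ∈ A, ∀ b ∈ A, a * b = b * a) →
    ∀ w : V, w ≠ 0 → (∀ a ∈ A, ∃ c : K, ρ a w = c • w) →
      ∃ c₀ ∈ A, ∀ c ∈ A, ∃ i : ℕ, ρ (c * c₀ ^ i) w = w

/-- **InvSub**: `invSet` is (the carrier of) a `σ`-invariant subgroup between `Z` and `C`. -/
def InvSubStatement : Prop :=
  ∀ (H : Type u) [Group H] [Finite H] (σ : MulAut H) (n : ℕ), 0 < n → σ ^ (2 ^ n) = 1 →
    ∀ (q : ℕ) (C Z : Subgroup H), IsCritPair σ n q C Z →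
      ∃ Cm : Subgroup H, (Cm : Set H) = invSet σ n C Z ∧ Z ≤ Cm ∧ Cm ≤ C ∧ ∀ x ∈ Cm, σ x ∈ Cm

/-- **Crit**: a characteristic critical pair inside `O_q(H)`. -/
def CritStatement : Prop :=
  ∀ (H : Type u) [Group H] [Finite H] (q : ℕ) [Fact q.Prime],
    ∃ C Z : Subgroup H, C ≤ pCore q H ∧ Z ≤ C ∧ C.Characteristic ∧ Z.Characteristic ∧
      (∀ x ∈ C, ∀ z ∈ Z, x * z = z * x) ∧ (∀ x ∈ C, ∀ y ∈ C, ⁅x, y⁆ ∈ Z) ∧
      (∀ x ∈ C, x ^ q ∈ Z) ∧ (∀ x ∈ C, (∀ y ∈ C, x * y = y * x) → x ∈ Z) ∧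
      ∀ y : H, (orderOf y).Coprime q → (∀ x ∈ C, y * x = x * y) →
        ∀ x ∈ pCore q H, y * x = x * y

/-! ## The lower bound (rank of the commutator form on the inverted part) -/

/-- **LA**: the radical `Zg` of the commutator form of `Cm` at the eigenvector `w`. -/
def LAStatement : Prop :=
  ∀ (H : Type u) [Group H] [Finite H] (σ : MulAut H) (n : ℕ), 0 < n → ∀ (q : ℕ) [Fact q.Prime]
    (K : Type) [Field K] [IsAlgClosed K] (V : Type u) [AddCommGroup V] [Module K V]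
    [FiniteDimensional K V] (ρ : H →* Module.End K V) (X : Module.End K V),
    IsFpfMod σ n ρ X → ((2 : K) ≠ 0) → ((q : K) ≠ 0) → (∀ h : H, σ h = h → h = 1) →
    ∀ (C Z Cm : Subgroup H), IsCritPair σ n q C Z → (Cm : Set H) = invSet σ n C Z →
    ∀ w : V, w ≠ 0 → (∀ z ∈ Z, ∃ c : K, ρ z w = c • w) →
      ∃ Zg : Subgroup H, Zg ≤ Cm ∧ (∀ x ∈ Cm, ∀ y ∈ Cm, ⁅x, y⁆ ∈ Zg) ∧ (∀ x ∈ Cm, x ^ q ∈ Zg) ∧
        (∀ a ∈ Zg, ∀ y ∈ Cm, ρ ⁅a, y⁆ w = w) ∧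
        (Zg = Cm ∨ ∃ k : ℕ, 0 < k ∧ Nat.card Cm = (2 ^ k - 1) ^ 2 * Nat.card Zg)

/-- **LGroup**: the commutator form at `w` has rank at most two on the inverted part. -/
def LGroupStatement : Prop :=
  ∀ (H : Type u) [Group H] [Finite H] (σ : MulAut H) (n : ℕ), 0 < n → ∀ (q : ℕ) [Fact q.Prime]
    (K : Type) [Field K] [IsAlgClosed K] (V : Type u) [AddCommGroup V] [Module K V]
    [FiniteDimensional K V] (ρ : H →* Module.End K V) (X : Module.End K V),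
    IsFpfMod σ n ρ X → ((2 : K) ≠ 0) → ((q : K) ≠ 0) → (∀ h : H, σ h = h → h = 1) →
    ∀ (C Z : Subgroup H), IsCritPair σ n q C Z →
    ∀ w : V, w ≠ 0 → (∀ z ∈ Z, ∃ c : K, ρ z w = c • w) →
      ∃ x₁ ∈ invSet σ n C Z, ∃ x₂ ∈ invSet σ n C Z, ∀ x ∈ invSet σ n C Z, ∃ i j : ℕ,
        ∀ y ∈ invSet σ n C Z, ρ ⁅x * x₁ ^ i * x₂ ^ j, y⁆ w = w

/-! ## The upper bound -/

/-- **ULinA**: a minimal `σ`-invariant subgroup on which `τ` acts nontrivially. -/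
def ULinAStatement : Prop :=
  ∀ (P : Type u) [Group P] [Finite P] (σ : MulAut P) (n : ℕ), 0 < n → ∀ (s : ℕ) [Fact s.Prime],
    IsPGroup s P → Odd (Nat.card P) →
    ∀ (K : Type) [Field K] [IsAlgClosed K] (V : Type u) [AddCommGroup V] [Module K V]
    [FiniteDimensional K V] (ρ : P →* Module.End K V) (X : Module.End K V),
    IsFpfMod σ n ρ X → ((s : K) ≠ 0) →
    (∃ g : P, ρ ((σ ^ (2 ^ (n - 1))) g) ≠ ρ g) →
    ∃ S D : Subgroup P, D = ⁅S, S⁆ ∧ (∀ x ∈ S, σ x ∈ S) ∧ (∀ x ∈ D, σ x ∈ D) ∧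
      (∀ a ∈ S, a * (σ ^ (2 ^ (n - 1))) a ∈ D) ∧
      (∀ d ∈ D, ∀ g ∈ S, ρ d * ρ g = ρ g * ρ d) ∧
      (∀ d ∈ D, ρ ((σ ^ (2 ^ (n - 1))) d) = ρ d) ∧ ∃ d ∈ D, ρ d ≠ 1

/-- **ULinB**: nontrivial weight vectors of `D` lie in the radical of every admissible form. -/
def ULinBStatement : Prop :=
  ∀ (P : Type u) [Group P] [Finite P] (σ : MulAut P) (n : ℕ), 0 < n → ∀ (s : ℕ) [Fact s.Prime],
    IsPGroup s P → Odd (Nat.card P) →
    ∀ (K : Type) [Field K] [IsAlgClosed K] (V : Type u) [AddCommGroup V] [Module K V]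
    [FiniteDimensional K V] (ρ : P →* Module.End K V) (X : Module.End K V),
    IsFpfMod σ n ρ X → ((s : K) ≠ 0) → ((2 : K) ≠ 0) →
    ∀ (S D : Subgroup P), D = ⁅S, S⁆ → (∀ x ∈ S, σ x ∈ S) → (∀ x ∈ D, σ x ∈ D) →
      (∀ a ∈ S, a * (σ ^ (2 ^ (n - 1))) a ∈ D) →
      (∀ d ∈ D, ∀ g ∈ S, ρ d * ρ g = ρ g * ρ d) →
      (∀ d ∈ D, ρ ((σ ^ (2 ^ (n - 1))) d) = ρ d) →
    ∀ (β : V →ₗ[K] V →ₗ[K] K), IsAdmForm n ρ X β →
    ∀ (χ : P → K) (v : V), (∀ d ∈ D, ρ d v = χ d • v) → (∃ d ∈ D, χ d ≠ 1) → ∀ y, β v y = 0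

/-- **ULin**: some `z` acting nontrivially has `(ρ z - 1) V` inside the radical of every
admissible form. -/
def ULinStatement : Prop :=
  ∀ (P : Type u) [Group P] [Finite P] (σ : MulAut P) (n : ℕ), 0 < n → ∀ (s : ℕ) [Fact s.Prime],
    IsPGroup s P → Odd (Nat.card P) →
    ∀ (K : Type) [Field K] [IsAlgClosed K] (V : Type u) [AddCommGroup V] [Module K V]
    [FiniteDimensional K V] (ρ : P →* Module.End K V) (X : Module.End K V),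
    IsFpfMod σ n ρ X → ((s : K) ≠ 0) → ((2 : K) ≠ 0) →
    (∃ g : P, ρ ((σ ^ (2 ^ (n - 1))) g) ≠ ρ g) →
    ∃ z : P, ρ z ≠ 1 ∧ ∀ β : V →ₗ[K] V →ₗ[K] K, IsAdmForm n ρ X β →
      ∀ x y, β (ρ z x - x) y = 0

/-- **UAb**: the same for an action on an elementary abelian `q`-group with `ZMod q`-valued
forms. -/
def UAbStatement : Prop :=
  ∀ (P : Type u) [Group P] [Finite P] (M : Type u) [CommGroup M] [Finite M] (q s : ℕ)
    [Fact q.Prime] [Fact s.Prime], q ≠ s → q ≠ 2 → s ≠ 2 → IsPGroup s P → (∀ m : M, m ^ q = 1) →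
    ∀ (c : P →* MulAut M) (σ : MulAut P) (φ : MulAut M) (n : ℕ), 0 < n → σ ^ (2 ^ n) = 1 →
    φ ^ (2 ^ n) = 1 → (∀ g m, φ (c g m) = c (σ g) (φ m)) → (∀ m, φ m = m → m = 1) →
    (∃ g : P, c ((σ ^ (2 ^ (n - 1))) g) ≠ c g) →
    ∃ z : P, c z ≠ 1 ∧ ∀ β : M → M → ZMod q,
      (∀ x y z, β (x * y) z = β x z + β y z) → (∀ x y z, β x (y * z) = β x y + β x z) →
      (∀ x, β x x = 0) → (∀ g x y, β (c g x) (c g y) = β x y) →
      (∀ x y, β ((φ ^ (2 ^ (n - 1))) x) ((φ ^ (2 ^ (n - 1))) y) = β x y) →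
      (∃ x₁ x₂ : M, ∀ x, (φ ^ (2 ^ (n - 1))) x = x⁻¹ → ∃ i j : ℕ,
        ∀ y, (φ ^ (2 ^ (n - 1))) y = y⁻¹ → β (x * x₁ ^ i * x₂ ^ j) y = 0) →
      ∀ x y, β (c z x * x⁻¹) y = 0

/-- **UGroup**: the group-theoretic upper bound. -/
def UGroupStatement : Prop :=
  ∀ (H : Type u) [Group H] [Finite H] (σ : MulAut H) (n : ℕ), 0 < n → σ ^ (2 ^ n) = 1 →
    (∀ h : H, σ h = h → h = 1) →
    ∀ (q s : ℕ) [Fact q.Prime] [Fact s.Prime], q ≠ s →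
    ∀ (C Z : Subgroup H), IsCritPair σ n q C Z →
    ∀ (T : Subgroup H), IsPGroup s T → (∀ t ∈ T, σ t ∈ T) →
      (∀ t ∈ T, ∀ x ∈ C, t * x * t⁻¹ ∈ C) → (∀ t ∈ T, ∀ z ∈ Z, t * z = z * t) →
      (∃ t ∈ T, (σ ^ (2 ^ (n - 1))) t = t⁻¹ ∧ ∃ x ∈ C, t * x ≠ x * t) →
      ∃ z ∈ T, (∃ x ∈ C, z * x ≠ x * z) ∧ ∀ D : Subgroup H,
        (∃ c₀ ∈ ⁅C, C⁆, ∀ c ∈ ⁅C, C⁆, ∃ i : ℕ, c * c₀ ^ i ∈ D) →
        (∃ x₁ ∈ invSet σ n C Z, ∃ x₂ ∈ invSet σ n C Z, ∀ x ∈ invSet σ n C Z, ∃ i j : ℕ,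
          ∀ y ∈ invSet σ n C Z, ⁅x * x₁ ^ i * x₂ ^ j, y⁆ ∈ D) →
        ∀ x ∈ C, ∀ y ∈ C, ⁅⁅z, x⁆, y⁆ ∈ D

/-! ## Global pieces -/

/-- Linear separation of `O_q(H)` by fixed-point-free modules in characteristic `≠ 2, q`. -/
def LinSep (H : Type u) [Group H] (σ : MulAut H) (n q : ℕ) : Prop :=
  ∀ x ∈ pCore q H, x ≠ 1 → ∃ (K : Type) (_ : Field K) (_ : IsAlgClosed K) (V : Type u)
    (_ : AddCommGroup V) (_ : Module K V) (_ : FiniteDimensional K V)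
    (ρ : H →* Module.End K V) (X : Module.End K V),
    (2 : K) ≠ 0 ∧ (q : K) ≠ 0 ∧ IsFpfMod σ n ρ X ∧ ρ x ≠ 1

/-- The same over prime fields `ZMod r`, `r ≠ 2, q`. -/
def ZLinSep (H : Type u) [Group H] (σ : MulAut H) (n q : ℕ) : Prop :=
  ∀ x ∈ pCore q H, x ≠ 1 → ∃ (r : ℕ) (_ : Fact r.Prime) (V : Type u) (_ : AddCommGroup V)
    (_ : Module (ZMod r) V) (_ : Finite V) (ρ : H →* Module.End (ZMod r) V)
    (X : Module.End (ZMod r) V), r ≠ 2 ∧ r ≠ q ∧ IsFpfMod σ n ρ X ∧ ρ x ≠ 1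

/-- **G1**: inverted `s`-elements of `σ`-invariant `s`-subgroups centralise `O_q(H)`, `q ≠ s`,
when `O_q(H)` is linearly separated. -/
def G1Statement : Prop :=
  ∀ (H : Type u) [Group H] [Finite H] (σ : MulAut H) (n : ℕ), 0 < n → σ ^ (2 ^ n) = 1 →
    (∀ h : H, σ h = h → h = 1) →
    ∀ (q s : ℕ) [Fact q.Prime] [Fact s.Prime], q ≠ s → LinSep H σ n q →
    ∀ (S : Subgroup H), IsPGroup s S → (∀ x ∈ S, σ x ∈ S) →
    ∀ y ∈ S, (σ ^ (2 ^ (n - 1))) y = y⁻¹ → ∀ x ∈ pCore q H, y * x = x * y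

/-- **G2a1**: an element centralising `O_q(H)` for all `q ≠ p` whose image lies in
`O_p(H / F(H))` lies in `F(H)`. -/
def G2a1Statement : Prop :=
  ∀ (H : Type u) [Group H] [Finite H] (N : Subgroup H) [N.Normal], N = fittingSubgroup H →
    ∀ (p : ℕ) [Fact p.Prime] (x : H),
    (∀ (q : ℕ) [Fact q.Prime], q ≠ p → ∀ y ∈ pCore q H, x * y = y * x) →
    QuotientGroup.mk' N x ∈ pCore p (H ⧸ N) → x ∈ N

/-- **G2a**: the conclusion of G1 for all pairs of primes forces `τ` to centralise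
`H / F(H)`. -/
def G2aStatement : Prop :=
  ∀ (H : Type u) [Group H] [Finite H], Group.IsSolvable H → ∀ (σ : MulAut H) (n : ℕ), 0 < n →
    σ ^ (2 ^ n) = 1 → (∀ h : H, σ h = h → h = 1) →
    (∀ (q s : ℕ) [Fact q.Prime] [Fact s.Prime], q ≠ s → ∀ (S : Subgroup H), IsPGroup s S →
      (∀ x ∈ S, σ x ∈ S) → ∀ y ∈ S, (σ ^ (2 ^ (n - 1))) y = y⁻¹ →
      ∀ x ∈ pCore q H, y * x = x * y) →
    ∀ h : H, h⁻¹ * (σ ^ (2 ^ (n - 1))) h ∈ fittingSubgroup H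

/-- **G2b1**: `O_q(G / F(G))` is separated by the `ZMod r`-modules `O_r / Φ(O_r)` of
`G / O_{r'}(G)`, `r ≠ q`. -/
def G2b1Statement : Prop :=
  ∀ (G : Type u) [Group G] [Finite G], Group.IsSolvable G → ∀ (σ : MulAut G) (n : ℕ), 0 < n →
    σ ^ (2 ^ n) = 1 → (∀ g : G, σ g = g → g = 1) →
    ∀ (N : Subgroup G) [N.Normal], N = fittingSubgroup G → ∀ (φ : MulAut (G ⧸ N)),
    (∀ g, φ (QuotientGroup.mk' N g) = QuotientGroup.mk' N (σ g)) →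
    ∀ (q : ℕ) [Fact q.Prime], ZLinSep (G ⧸ N) φ n q

/-- **G2b2**: base change to the algebraic closure. -/
def G2b2Statement : Prop :=
  ∀ (H : Type u) [Group H] [Finite H] (σ : MulAut H) (n q : ℕ) [Fact q.Prime],
    ZLinSep H σ n q → LinSep H σ n q

/-- **K**: `τ = σ ^ (2 ^ (n - 1))` centralises `G / F₂(G)`. -/
def KStatement : Prop :=
  ∀ (G : Type u) [Group G] [Finite G], Group.IsSolvable G → ∀ (σ : MulAut G) (n : ℕ), 0 < n →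
    σ ^ (2 ^ n) = 1 → (∀ g : G, σ g = g → g = 1) →
    ∀ (N : Subgroup G) [N.Normal], N = fittingSubgroup G → ∀ g : G,
      QuotientGroup.mk' N (g⁻¹ * (σ ^ (2 ^ (n - 1))) g) ∈ fittingSubgroup (G ⧸ N)

end Cfsg.Agent.H66.Gross
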