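import Cfsg.Agent.H66.HHCrit
import Cfsg.Agent.S3736

/-!
# Hall–Higman Theorem B (faithful representation form)

`hhB_aux`: a finite group `G` with a faithful representation over an algebraically closed field
of characteristic `p`, a `q`-subgroup `Q` normalised by `g` of order `p^(n+1)` such that
`g^(p^n)` does not centralise `Q`.  Then `(ρ g - 1)^(N-1) ≠ 0` for `N = p^(n+1)`, or for
`N = p^(n+1-n₀) (p^n₀ - 1)` where `p^n₀ - 1` is a power of `q` and `Q` is non-abelian.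
-/

set_option autoImplicit false
set_option linter.style.haveILetI false
set_option linter.unusedVariables false
set_option linter.unusedSectionVars false

namespace Cfsg.Agent.H66

open Module

open scoped commutatorElement

section Weights

variable {K : Type*} [Field K] {V : Type*} [AddCommGroup V] [Module K V]

theorem weight_indep {ι Z : Type*} [DecidableEq ι] (T : Z → Module.End K V) (A : Set Z)
    (χ : ι → Z → K) :
    ∀ (s : Finset ι), (∀ i ∈ s, ∀ j ∈ s, i ≠ j → ∃ z ∈ A, χ i z ≠ χ j z) → ∀ (v : ι → V),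
      (∀ i ∈ s, ∀ z ∈ A, T z (v i) = χ i z • v i) → ∑ i ∈ s, v i = 0 → ∀ i ∈ s, v i = 0 := by
  intro s
  induction s using Finset.induction_on with
  | empty => intro _ _ _ _ i hi; simp at hi
  | insert j s hj ih =>
    intro hdist v hv hsum
    have hs' : ∀ i ∈ s, v i = 0 := by
      intro i hi
      obtain ⟨z, hzA, hz⟩ := hdist i (Finset.mem_insert_of_mem hi) j (Finset.mem_insert_self j s)
        (fun h => hj (h ▸ hi))
      have h2 : ∑ i' ∈ insert j s, (χ i' z - χ j z) • v i' = 0 := by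
        calc ∑ i' ∈ insert j s, (χ i' z - χ j z) • v i'
            = ∑ i' ∈ insert j s, (T z (v i') - χ j z • v i') :=
              Finset.sum_congr rfl (fun i' hi' => by rw [hv i' hi' z hzA, sub_smul])
          _ = T z (∑ i' ∈ insert j s, v i') - χ j z • ∑ i' ∈ insert j s, v i' := by
              rw [map_sum, Finset.smul_sum, Finset.sum_sub_distrib]
          _ = 0 := by rw [hsum, map_zero, smul_zero, sub_zero]
      rw [Finset.sum_insert hj, sub_self, zero_smul, zero_add] at h2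
      have h3 := ih (fun a ha b hb hab =>
          hdist a (Finset.mem_insert_of_mem ha) b (Finset.mem_insert_of_mem hb) hab)
        (fun i' => (χ i' z - χ j z) • v i')
        (fun i' hi' z' hz' => by
          rw [map_smul, hv i' (Finset.mem_insert_of_mem hi') z' hz', smul_comm]) h2 i hi
      rcases smul_eq_zero.mp h3 with h4 | h4
      · exact absurd (sub_eq_zero.mp h4) hz
      · exact h4
    intro i hi
    rcases Finset.mem_insert.mp hi with rfl | hi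
    · rw [Finset.sum_insert hj, Finset.sum_eq_zero (fun i' hi' => hs' i' hi'), add_zero] at hsum
      exact hsum
    · exact hs' i hi

theorem resRep_irr {Γ : Type*} [Group Γ] (ρ : Γ →* Module.End K V) (W : Submodule K V)
    (hWinv : ∀ a : Γ, ∀ w ∈ W, ρ a w ∈ W)
    (hWmin : ∀ U : Submodule K V, U ≤ W → (∀ a : Γ, ∀ w ∈ U, ρ a w ∈ U) → U = ⊥ ∨ U = W) :
    ∀ U : Submodule K W, (∀ a : Γ, ∀ w ∈ U, resRep ρ W hWinv a w ∈ U) → U = ⊥ ∨ U = ⊤ := by
  intro U hU
  rcases hWmin (U.map W.subtype) (Submodule.map_subtype_le W U) (by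
    rintro a _ ⟨w, hw, rfl⟩
    exact ⟨resRep ρ W hWinv a w, hU a w hw, rfl⟩) with h | h
  · left
    rw [eq_bot_iff]
    intro w hw
    have h1 : (w : V) ∈ U.map W.subtype := ⟨w, hw, rfl⟩
    rw [h, Submodule.mem_bot] at h1
    rw [Submodule.mem_bot]
    exact Subtype.ext h1
  · right
    rw [eq_top_iff]
    intro w _
    have h1 : (w : V) ∈ U.map W.subtype := by rw [h]; exact w.2
    obtain ⟨w', hw', e⟩ := h1
    have h2 : w' = w := Subtype.ext e
    rwa [← h2]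

theorem exists_common_eigenvector [IsAlgClosed K] [FiniteDimensional K V] {Γ : Type*} [Group Γ]
    [Finite Γ] (ρ : Γ →* Module.End K V) (hc : ∀ a b, ρ a * ρ b = ρ b * ρ a)
    (U : Submodule K V) (hU : U ≠ ⊥) (hUinv : ∀ a : Γ, ∀ u ∈ U, ρ a u ∈ U) :
    ∃ w ∈ U, w ≠ 0 ∧ ∀ a : Γ, ∃ c : K, ρ a w = c • w := by
  haveI : Nontrivial U := Submodule.nontrivial_iff_ne_bot.mpr hU
  obtain ⟨W, hWne, hWinv, hWmin⟩ := exists_min_invariant (resRep ρ U hUinv)
  haveI : Nontrivial W := Submodule.nontrivial_iff_ne_bot.mpr hWne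
  have hirr := resRep_irr (resRep ρ U hUinv) W hWinv hWmin
  obtain ⟨w, hw⟩ := exists_ne (0 : W)
  refine ⟨((w : U) : V), (w : U).2, ?_, ?_⟩
  · intro h
    apply hw
    apply Subtype.ext
    apply Subtype.ext
    exact h
  · intro a
    obtain ⟨c, hc'⟩ := schur_scalar (resRep (resRep ρ U hUinv) W hWinv) hirr
      (resRep (resRep ρ U hUinv) W hWinv a) (fun b => by
        rw [← map_mul, ← map_mul]
        apply LinearMap.ext
        intro x
        apply Subtype.ext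
        apply Subtype.ext
        show ρ (a * b) ((x : U) : V) = ρ (b * a) ((x : U) : V)
        rw [map_mul, map_mul, hc])
    refine ⟨c, ?_⟩
    have h1 := congrArg (fun f : Module.End K W => (((f w : W) : U) : V)) hc'
    exact h1

/-- The weight space of the function `χ` for the subgroup `A`. -/
def wtSpace {G : Type*} [Group G] (ρ : G →* Module.End K V) (A : Subgroup G) (χ : G → K) :
    Submodule K V where
  carrier := {v | ∀ z ∈ A, ρ z v = χ z • v}
  add_mem' := by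
    intro a b ha hb z hz
    rw [map_add, ha z hz, hb z hz, smul_add]
  zero_mem' := by
    intro z hz
    rw [map_zero, smul_zero]
  smul_mem' := by
    intro c v hv z hz
    rw [map_smul, hv z hz, smul_comm]

theorem mem_wtSpace {G : Type*} [Group G] (ρ : G →* Module.End K V) (A : Subgroup G) (χ : G → K)
    (v : V) : v ∈ wtSpace ρ A χ ↔ ∀ z ∈ A, ρ z v = χ z • v := Iff.rfl

/-- The stabiliser of the weight `χ` of `A` (in the normaliser of `A`). -/
def chiStab {G : Type*} [Group G] (A : Subgroup G) (χ : G → K) : Subgroup G where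
  carrier := {s | (∀ z ∈ A, s * z * s⁻¹ ∈ A) ∧ (∀ z ∈ A, s⁻¹ * z * s ∈ A) ∧
    ∀ z ∈ A, χ (s⁻¹ * z * s) = χ z}
  one_mem' := by
    refine ⟨fun z hz => ?_, fun z hz => ?_, fun z hz => ?_⟩
    · simpa using hz
    · simpa using hz
    · simp
  mul_mem' := by
    rintro s t ⟨hs1, hs2, hs3⟩ ⟨ht1, ht2, ht3⟩
    refine ⟨fun z hz => ?_, fun z hz => ?_, fun z hz => ?_⟩
    · have h := hs1 _ (ht1 z hz)
      have e : s * t * z * (s * t)⁻¹ = s * (t * z * t⁻¹) * s⁻¹ := by group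
      rw [e]; exact h
    · have h := ht2 _ (hs2 z hz)
      have e : (s * t)⁻¹ * z * (s * t) = t⁻¹ * (s⁻¹ * z * s) * t := by group
      rw [e]; exact h
    · have e : (s * t)⁻¹ * z * (s * t) = t⁻¹ * (s⁻¹ * z * s) * t := by group
      rw [e, ht3 _ (hs2 z hz), hs3 z hz]
  inv_mem' := by
    rintro s ⟨hs1, hs2, hs3⟩
    refine ⟨fun z hz => ?_, fun z hz => ?_, fun z hz => ?_⟩
    · rw [inv_inv]; exact hs2 z hz
    · rw [inv_inv]; exact hs1 z hz
    · rw [inv_inv]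
      have h := hs3 _ (hs1 z hz)
      have e : s⁻¹ * (s * z * s⁻¹) * s = z := by group
      rw [e] at h
      exact h.symm

theorem mem_chiStab {G : Type*} [Group G] (A : Subgroup G) (χ : G → K) (s : G) :
    s ∈ chiStab A χ ↔ (∀ z ∈ A, s * z * s⁻¹ ∈ A) ∧ (∀ z ∈ A, s⁻¹ * z * s ∈ A) ∧
      ∀ z ∈ A, χ (s⁻¹ * z * s) = χ z := Iff.rfl

theorem wt_translate {G : Type*} [Group G] (ρ : G →* Module.End K V) (A : Subgroup G) (χ : G → K)
    (s : G) (hs2 : ∀ z ∈ A, s⁻¹ * z * s ∈ A) (v : V) (hv : v ∈ wtSpace ρ A χ) :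
    ∀ z ∈ A, ρ z (ρ s v) = χ (s⁻¹ * z * s) • ρ s v := by
  intro z hz
  have e : z * s = s * (s⁻¹ * z * s) := by group
  have h1 : ρ z (ρ s v) = ρ s (ρ (s⁻¹ * z * s) v) := by
    rw [← Module.End.mul_apply, ← Module.End.mul_apply, ← map_mul, ← map_mul, e]
  rw [h1, hv _ (hs2 z hz), map_smul]

theorem chiStab_maps {G : Type*} [Group G] (ρ : G →* Module.End K V) (A : Subgroup G) (χ : G → K)
    (s : G) (hs : s ∈ chiStab A χ) (v : V) (hv : v ∈ wtSpace ρ A χ) : ρ s v ∈ wtSpace ρ A χ := by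
  intro z hz
  obtain ⟨hs1, hs2, hs3⟩ := hs
  rw [wt_translate ρ A χ s hs2 v hv z hz, hs3 z hz]

end Weights

theorem pow_prime_pow_mem {H : Type*} [Group H] {p : ℕ} (hp : p.Prime) (S : Subgroup H) (x : H)
    (m i : ℕ) (hx1 : x ^ p ^ (m + 1) = 1) (hi0 : 0 < i) (h : x ^ i ∈ S) :
    ∃ a, p ^ a ≤ i ∧ x ^ p ^ a ∈ S := by
  obtain ⟨a, ha, hg⟩ := (Nat.dvd_prime_pow hp).mp (Nat.gcd_dvd_right i (p ^ (m + 1)))
  refine ⟨a, ?_, ?_⟩
  · have : p ^ a ∣ i := hg ▸ Nat.gcd_dvd_left i (p ^ (m + 1))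
    exact Nat.le_of_dvd hi0 this
  · have e : (x ^ p ^ a) = (x ^ i) ^ (Nat.gcdA i (p ^ (m + 1))) := by
      have h2 := Nat.gcd_eq_gcd_ab i (p ^ (m + 1))
      rw [hg] at h2
      have h3 : x ^ ((p ^ a : ℕ) : ℤ) =
          x ^ ((i : ℤ) * Nat.gcdA i (p ^ (m + 1)) +
            ((p ^ (m + 1) : ℕ) : ℤ) * Nat.gcdB i (p ^ (m + 1))) := by
        rw [h2]
      rw [zpow_natCast, zpow_add, zpow_mul, zpow_mul, zpow_natCast, zpow_natCast, hx1, one_zpow,
        mul_one] at h3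
      exact h3
    rw [e]
    exact Subgroup.zpow_mem _ h _

section Crit2

theorem crit_case {G : Type*} [Group G] [Finite G] (p q : ℕ) [Fact p.Prime] [Fact q.Prime]
    (hpq : p ≠ q)
    {K : Type*} [Field K] [IsAlgClosed K] [CharP K p] {V : Type*} [AddCommGroup V] [Module K V]
    [FiniteDimensional K V] [Nontrivial V] (ρ : G →* Module.End K V)
    (hfaith : Function.Injective ρ) (Q₁ : Subgroup G) (hQ₁q : IsPGroup q Q₁) (g : G) (n : ℕ)
    (hgn : g ^ p ^ (n + 1) = 1) (hgN : g ∈ Subgroup.normalizer (Q₁ : Set G))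
    (hfr : frattini ↥Q₁ = Subgroup.center ↥Q₁) (hcm : commutator ↥Q₁ = Subgroup.center ↥Q₁)
    (hab : ¬ ∀ a ∈ Q₁, ∀ b ∈ Q₁, a * b = b * a)
    (hirrQ₁ : ∀ U : Subgroup G, (frattini ↥Q₁).map Q₁.subtype ≤ U → U ≤ Q₁ →
      Subgroup.zpowers g ≤ Subgroup.normalizer (U : Set G) →
      U = (frattini ↥Q₁).map Q₁.subtype ∨ U = Q₁)
    (hy : ∃ a ∈ Q₁, g ^ p ^ n * a ≠ a * g ^ p ^ n)
    (hscal : ∀ z : ↥Q₁, z ∈ Subgroup.center ↥Q₁ → ∃ c : K, ρ (z : G) = c • 1)
    (hN : ∑ i ∈ Finset.range (p ^ (n + 1)), ρ g ^ i = 0) :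
    (∃ m : ℕ, 1 ≤ m ∧ p ^ (n + 1) - 1 = q ^ m) ∧ (ρ g - 1) ^ (p ^ (n + 1) - 2) ≠ 0 := by
  classical
  have hp : p.Prime := Fact.out
  have hq : q.Prime := Fact.out
  obtain ⟨k, hk⟩ := IsPGroup.iff_card.mp hQ₁q
  have hqp : (q ^ k).Coprime p := Nat.Coprime.pow_left _ ((Nat.coprime_primes hq hp).mpr hpq.symm)
  obtain ⟨Φ₁, hΦ₁⟩ : ∃ Φ₁ : Subgroup G, Φ₁ = (frattini ↥Q₁).map Q₁.subtype := ⟨_, rfl⟩
  have hmemΦ : ∀ a : ↥Q₁, (a : G) ∈ Φ₁ ↔ a ∈ Subgroup.center ↥Q₁ := by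
    intro a
    rw [hΦ₁, ← hfr]
    constructor
    · rintro ⟨f, hf, hfe⟩
      have : f = a := Subtype.ext hfe
      rwa [← this]
    · intro h
      exact ⟨a, h, rfl⟩
  have hZtop : Subgroup.center ↥Q₁ ≠ ⊤ := by
    intro h
    apply hab
    intro a ha b hb
    have h1 : (⟨a, ha⟩ : ↥Q₁) ∈ Subgroup.center ↥Q₁ := by rw [h]; trivial
    have h2 := Subgroup.mem_center_iff.mp h1 ⟨b, hb⟩
    exact (congrArg Subtype.val h2).symm
  let ρ' : ↥Q₁ →* Module.End K V := ρ.comp Q₁.subtype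
  have hρ' : ∀ a : ↥Q₁, ρ' a = ρ (a : G) := fun a => rfl
  have hcop : (Nat.card ↥Q₁).Coprime p := by rw [hk]; exact hqp
  have hcomm : ∀ a b : ↥Q₁, a * b * a⁻¹ * b⁻¹ ∈ Subgroup.center ↥Q₁ := by
    intro a b
    rw [← hcm, commutator_def, ← commutatorElement_def]
    exact Subgroup.commutator_mem_commutator (Subgroup.mem_top a) (Subgroup.mem_top b)
  have hZs : ∀ z ∈ Subgroup.center ↥Q₁, ∃ c : K, ρ' z = c • 1 := fun z hz => hscal z hz
  have hnd : ∀ a : ↥Q₁, (∀ b : ↥Q₁, ρ' (b * a * b⁻¹ * a⁻¹) = 1) →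
      a ∈ Subgroup.center ↥Q₁ := by
    intro a ha
    rw [Subgroup.mem_center_iff]
    intro b
    have h1 : ((b * a * b⁻¹ * a⁻¹ : ↥Q₁) : G) = 1 := hfaith ((ha b).trans (map_one ρ).symm)
    have h2 : b * a * b⁻¹ * a⁻¹ = 1 := Subtype.ext h1
    have h3 : b * a * b⁻¹ = a := mul_inv_eq_one.mp h2
    exact mul_inv_eq_iff_eq_mul.mp h3
  obtain ⟨σ, hσ⟩ : ∃ σ : ↥Q₁ ≃* ↥Q₁, σ = Q₁.normalizerMonoidHom ⟨g, hgN⟩ := ⟨_, rfl⟩
  have hσiter : ∀ (i : ℕ) (a : ↥Q₁), (((⇑σ)^[i] a : ↥Q₁) : G) = g ^ i * a * (g ^ i)⁻¹ := by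
    intro i a
    rw [hσ]
    exact normConj_iterate Q₁ ⟨g, hgN⟩ i a
  have hσcoe : ∀ a : ↥Q₁, ((σ a : ↥Q₁) : G) = g * a * g⁻¹ := by
    intro a; rw [hσ]; rfl
  have hσZ : ∀ z ∈ Subgroup.center ↥Q₁, σ z = z := by
    intro z hz
    obtain ⟨c, hc⟩ := hscal z hz
    have h1 : ρ (g * z * g⁻¹) = ρ (z : G) := by
      rw [map_mul, map_mul, hc, mul_smul_comm, mul_one, smul_mul_assoc, ← map_mul,
        mul_inv_cancel, map_one]
    apply Subtype.ext
    rw [hσcoe]
    exact hfaith h1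
  have hσm : ∀ a, (⇑σ)^[p ^ (n + 1)] a = a := by
    intro a
    apply Subtype.ext
    rw [hσiter, hgn]
    simp
  have hfree : ∀ a, a ∉ Subgroup.center ↥Q₁ → ∀ i, 0 < i → i < p ^ (n + 1) →
      (⇑σ)^[i] a * a⁻¹ ∉ Subgroup.center ↥Q₁ := by
    intro a ha i hi0 hi hmem
    apply ha
    rw [← hmemΦ] at hmem ⊢
    have h1 : g ^ i * (a : G) * (g ^ i)⁻¹ * (a : G)⁻¹ ∈ Φ₁ := by
      have : (((⇑σ)^[i] a * a⁻¹ : ↥Q₁) : G) = g ^ i * (a : G) * (g ^ i)⁻¹ * (a : G)⁻¹ := by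
        rw [Subgroup.coe_mul, hσiter]
        rfl
      rw [← this]; exact hmem
    rw [hΦ₁] at h1 ⊢
    exact frattini_free hpq Q₁ hQ₁q g n hgn hgN hirrQ₁ hy i hi0 hi a a.2 h1
  have hX : ρ g ^ p ^ (n + 1) = 1 := by rw [← map_pow, hgn, map_one]
  have hXρ : ∀ a : ↥Q₁, ρ g * ρ' a = ρ' (σ a) * ρ g := by
    intro a
    rw [hρ', hρ', hσcoe, ← map_mul, ← map_mul]
    congr 1
    group
  obtain ⟨hidx, hne⟩ := hhe_main p (n + 1) (by omega) ρ' (Subgroup.center ↥Q₁) hcop hcomm hZs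
    hnd hZtop σ hσZ hσm hfree (ρ g) hX hXρ hN
  refine ⟨?_, hne⟩
  have h1 : (Subgroup.center ↥Q₁).index ∣ q ^ k := by
    rw [← hk]; exact Subgroup.index_dvd_card _
  rw [hidx] at h1
  have h2 : p ^ (n + 1) - 1 ∣ q ^ k := (dvd_pow_self _ two_ne_zero).trans h1
  obtain ⟨b, -, hb⟩ := (Nat.dvd_prime_pow hq).mp h2
  refine ⟨b, ?_, hb⟩
  by_contra hb0
  have hb0' : b = 0 := by omega
  rw [hb0', pow_zero] at hb
  rw [hb, one_pow] at hidx
  exact hZtop (Subgroup.index_eq_one.mp hidx)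

theorem exists_minimal_special {G : Type*} [Group G] [Finite G] (p q : ℕ) [Fact p.Prime]
    [Fact q.Prime] (hpq : p ≠ q)
    (Q : Subgroup G) (hQ : IsPGroup q Q) (g : G) (n : ℕ) (hgn : g ^ p ^ (n + 1) = 1)
    (hgQ : g ∈ Subgroup.normalizer (Q : Set G)) (hh : ∃ a ∈ Q, g ^ p ^ n * a ≠ a * g ^ p ^ n) :
    ∃ Q₁ : Subgroup G, Q₁ ≤ Q ∧ g ∈ Subgroup.normalizer (Q₁ : Set G) ∧
      (∃ a ∈ Q₁, g ^ p ^ n * a ≠ a * g ^ p ^ n) ∧
      ⁅Q₁, Subgroup.zpowers (g ^ p ^ n)⁆ = Q₁ ∧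
      (∀ U : Subgroup G, (frattini ↥Q₁).map Q₁.subtype ≤ U → U ≤ Q₁ →
        Subgroup.zpowers g ≤ Subgroup.normalizer (U : Set G) →
        U = (frattini ↥Q₁).map Q₁.subtype ∨ U = Q₁) ∧
      ((∀ a ∈ Q₁, ∀ b ∈ Q₁, a * b = b * a) →
        ∀ i, 0 < i → i < p ^ (n + 1) → ∀ d ∈ Q₁, g ^ i * d = d * g ^ i → d = 1) ∧
      ((¬ ∀ a ∈ Q₁, ∀ b ∈ Q₁, a * b = b * a) →
        frattini ↥Q₁ = Subgroup.center ↥Q₁ ∧ commutator ↥Q₁ = Subgroup.center ↥Q₁ ∧
        ∀ z ∈ (frattini ↥Q₁).map Q₁.subtype, g ^ p ^ n * z = z * g ^ p ^ n) := by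
  have hp : p.Prime := Fact.out
  have hq : q.Prime := Fact.out
  obtain ⟨y, hy⟩ : ∃ y, y = g ^ p ^ n := ⟨_, rfl⟩
  rw [← hy] at hh ⊢
  have hy1 : y ≠ 1 := by
    rintro rfl
    obtain ⟨a, -, ha⟩ := hh
    simp at ha
  have hyx : y ∈ Subgroup.zpowers g := by
    rw [hy]; exact Subgroup.pow_mem _ (Subgroup.mem_zpowers g) _
  have hyp : y ^ p = 1 := by rw [hy, ← pow_mul, ← pow_succ]; exact hgn
  have hyo : orderOf y = p := orderOf_eq_prime hyp hy1
  have hxy : Commute g y := by rw [hy]; exact (Commute.refl g).pow_right _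
  obtain ⟨Q₁, hQ₁S, hQ₁min⟩ :=
    (wellFounded_lt : WellFounded ((· < ·) : Subgroup G → Subgroup G → Prop)).has_min
      {U : Subgroup G | U ≤ Q ∧ Subgroup.zpowers g ≤ Subgroup.normalizer (U : Set G) ∧
        ∃ a ∈ U, y * a ≠ a * y}
      ⟨Q, le_rfl, Subgroup.zpowers_le.mpr hgQ, hh⟩
  obtain ⟨hQ₁Q, hxQ₁, a₀, ha₀, hya₀⟩ := hQ₁S
  have hQ₁q : IsPGroup q Q₁ := hQ.to_le hQ₁Q
  have hcentY : ∀ U : Subgroup G, (∀ a ∈ U, y * a = a * y) → ⁅U, Subgroup.zpowers y⁆ = ⊥ := by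
    intro U hU
    rw [Subgroup.commutator_eq_bot_iff_le_centralizer]
    intro a ha
    rw [Subgroup.mem_centralizer_iff]
    intro h hh
    obtain ⟨k, rfl⟩ := Subgroup.mem_zpowers_iff.mp hh
    have h1 : Commute y a := hU a ha
    exact (h1.zpow_left k).eq
  have hcentY' : ∀ U : Subgroup G, ⁅U, Subgroup.zpowers y⁆ = ⊥ → ∀ a ∈ U, y * a = a * y := by
    intro U hU a ha
    rw [Subgroup.commutator_eq_bot_iff_le_centralizer] at hU
    exact Subgroup.mem_centralizer_iff.mp (hU ha) y (Subgroup.mem_zpowers y)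
  have hnt : ⁅Q₁, Subgroup.zpowers y⁆ ≠ ⊥ := fun h => hya₀ (hcentY' Q₁ h a₀ ha₀)
  have hmin' : ∀ U : Subgroup G, U < Q₁ →
      Subgroup.zpowers g ≤ Subgroup.normalizer (U : Set G) → ⁅U, Subgroup.zpowers y⁆ = ⊥ := by
    intro U hU hxU
    by_contra hne
    apply hQ₁min U ?_ hU
    refine ⟨hU.le.trans hQ₁Q, hxU, ?_⟩
    by_contra hcon
    push Not at hcon
    exact hne (hcentY U hcon)
  have hAp : (Nat.card (Subgroup.zpowers y)).Coprime q := by
    rw [Nat.card_zpowers, hyo]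
    exact (Nat.coprime_primes hp hq).mpr hpq
  have hAn : Subgroup.zpowers g ≤
      Subgroup.normalizer ((Subgroup.zpowers y : Subgroup G) : Set G) := by
    refine le_trans ?_ (Subgroup.centralizer_le_normalizer _)
    rw [Subgroup.zpowers_le, Subgroup.mem_centralizer_iff]
    intro h hh
    obtain ⟨k, rfl⟩ := Subgroup.mem_zpowers_iff.mp hh
    exact (hxy.symm.zpow_left k).eq
  obtain ⟨hcomm1, hstruct, hirrQ₁, -⟩ := Cfsg.Agent.S3736.result (p := q) (Subgroup.zpowers g)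
    (Subgroup.zpowers y) Q₁ hQ₁q hxQ₁ (Subgroup.zpowers_le.mpr hyx) hAn hAp hnt hmin'
  have hxN : g ∈ Subgroup.normalizer (Q₁ : Set G) := hxQ₁ (Subgroup.mem_zpowers g)
  obtain ⟨k, hk⟩ := IsPGroup.iff_card.mp hQ₁q
  refine ⟨Q₁, hQ₁Q, hxN, ⟨a₀, ha₀, hya₀⟩, hcomm1, hirrQ₁, ?_, ?_⟩
  · intro hab
    have hcop : (Nat.card (Subgroup.zpowers y)).Coprime (Nat.card Q₁) := by
      rw [hk]; exact Nat.Coprime.pow_right _ hAp
    have hfix := Cfsg.Agent.S3736.fixed_le_commutator Q₁ (Subgroup.zpowers y)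
      ((Subgroup.zpowers_le.mpr hyx).trans hxQ₁) hcop hcomm1
    have hQ₁' : ⁅Q₁, Q₁⁆ = ⊥ := by
      rw [Subgroup.commutator_eq_bot_iff_le_centralizer]
      intro a ha
      rw [Subgroup.mem_centralizer_iff]
      intro b hb
      exact hab b hb a ha
    rw [hQ₁'] at hfix
    intro i hi0 hi d hd hcom
    have h1 : Commute (g ^ p ^ n) d := commute_pow_prime_pow hp g d n i hgn hi0 hi hcom
    rw [← hy] at h1
    have h2 : d ∈ Q₁ ⊓ Subgroup.centralizer ((Subgroup.zpowers y : Subgroup G) : Set G) := by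
      refine Subgroup.mem_inf.mpr ⟨hd, ?_⟩
      rw [Subgroup.mem_centralizer_iff]
      intro h hh
      obtain ⟨j, rfl⟩ := Subgroup.mem_zpowers_iff.mp hh
      exact (h1.zpow_left j).eq
    exact Subgroup.mem_bot.mp (hfix h2)
  · intro hab
    have hsp : IsSpecial q ↥Q₁ := by
      rcases hstruct with h | h
      · exfalso
        apply hab
        intro a ha b hb
        haveI := h.1
        exact setLike_mul_comm ha hb
      · exact h
    obtain ⟨-, hfr, hcm⟩ := hsp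
    refine ⟨hfr, hcm, ?_⟩
    obtain ⟨Φ₁, hΦ₁⟩ : ∃ Φ₁ : Subgroup G, Φ₁ = (frattini ↥Q₁).map Q₁.subtype := ⟨_, rfl⟩
    rw [← hΦ₁]
    have hΦQ : Φ₁ ≤ Q₁ := by rw [hΦ₁]; exact Subgroup.map_subtype_le _
    have hΦlt : Φ₁ < Q₁ := by
      refine lt_of_le_of_ne hΦQ ?_
      intro h
      apply hab
      intro a ha b hb
      have h1 : (⟨a, ha⟩ : ↥Q₁) ∈ Subgroup.center ↥Q₁ := by
        rw [← hfr]
        have h2 : a ∈ Φ₁ := by rw [h]; exact ha
        rw [hΦ₁] at h2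
        obtain ⟨f, hf, hfe⟩ := h2
        have : f = ⟨a, ha⟩ := Subtype.ext hfe
        rwa [← this]
      have h2 := Subgroup.mem_center_iff.mp h1 ⟨b, hb⟩
      exact (congrArg Subtype.val h2).symm
    have hΦx : Subgroup.zpowers g ≤ Subgroup.normalizer (Φ₁ : Set G) := by
      rw [hΦ₁]
      exact hxQ₁.trans
        (Cfsg.Agent.H1.normalizer_le_normalizer_map_of_characteristic Q₁ (frattini ↥Q₁))
    exact hcentY' Φ₁ (hmin' Φ₁ hΦlt hΦx)

end Crit2

section MainB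

universe u v w

theorem hhB_aux {K : Type w} [Field K] [IsAlgClosed K] (p q : ℕ) [Fact p.Prime] [Fact q.Prime]
    [CharP K p] (hpq : p ≠ q) (d : ℕ) :
    ∀ (G : Type u) [Group G] [Finite G] (V : Type v) [AddCommGroup V] [Module K V]
      [FiniteDimensional K V], Module.finrank K V = d →
      ∀ (ρ : G →* Module.End K V), Function.Injective ρ → ∀ (Q : Subgroup G), IsPGroup q Q →
      ∀ (g : G) (n : ℕ), g ^ p ^ (n + 1) = 1 → g ∈ Subgroup.normalizer (Q : Set G) →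
      (∃ a ∈ Q, g ^ p ^ n * a ≠ a * g ^ p ^ n) →
      ∃ N : ℕ, (ρ g - 1) ^ (N - 1) ≠ 0 ∧ (N = p ^ (n + 1) ∨ ∃ n₀ m : ℕ, 1 ≤ n₀ ∧ n₀ ≤ n + 1 ∧
        1 ≤ m ∧ p ^ n₀ - 1 = q ^ m ∧ (¬ ∀ a ∈ Q, ∀ b ∈ Q, a * b = b * a) ∧
        N = p ^ (n + 1 - n₀) * (p ^ n₀ - 1)) := by
  induction d using Nat.strong_induction_on with
  | _ d ih =>
  intro G _ _ V _ _ _ hd ρ hfaith Q hQ g n hgn hgQ hh
  classical
  have hp : p.Prime := Fact.out
  have hq : q.Prime := Fact.out
  have hpm0 : 0 < p ^ (n + 1) := pow_pos hp.pos _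
  haveI : Nontrivial V := by
    by_contra hcon
    rw [not_nontrivial_iff_subsingleton] at hcon
    obtain ⟨a, -, ha⟩ := hh
    apply ha
    have h1 : ρ (g ^ p ^ n * a) = ρ (a * g ^ p ^ n) :=
      LinearMap.ext (fun v => Subsingleton.elim _ _)
    exact hfaith h1
  have hgeom : ∑ i ∈ Finset.range (p ^ (n + 1)), ρ g ^ i = (ρ g - 1) ^ (p ^ (n + 1) - 1) :=
    geom_sum_eq_sub_one_pow (K := K) p (n + 1) (ρ g)
  by_cases hN : ∑ i ∈ Finset.range (p ^ (n + 1)), ρ g ^ i = 0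
  swap
  · exact ⟨p ^ (n + 1), by rw [← hgeom]; exact hN, Or.inl rfl⟩
  obtain ⟨Q₁, hQ₁Q, hgN, ⟨a₀, ha₀, hya₀⟩, hcomm1, hirrQ₁, habel, hnonab⟩ :=
    exists_minimal_special p q hpq Q hQ g n hgn hgQ hh
  have hQ₁q : IsPGroup q Q₁ := hQ.to_le hQ₁Q
  obtain ⟨kq, hkq⟩ := IsPGroup.iff_card.mp hQ₁q
  have hqp : (q ^ kq).Coprime p :=
    Nat.Coprime.pow_left _ ((Nat.coprime_primes hq hp).mpr hpq.symm)
  have hcardK : ((Nat.card ↥Q₁ : ℕ) : K) ≠ 0 := by
    intro h
    rw [CharP.cast_eq_zero_iff K p, hkq] at h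
    have h2 : p ∣ Nat.gcd (q ^ kq) p := Nat.dvd_gcd h dvd_rfl
    rw [hqp] at h2
    exact hp.one_lt.ne' (Nat.dvd_one.mp h2)
  have hgconj : ∀ d ∈ Q₁, g * d * g⁻¹ ∈ Q₁ := fun d hd =>
    (Subgroup.mem_normalizer_iff.mp hgN d).mp hd
  haveI : Fintype ↥Q₁ := Fintype.ofFinite _
  obtain ⟨e, he⟩ : ∃ e : Module.End K V, e = ∑ a : ↥Q₁, ρ (a : G) := ⟨_, rfl⟩
  have hρe : ∀ b ∈ Q₁, ρ b * e = e := by
    intro b hb
    rw [he, Finset.mul_sum,
      ← Equiv.sum_comp (Equiv.mulLeft (⟨b, hb⟩ : ↥Q₁)) (fun d : ↥Q₁ => ρ (d : G))]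
    apply Finset.sum_congr rfl
    intro d _
    rw [← map_mul]
    rfl
  have heρ : ∀ b ∈ Q₁, e * ρ b = e := by
    intro b hb
    rw [he, Finset.sum_mul,
      ← Equiv.sum_comp (Equiv.mulRight (⟨b, hb⟩ : ↥Q₁)) (fun d : ↥Q₁ => ρ (d : G))]
    apply Finset.sum_congr rfl
    intro d _
    rw [← map_mul]
    rfl
  by_cases hab : ∀ a ∈ Q₁, ∀ b ∈ Q₁, a * b = b * a
  · exfalso
    have hfree := habel hab
    have hN' : ∑ i ∈ Finset.range (p ^ (n + 1)), ρ (g ^ i) = 0 := by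
      rw [← hN]
      exact Finset.sum_congr rfl (fun i _ => map_pow ρ g i)
    have hsum := frob_sum ρ Q₁ g (p ^ (n + 1)) hpm0 hgconj hfree hN'
    have h1 : ρ a₀ * e = e := hρe a₀ ha₀
    rw [he, hsum] at h1
    have h2 : ((Fintype.card ↥Q₁ : ℕ) : Module.End K V) =
        ((Nat.card ↥Q₁ : ℕ) : K) • (1 : Module.End K V) := by
      rw [Nat.card_eq_fintype_card, Nat.cast_smul_eq_nsmul, nsmul_one]
    rw [h2, mul_smul_comm, mul_one] at h1
    have h3 : ρ a₀ = 1 := smul_right_injective _ hcardK h1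
    have h4 : a₀ = 1 := hfaith (h3.trans (map_one ρ).symm)
    rw [h4] at hya₀
    simp at hya₀
  · obtain ⟨hfr, hcm, hΦy⟩ := hnonab hab
    obtain ⟨Φ₁, hΦ₁⟩ : ∃ Φ₁ : Subgroup G, Φ₁ = (frattini ↥Q₁).map Q₁.subtype := ⟨_, rfl⟩
    rw [← hΦ₁] at hΦy
    have hΦQ : Φ₁ ≤ Q₁ := by rw [hΦ₁]; exact Subgroup.map_subtype_le _
    have hmemΦ : ∀ a : ↥Q₁, (a : G) ∈ Φ₁ ↔ a ∈ Subgroup.center ↥Q₁ := by
      intro a
      rw [hΦ₁, ← hfr]
      constructor
      · rintro ⟨f, hf, hfe⟩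
        have : f = a := Subtype.ext hfe
        rwa [← this]
      · intro h
        exact ⟨a, h, rfl⟩
    have hΦcomm : ∀ z ∈ Φ₁, ∀ a ∈ Q₁, z * a = a * z := by
      intro z hz a ha
      have h1 : (⟨z, hΦQ hz⟩ : ↥Q₁) ∈ Subgroup.center ↥Q₁ := (hmemΦ ⟨z, hΦQ hz⟩).mp hz
      have h2 := Subgroup.mem_center_iff.mp h1 ⟨a, ha⟩
      exact (congrArg Subtype.val h2).symm
    have hΦN : Subgroup.zpowers g ≤ Subgroup.normalizer (Φ₁ : Set G) := by
      rw [hΦ₁]
      exact (Subgroup.zpowers_le.mpr hgN).trans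
        (Cfsg.Agent.H1.normalizer_le_normalizer_map_of_characteristic Q₁ (frattini ↥Q₁))
    have hΦconj : ∀ t : ℕ, ∀ z ∈ Φ₁,
        g ^ t * z * (g ^ t)⁻¹ ∈ Φ₁ ∧ (g ^ t)⁻¹ * z * g ^ t ∈ Φ₁ := by
      intro t z hz
      have h1 : g ^ t ∈ Subgroup.normalizer (Φ₁ : Set G) :=
        hΦN (Subgroup.pow_mem _ (Subgroup.mem_zpowers g) t)
      refine ⟨(Subgroup.mem_normalizer_iff.mp h1 z).mp hz, ?_⟩
      have h2 := (Subgroup.mem_normalizer_iff.mp (Subgroup.inv_mem _ h1) z).mp hz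
      rwa [inv_inv] at h2
    have hker : LinearMap.ker e ≠ ⊥ := by
      intro hk
      apply hya₀
      have h1 : ρ a₀ = 1 := by
        apply LinearMap.ext
        intro v
        have h2 : e (ρ a₀ v - v) = 0 := by
          rw [map_sub, ← Module.End.mul_apply, heρ a₀ ha₀, sub_self]
        have h3 : ρ a₀ v - v ∈ LinearMap.ker e := h2
        rw [hk, Submodule.mem_bot] at h3
        rw [Module.End.one_apply]
        exact sub_eq_zero.mp h3
      have h4 : a₀ = 1 := hfaith (h1.trans (map_one ρ).symm)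
      rw [h4]
      simp
    obtain ⟨w, hwker, hw0, hweig⟩ := exists_common_eigenvector (ρ.comp Φ₁.subtype) (by
        intro a b
        show ρ (a : G) * ρ (b : G) = ρ (b : G) * ρ (a : G)
        rw [← map_mul, ← map_mul, hΦcomm a a.2 b (hΦQ b.2)])
      (LinearMap.ker e) hker (by
        intro a u hu
        rw [LinearMap.mem_ker] at hu ⊢
        show e (ρ (a : G) u) = 0
        rw [← Module.End.mul_apply, heρ _ (hΦQ a.2)]
        exact hu)
    have hex : ∀ z : G, ∃ c : K, z ∈ Φ₁ → ρ z w = c • w := by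
      intro z
      by_cases hz : z ∈ Φ₁
      · obtain ⟨c, hc⟩ := hweig ⟨z, hz⟩
        exact ⟨c, fun _ => hc⟩
      · exact ⟨0, fun h => absurd h hz⟩
    choose χ hχ using hex
    obtain ⟨Vχ, hVχ⟩ : ∃ Vχ : Submodule K V, Vχ = wtSpace ρ Φ₁ χ := ⟨_, rfl⟩
    have hwV : w ∈ Vχ := by rw [hVχ]; exact fun z hz => hχ z hz
    have hew : e w = 0 := hwker
    have hQ₁w : ¬ ∀ a ∈ Q₁, ρ a w = w := by
      intro h
      have h1 : e w = (Nat.card ↥Q₁ : K) • w := by
        rw [he, LinearMap.sum_apply, Finset.sum_congr rfl (fun (a : ↥Q₁) _ => h (a : G) a.2), Finset.sum_const,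
          Finset.card_univ, Nat.card_eq_fintype_card, Nat.cast_smul_eq_nsmul]
      rw [hew] at h1
      rcases smul_eq_zero.mp h1.symm with h2 | h2
      · exact hcardK h2
      · exact hw0 h2
    by_cases htop : Vχ = ⊤
    · -- critical case
      have hscal : ∀ z : ↥Q₁, z ∈ Subgroup.center ↥Q₁ → ∃ c : K, ρ (z : G) = c • 1 := by
        intro z hz
        refine ⟨χ (z : G), ?_⟩
        apply LinearMap.ext
        intro v
        have hv : v ∈ Vχ := by rw [htop]; trivial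
        rw [hVχ] at hv
        rw [hv _ ((hmemΦ z).mpr hz)]
        rfl
      obtain ⟨⟨m, hm1, hm⟩, hne⟩ := crit_case p q hpq ρ hfaith Q₁ hQ₁q g n hgn hgN hfr hcm hab
        hirrQ₁ ⟨a₀, ha₀, hya₀⟩ hscal hN
      refine ⟨p ^ (n + 1) - 1, ?_, Or.inr ⟨n + 1, m, by omega, le_rfl, hm1, hm, ?_, ?_⟩⟩
      · have e2 : p ^ (n + 1) - 1 - 1 = p ^ (n + 1) - 2 := by omega
        rw [e2]
        exact hne
      · intro hQab
        exact hab (fun a ha b hb => hQab a (hQ₁Q ha) b (hQ₁Q hb))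
      · rw [Nat.sub_self, pow_zero, one_mul]
    · -- recursion on the weight space
      have hlt : Module.finrank K ↥Vχ < d := hd ▸ Submodule.finrank_lt htop
      obtain ⟨S, hS⟩ : ∃ S : Subgroup G, S = chiStab Φ₁ χ := ⟨_, rfl⟩
      have hQ₁S : Q₁ ≤ S := by
        intro a ha
        rw [hS, mem_chiStab]
        have h1 : ∀ z ∈ Φ₁, a * z * a⁻¹ = z := by
          intro z hz
          rw [← hΦcomm z hz a ha, mul_inv_cancel_right]
        have h2 : ∀ z ∈ Φ₁, a⁻¹ * z * a = z := by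
          intro z hz
          rw [mul_assoc, hΦcomm z hz a ha, inv_mul_cancel_left]
        exact ⟨fun z hz => by rw [h1 z hz]; exact hz, fun z hz => by rw [h2 z hz]; exact hz,
          fun z hz => by rw [h2 z hz]⟩
      have hyS : g ^ p ^ n ∈ S := by
        rw [hS, mem_chiStab]
        have h1 : ∀ z ∈ Φ₁, g ^ p ^ n * z * (g ^ p ^ n)⁻¹ = z := by
          intro z hz
          rw [hΦy z hz, mul_inv_cancel_right]
        have h2 : ∀ z ∈ Φ₁, (g ^ p ^ n)⁻¹ * z * g ^ p ^ n = z := by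
          intro z hz
          rw [mul_assoc, ← hΦy z hz, inv_mul_cancel_left]
        exact ⟨fun z hz => by rw [h1 z hz]; exact hz, fun z hz => by rw [h2 z hz]; exact hz,
          fun z hz => by rw [h2 z hz]⟩
      have hkex : ∃ k, g ^ p ^ k ∈ S := ⟨n, hyS⟩
      obtain ⟨k, hk⟩ : ∃ k, k = Nat.find hkex := ⟨_, rfl⟩
      have hkS : g ^ p ^ k ∈ S := by rw [hk]; exact Nat.find_spec hkex
      have hkn : k ≤ n := by rw [hk]; exact Nat.find_min' hkex hyS
      have hpk0 : 0 < p ^ k := pow_pos hp.pos k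
      have hkmin : ∀ t, 0 < t → t < p ^ k → g ^ t ∉ S := by
        intro t ht0 ht hmem
        obtain ⟨a, ha, haS⟩ := pow_prime_pow_mem hp S g n t hgn ht0 hmem
        have hak : a < k := by
          by_contra hcon
          push Not at hcon
          have := Nat.pow_le_pow_right hp.pos hcon
          omega
        rw [hk] at hak
        exact Nat.find_min hkex hak haS
      have hdist : ∀ i ∈ Finset.range (p ^ k), ∀ j ∈ Finset.range (p ^ k), i ≠ j →
          ∃ z ∈ (Φ₁ : Set G), χ ((g ^ i)⁻¹ * z * g ^ i) ≠ χ ((g ^ j)⁻¹ * z * g ^ j) := by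
        have key : ∀ i j, i < j → j < p ^ k → ∃ z ∈ (Φ₁ : Set G),
            χ ((g ^ i)⁻¹ * z * g ^ i) ≠ χ ((g ^ j)⁻¹ * z * g ^ j) := by
          intro i j hij hj
          by_contra hcon
          push Not at hcon
          apply hkmin (j - i) (by omega) (by omega)
          rw [hS, mem_chiStab]
          refine ⟨fun z hz => (hΦconj (j - i) z hz).1, fun z hz => (hΦconj (j - i) z hz).2,
            fun z hz => ?_⟩
          have h1 := hcon (g ^ i * z * (g ^ i)⁻¹) (hΦconj i z hz).1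
          have e1 : (g ^ i)⁻¹ * (g ^ i * z * (g ^ i)⁻¹) * g ^ i = z := by group
          have e2 : (g ^ j)⁻¹ * (g ^ i * z * (g ^ i)⁻¹) * g ^ j =
              (g ^ (j - i))⁻¹ * z * g ^ (j - i) := by
            have hj' : g ^ j = g ^ i * g ^ (j - i) := by
              rw [← pow_add]; congr 1; omega
            rw [hj']; group
          rw [e1, e2] at h1
          exact h1.symm
        intro i hi j hj hij
        rcases Nat.lt_or_gt_of_ne hij with h | h
        · exact key i j h (Finset.mem_range.mp hj)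
        · obtain ⟨z, hz, hne⟩ := key j i h (Finset.mem_range.mp hi)
          exact ⟨z, hz, hne.symm⟩
      have hindep : ∀ u ∈ Vχ, u ≠ 0 → ∑ i ∈ Finset.range (p ^ k), (ρ g ^ i) u ≠ 0 := by
        intro u hu hu0 hsum
        have h1 := weight_indep (fun z : G => ρ z) (Φ₁ : Set G)
          (fun (i : ℕ) (z : G) => χ ((g ^ i)⁻¹ * z * g ^ i)) (Finset.range (p ^ k)) hdist
          (fun i => (ρ g ^ i) u) (by
            intro i _ z hz
            rw [← map_pow]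
            rw [hVχ] at hu
            exact wt_translate ρ Φ₁ χ (g ^ i) (fun z hz => (hΦconj i z hz).2) u hu z hz) hsum 0
          (Finset.mem_range.mpr hpk0)
        apply hu0
        simpa using h1
      have hSinv : ∀ a : ↥S, ∀ v ∈ Vχ, (ρ.comp S.subtype) a v ∈ Vχ := by
        intro a v hv
        rw [hVχ] at hv ⊢
        exact chiStab_maps ρ Φ₁ χ (a : G) (by rw [← hS]; exact a.2) v hv
      obtain ⟨ρχ, hρχ⟩ : ∃ ρχ : ↥S →* Module.End K ↥Vχ,
          ρχ = resRep (ρ.comp S.subtype) Vχ hSinv := ⟨_, rfl⟩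
      have hρχapply : ∀ (a : ↥S) (v : ↥Vχ), ((ρχ a v : ↥Vχ) : V) = ρ (a : G) (v : V) := by
        intro a v; rw [hρχ]; rfl
      obtain ⟨π, hπ⟩ : ∃ π : ↥S →* (↥S ⧸ ρχ.ker), π = QuotientGroup.mk' ρχ.ker := ⟨_, rfl⟩
      obtain ⟨ρ', hρ'⟩ : ∃ ρ' : (↥S ⧸ ρχ.ker) →* Module.End K ↥Vχ,
          ρ' = QuotientGroup.lift ρχ.ker ρχ le_rfl := ⟨_, rfl⟩
      have hρ'π : ∀ a : ↥S, ρ' (π a) = ρχ a := by
        intro a; rw [hρ', hπ]; exact QuotientGroup.lift_mk ρχ.ker le_rfl a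
      have hρ'inj : Function.Injective ρ' := by
        intro a b hab'
        obtain ⟨a, rfl⟩ := QuotientGroup.mk_surjective a
        obtain ⟨b, rfl⟩ := QuotientGroup.mk_surjective b
        have h1 : ρχ a = ρχ b := by
          have h2 := hρ'π a
          have h3 := hρ'π b
          rw [hπ] at h2 h3
          rw [← h2, ← h3]
          exact hab'
        apply QuotientGroup.eq.mpr
        rw [MonoidHom.mem_ker, map_mul, ← h1, ← map_mul, inv_mul_cancel, map_one]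
      obtain ⟨g₁, hg₁⟩ : ∃ g₁ : ↥S, g₁ = ⟨g ^ p ^ k, hkS⟩ := ⟨_, rfl⟩
      obtain ⟨Q', hQ'def⟩ : ∃ Q' : Subgroup (↥S ⧸ ρχ.ker), Q' = (Q₁.subgroupOf S).map π :=
        ⟨_, rfl⟩
      have hQ' : IsPGroup q ↥Q' := by
        rw [hQ'def]
        exact (hQ₁q.comap_subtype (K := S)).map π
      have hg'n : (π g₁) ^ p ^ (n - k + 1) = 1 := by
        rw [← map_pow, hg₁]
        have h1 : (⟨g ^ p ^ k, hkS⟩ : ↥S) ^ p ^ (n - k + 1) = 1 := by
          apply Subtype.ext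
          show (g ^ p ^ k) ^ p ^ (n - k + 1) = 1
          rw [← pow_mul, ← pow_add]
          have e2 : k + (n - k + 1) = n + 1 := by omega
          rw [e2]; exact hgn
        rw [h1, map_one]
      have hg'Q' : π g₁ ∈ Subgroup.normalizer (Q' : Set (↥S ⧸ ρχ.ker)) := by
        rw [hQ'def]
        apply Subgroup.le_normalizer_map π
        refine ⟨g₁, ?_, rfl⟩
        show g₁ ∈ Subgroup.normalizer ((Q₁.subgroupOf S : Subgroup ↥S) : Set ↥S)
        rw [Subgroup.mem_normalizer_iff]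
        intro a
        rw [Subgroup.mem_subgroupOf, Subgroup.mem_subgroupOf]
        have h1 : g ^ p ^ k ∈ Subgroup.normalizer (Q₁ : Set G) := Subgroup.pow_mem _ hgN _
        have h2 := Subgroup.mem_normalizer_iff.mp h1 (a : G)
        rw [hg₁]
        exact h2
      have hpow_g₁ : ((g₁ ^ p ^ (n - k) : ↥S) : G) = g ^ p ^ n := by
        rw [hg₁]
        show (g ^ p ^ k) ^ p ^ (n - k) = _
        rw [← pow_mul, ← pow_add]
        congr 2
        omega
      have hh' : ∃ a' ∈ Q', (π g₁) ^ p ^ (n - k) * a' ≠ a' * (π g₁) ^ p ^ (n - k) := by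
        by_contra hcon
        push Not at hcon
        apply hQ₁w
        obtain ⟨y', hy'⟩ : ∃ y' : ↥S, y' = g₁ ^ p ^ (n - k) := ⟨_, rfl⟩
        have hy'coe : (y' : G) = g ^ p ^ n := by rw [hy']; exact hpow_g₁
        have hle : ⁅Q₁.subgroupOf S, Subgroup.zpowers y'⁆ ≤ ρχ.ker := by
          rw [Subgroup.commutator_le]
          intro a ha b hb
          obtain ⟨j, rfl⟩ := Subgroup.mem_zpowers_iff.mp hb
          have h1 : Commute (π y') (π a) := by
            rw [hy', map_pow]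
            exact hcon (π a) (by rw [hQ'def]; exact ⟨a, ha, rfl⟩)
          have h2 : π ⁅a, y' ^ j⁆ = 1 := by
            rw [map_commutatorElement, map_zpow]
            exact commutatorElement_eq_one_iff_commute.mpr (h1.zpow_left j).symm
          rw [MonoidHom.mem_ker, ← hρ'π, h2, map_one]
        have hmap : (⁅Q₁.subgroupOf S, Subgroup.zpowers y'⁆).map S.subtype = Q₁ := by
          rw [Subgroup.map_commutator, Subgroup.map_subgroupOf_eq_of_le hQ₁S,
            MonoidHom.map_zpowers]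
          show ⁅Q₁, Subgroup.zpowers (y' : G)⁆ = Q₁
          rw [hy'coe]
          exact hcomm1
        intro a ha
        have h1 : a ∈ (⁅Q₁.subgroupOf S, Subgroup.zpowers y'⁆).map S.subtype := by
          rw [hmap]; exact ha
        obtain ⟨c, hc, hca⟩ := h1
        have h2 : ρχ c = 1 := hle hc
        have h3 := congrArg (fun f : Module.End K ↥Vχ => ((f ⟨w, hwV⟩ : ↥Vχ) : V)) h2
        simp only [hρχapply, Module.End.one_apply] at h3
        rw [← hca]
        exact h3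
      obtain ⟨N', hN'ne, hN'⟩ := ih (Module.finrank K ↥Vχ) hlt (↥S ⧸ ρχ.ker) ↥Vχ rfl ρ' hρ'inj
        Q' hQ' (π g₁) (n - k) hg'n hg'Q' hh'
      have hN'pos : 1 ≤ N' := by
        rcases hN' with h | ⟨n₀, m, h1, h2, h3, h4, h5, h6⟩
        · rw [h]; exact Nat.one_le_pow _ _ hp.pos
        · rw [h6, h4]
          exact Nat.mul_pos (pow_pos hp.pos _) (pow_pos hq.pos _)
      have hex_v : ∃ v : ↥Vχ, ((ρ' (π g₁) - 1) ^ (N' - 1)) v ≠ 0 := by
        by_contra hcon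
        push Not at hcon
        exact hN'ne (LinearMap.ext hcon)
      obtain ⟨v, hv⟩ := hex_v
      have hint : (ρ (g ^ p ^ k) - 1) ∘ₗ Vχ.subtype = Vχ.subtype ∘ₗ (ρ' (π g₁) - 1) := by
        apply LinearMap.ext
        intro x
        simp only [LinearMap.comp_apply, LinearMap.sub_apply, Submodule.subtype_apply,
          Module.End.one_apply]
        rw [hρ'π, Submodule.coe_sub, hρχapply, hg₁]
      have hpow := comp_pow_intertwine (ρ (g ^ p ^ k) - 1) (ρ' (π g₁) - 1) Vχ.subtype hint (N' - 1)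
      obtain ⟨u, hu⟩ : ∃ u : ↥Vχ, u = ((ρ' (π g₁) - 1) ^ (N' - 1)) v := ⟨_, rfl⟩
      have hu0 : (u : V) ≠ 0 := by
        rw [hu]
        intro h
        exact hv (Subtype.ext h)
      have hu_eq : (u : V) = ((ρ g - 1) ^ (p ^ k * (N' - 1))) (v : V) := by
        have h1 := congrArg (fun f : ↥Vχ →ₗ[K] V => f v) hpow
        simp only [LinearMap.comp_apply, Submodule.subtype_apply] at h1
        rw [hu, ← h1, map_pow, ← sub_one_pow_char_pow_alg (K := K) p k (ρ g), ← pow_mul]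
      have hfinal : ((ρ g - 1) ^ (p ^ k * N' - 1)) (v : V) ≠ 0 := by
        have e2 : p ^ k * N' - 1 = (p ^ k - 1) + p ^ k * (N' - 1) := by
          have h1 : p ^ k * N' = p ^ k * (N' - 1) + p ^ k := by
            conv_lhs => rw [show N' = (N' - 1) + 1 by omega]
            ring
          omega
        rw [e2, pow_add, Module.End.mul_apply, ← hu_eq,
          ← geom_sum_eq_sub_one_pow (K := K) p k (ρ g), LinearMap.sum_apply]
        exact hindep u u.2 hu0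
      refine ⟨p ^ k * N', fun h => hfinal (by rw [h]; rfl), ?_⟩
      rcases hN' with h | ⟨n₀, m, h1, h2, h3, h4, h5, h6⟩
      · left
        rw [h, ← pow_add]
        congr 1
        omega
      · right
        refine ⟨n₀, m, h1, by omega, h3, h4, ?_, ?_⟩
        · intro hQab
          apply h5
          rw [hQ'def]
          rintro _ ⟨a, ha, rfl⟩ _ ⟨b, hb, rfl⟩
          rw [← map_mul, ← map_mul]
          congr 1
          apply Subtype.ext
          exact hQab _ (hQ₁Q ha) _ (hQ₁Q hb)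
        · rw [h6, ← mul_assoc, ← pow_add]
          congr 2
          omega

end MainB

end Cfsg.Agent.H66
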