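import Mathlib
import Cfsg.Prelude.Def_Local

/-!
# The Gaschütz–Yen theorem (S3798): shared definitions and piece statements

`G` is `p`-soluble, `p` odd, and `Aut(G)` permutes the subgroups of order `p` transitively
(`Trans p G`).  Reduction to `O_{p'}(G) = 1` (`Red`, `Lift`).  Then with `P = O_p(G)`: every
element of order `p` lies in `Z(P)` (`Omega`); `K = O_{p,p'}(G)` has a `p'`-complement `K₀` to
`P` with `G = P · N_G(K₀)` (`SZ`); the elements of order `p` centralizing `K` are none or all
(`Char`); a `p'`-element centralizing all elements of order `p` of `P` centralizes `P` (`OmAut`).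
All groups live in one universe `u`.
-/

set_option autoImplicit false
set_option linter.style.haveILetI false
set_option linter.unusedVariables false
set_option linter.unusedSectionVars false

namespace Cfsg.Agent.H66.GY

open Cfsg

universe u

/-- `Aut(G)` permutes the subgroups of order `p` transitively. -/
def Trans (p : ℕ) (G : Type u) [Group G] : Prop :=
  ∀ U V : Subgroup G, Nat.card U = p → Nat.card V = p →
    ∃ a : MulAut G, U.map a.toMonoidHom = V

/-- `O_{p,p'}(G)`: the preimage of `O_{p'}(G / O_p(G))`. -/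
noncomputable def opp (p : ℕ) (G : Type u) [Group G] : Subgroup G :=
  (pPrimeCore p (G ⧸ pCore p G)).comap (QuotientGroup.mk' (pCore p G))

/-- **Red**: transitivity passes to `G / O_{p'}(G)`. -/
def RedStatement : Prop :=
  ∀ (G : Type u) [Group G] [Finite G] (p : ℕ) [Fact p.Prime], Trans p G →
    Trans p (G ⧸ pPrimeCore p G)

/-- **Lift**: if `O_p` of `G / O_{p'}(G)` has index prime to `p`, then `G` has `p`-length `≤ 1`. -/
def LiftStatement : Prop :=
  ∀ (G : Type u) [Group G] [Finite G] (p : ℕ) [Fact p.Prime],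
    (Nat.card ((G ⧸ pPrimeCore p G) ⧸ pCore p (G ⧸ pPrimeCore p G))).Coprime p →
    PLengthLE p 1 G

/-- **Omega**: with `O_{p'}(G) = 1`, every element of order dividing `p` lies in `Z(O_p(G))`. -/
def OmegaStatement : Prop :=
  ∀ (G : Type u) [Group G] [Finite G] (p : ℕ) [Fact p.Prime], p ∣ Nat.card G →
    IsPSolvable p G → pPrimeCore p G = ⊥ → Trans p G →
    ∀ g : G, g ^ p = 1 → g ∈ pCore p G ∧ ∀ u ∈ pCore p G, g * u = u * g

/-- **SZ**: a normal `p`-subgroup `P` of `p'`-index in the normal subgroup `K` has a complement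
`K₀` in `K`, and `G = P · N_G(K₀)` (Schur–Zassenhaus and the Frattini argument). -/
def SZStatement : Prop :=
  ∀ (G : Type u) [Group G] [Finite G] (p : ℕ) [Fact p.Prime] (P K : Subgroup G), P.Normal →
    K.Normal → IsPGroup p P → P ≤ K → (P.relIndex K).Coprime p →
    ∃ K₀ : Subgroup G, K₀ ≤ K ∧ (Nat.card K₀).Coprime p ∧
      (∀ k ∈ K, ∃ u ∈ P, ∃ k₀ ∈ K₀, k = u * k₀) ∧
      ∀ g : G, ∃ u ∈ P, ∃ n ∈ Subgroup.normalizer (K₀ : Set G), g = u * n

/-- **Char**: if one element of order `p` centralizes `O_{p,p'}(G)`, all of them do. -/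
def CharStatement : Prop :=
  ∀ (G : Type u) [Group G] [Finite G] (p : ℕ) [Fact p.Prime], Trans p G →
    ∀ c : G, c ≠ 1 → c ^ p = 1 → (∀ k ∈ opp p G, c * k = k * c) →
    ∀ g : G, g ^ p = 1 → ∀ k ∈ opp p G, g * k = k * g

/-- **OmAut**: for odd `p`, a `p'`-element centralizing all elements of order dividing `p` of
the normal `p`-subgroup `P` centralizes `P`. -/
def OmAutStatement : Prop :=
  ∀ (G : Type u) [Group G] [Finite G] (p : ℕ) [Fact p.Prime], p ≠ 2 → ∀ (P : Subgroup G),
    P.Normal → IsPGroup p P → ∀ k : G, (orderOf k).Coprime p →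
    (∀ x ∈ P, x ^ p = 1 → k * x = x * k) → ∀ x ∈ P, k * x = x * k

/-- **Main**: the theorem when `O_{p'}(G) = 1`. -/
def MainStatement : Prop :=
  ∀ (G : Type u) [Group G] [Finite G] (p : ℕ) [Fact p.Prime], p ≠ 2 → p ∣ Nat.card G →
    IsPSolvable p G → pPrimeCore p G = ⊥ → Trans p G →
    (Nat.card (G ⧸ pCore p G)).Coprime p

end Cfsg.Agent.H66.GY
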