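import Mathlib

/-!
# Higman–Kreknin–Kostrikin: shared definitions

Families of additive subgroups of a Lie ring indexed by `ZMod n`
(a `ZMod n`-grading, not assumed direct), their bracket, derived series and
lower central series.
-/

set_option linter.style.haveILetI false
set_option linter.unusedVariables false
set_option linter.unusedSectionVars false

namespace Cfsg.Agent.H66.HKK

variable {L : Type*} [LieRing L] {n : ℕ}

/-- The bracket of two `ZMod n`-indexed families of additive subgroups. -/
def fbr (X Y : ZMod n → AddSubgroup L) : ZMod n → AddSubgroup L :=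
  fun i => AddSubgroup.closure
    {z | ∃ a b : ZMod n, a + b = i ∧ ∃ u ∈ X a, ∃ v ∈ Y b, z = ⁅u, v⁆}

/-- The derived series of a family. -/
def fder (X : ZMod n → AddSubgroup L) : ℕ → ZMod n → AddSubgroup L
  | 0 => X
  | k + 1 => fbr (fder X k) (fder X k)

/-- The lower central series of a family. -/
def flcs (X : ZMod n → AddSubgroup L) : ℕ → ZMod n → AddSubgroup L
  | 0 => X
  | k + 1 => fbr (flcs X k) X

/-- A family closed under brackets, compatibly with the grading. -/
def IsGr (X : ZMod n → AddSubgroup L) : Prop :=
  ∀ i j, ∀ u ∈ X i, ∀ v ∈ X j, ⁅u, v⁆ ∈ X (i + j)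

end Cfsg.Agent.H66.HKK
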