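import Mathlib
import Cfsg.Agent.H66.GrossDefs

/-!
# Gross's theorem: the small pieces STAB and INVSUB
-/

set_option autoImplicit false
set_option linter.style.haveILetI false
set_option linter.unusedVariables false
set_option linter.unusedSectionVars false

namespace Cfsg.Agent.H66.Gross

open Cfsg
open scoped commutatorElement

universe u

theorem stab_holds : StabStatement.{u} := by
  intro H _ _ q _ C Z hC hZC z hz hzZ hzC x hx
  obtain ⟨k, hkdef⟩ : ∃ k : H, k = ⁅z, x⁆ := ⟨_, rfl⟩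
  have hk : k ∈ Z := by rw [hkdef]; exact hzC x hx
  have hzk : z * k = k * z := hzZ k hk
  have hconj : z * x * z⁻¹ = k * x := by rw [hkdef, commutatorElement_def]; group
  have hzkm : ∀ m : ℕ, z * k ^ m = k ^ m * z := by
    intro m
    exact (Commute.pow_right (show Commute z k from hzk) m).eq
  have hpow : ∀ m : ℕ, z ^ m * x * (z ^ m)⁻¹ = k ^ m * x := by
    intro m
    induction m with
    | zero => simp
    | succ m ih =>
      have e1 : z ^ (m + 1) * x * (z ^ (m + 1))⁻¹ = z * (z ^ m * x * (z ^ m)⁻¹) * z⁻¹ := by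
        rw [pow_succ']; group
      rw [e1, ih]
      calc z * (k ^ m * x) * z⁻¹ = (z * k ^ m) * x * z⁻¹ := by group
        _ = k ^ m * (z * x * z⁻¹) := by rw [hzkm m]; group
        _ = k ^ (m + 1) * x := by rw [hconj, pow_succ]; group
  have h1 := hpow (orderOf z)
  rw [pow_orderOf_eq_one, inv_one, one_mul, mul_one] at h1
  have h2 : k ^ orderOf z = 1 := by
    have := congrArg (fun t => t * x⁻¹) h1
    simp only [mul_inv_cancel, mul_inv_cancel_right] at this
    exact this.symm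
  obtain ⟨e, he⟩ := hC ⟨k, hZC hk⟩
  have he' : k ^ q ^ e = 1 := by
    have := congrArg Subtype.val he
    simpa using this
  have hd1 : orderOf k ∣ orderOf z := orderOf_dvd_of_pow_eq_one h2
  have hd2 : orderOf k ∣ q ^ e := orderOf_dvd_of_pow_eq_one he'
  have hcop : (orderOf k).Coprime (q ^ e) :=
    Nat.Coprime.coprime_dvd_left hd1 (Nat.Coprime.pow_right e hz)
  have h3 : orderOf k = 1 := Nat.Coprime.eq_one_of_dvd hcop hd2
  have h4 : k = 1 := orderOf_eq_one_iff.mp h3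
  rw [h4, one_mul] at hconj
  calc z * x = z * x * z⁻¹ * z := by group
    _ = x * z := by rw [hconj]

theorem pow_apply_comm {H : Type*} [Group H] (σ : MulAut H) (k : ℕ) (x : H) :
    (σ ^ k) (σ x) = σ ((σ ^ k) x) := by
  have h : σ ^ k * σ = σ * σ ^ k := ((Commute.refl σ).pow_left k).eq
  have := congrArg (fun f : MulAut H => f x) h
  simpa [MulAut.mul_apply] using this

theorem pow_mem_of_invariant {H : Type*} [Group H] (σ : MulAut H) (C : Subgroup H)
    (hC : ∀ x ∈ C, σ x ∈ C) (k : ℕ) : ∀ x ∈ C, (σ ^ k) x ∈ C := by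
  induction k with
  | zero => intro x hx; simpa using hx
  | succ k ih =>
    intro x hx
    rw [pow_succ, MulAut.mul_apply]
    exact ih _ (hC x hx)

theorem invsub_holds : InvSubStatement.{u} := by
  intro H _ _ σ n hn hσ q C Z hcp
  obtain ⟨hCp, hZC, hσC, hσZ, hcent, hcomm, hpow, hτZ⟩ := hcp
  obtain ⟨τ, hτ⟩ : ∃ τ : MulAut H, τ = σ ^ (2 ^ (n - 1)) := ⟨_, rfl⟩
  rw [← hτ] at hτZ
  have hτC : ∀ x ∈ C, τ x ∈ C := by rw [hτ]; exact pow_mem_of_invariant σ C hσC _
  have hmem : ∀ x, x ∈ invSet σ n C Z ↔ x ∈ C ∧ x * τ x ∈ Z := by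
    intro x; rw [hτ]; exact Iff.rfl
  refine ⟨{ carrier := invSet σ n C Z, mul_mem' := ?_, one_mem' := ?_, inv_mem' := ?_ }, rfl,
    ?_, ?_, ?_⟩
  · intro x y hx hy
    rw [hmem] at hx hy ⊢
    refine ⟨C.mul_mem hx.1 hy.1, ?_⟩
    rw [map_mul]
    have hc : ⁅y, τ x⁆ ∈ Z := hcomm y hy.1 (τ x) (hτC x hx.1)
    have hxc : x * ⁅y, τ x⁆ = ⁅y, τ x⁆ * x := hcent x hx.1 _ hc
    have e1 : x * y * (τ x * τ y) = (x * ⁅y, τ x⁆) * τ x * (y * τ y) := by
      rw [commutatorElement_def]; group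
    rw [e1, hxc]
    have e2 : ⁅y, τ x⁆ * x * τ x * (y * τ y) = ⁅y, τ x⁆ * (x * τ x) * (y * τ y) := by group
    rw [e2]
    exact Z.mul_mem (Z.mul_mem hc hx.2) hy.2
  · rw [hmem]
    refine ⟨C.one_mem, ?_⟩
    rw [map_one, one_mul]; exact Z.one_mem
  · intro x hx
    rw [hmem] at hx ⊢
    refine ⟨C.inv_mem hx.1, ?_⟩
    rw [map_inv]
    have h1 : x * (x * τ x) = (x * τ x) * x := hcent x hx.1 _ hx.2
    have h2 : τ x * x = x * τ x := by
      calc τ x * x = x⁻¹ * ((x * τ x) * x) := by group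
        _ = x⁻¹ * (x * (x * τ x)) := by rw [h1]
        _ = x * τ x := by group
    have h3 : x⁻¹ * (τ x)⁻¹ = (τ x * x)⁻¹ := by group
    rw [h3, h2]
    exact Z.inv_mem hx.2
  · intro z hz
    show z ∈ invSet σ n C Z
    rw [hmem]
    refine ⟨hZC hz, ?_⟩
    rw [hτZ z hz]
    exact Z.mul_mem hz hz
  · intro x hx
    have hx' : x ∈ invSet σ n C Z := hx
    rw [hmem] at hx'
    exact hx'.1
  · intro x hx
    have hx' : x ∈ invSet σ n C Z := hx
    rw [hmem] at hx'
    show σ x ∈ invSet σ n C Z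
    rw [hmem]
    refine ⟨hσC x hx'.1, ?_⟩
    have h1 : τ (σ x) = σ (τ x) := by rw [hτ]; exact pow_apply_comm σ _ x
    rw [h1, ← map_mul]
    exact hσZ _ hx'.2

end Cfsg.Agent.H66.Gross
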