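import Mathlib
import Cfsg.Agent.H64.JzDefs
import Cfsg.Agent.H4.JkA
import Cfsg.Agent.H66.JyNotin
import Cfsg.Agent.Helper55.J48

/-! JY-OZ (project JY = S2953, KILL2 case (a)): the hypothesis `hOz` of `H28.RKill.rkill4a`.
For a `Base S L T' K' L'`, an element `z` of `Ω₁Z(S)` and `g ∈ L'`, the conjugate `g z g⁻¹`
is centralized by `O₂(L')` (which lies in `T' ≤ S` and is normal in `L'`); in particular by
`O₂(K') ≤ O₂(L')` for `g = k^{±1}`, `k ∈ K'`. -/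

set_option autoImplicit false
open Cfsg

namespace Cfsg.Agent.H66.Jy

open Cfsg.Agent.H64.Jz

universe u

variable {G : Type u} [Group G]

theorem omegaCenterOf_le_infOz (X : Subgroup G) :
    omegaCenterOf X ≤ X ⊓ Subgroup.centralizer (X : Set G) := by
  unfold omegaCenterOf omegaOne
  rw [Subgroup.closure_le]
  intro x hx
  exact hx.1

/-- `O₂(L')` centralizes every `L'`-conjugate of an element of `Ω₁Z(S)` -/
theorem oz_core [Finite G] (S : Sylow 2 G) (L T' K' L' : Subgroup G)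
    (hB' : Base S L T' K' L') (z g : G) (hzS : z ∈ omegaCenterOf (S : Subgroup G))
    (hg : g ∈ L') :
    ∀ o ∈ pCoreOf 2 L', o * (g * z * g⁻¹) = (g * z * g⁻¹) * o := by
  intro o ho
  have hsyl := sylowIn_of_base S L T' K' L' hB'
  have hQT : pCoreOf 2 L' ≤ T' := Cfsg.Agent.Helper55.J48.pCoreOf_le_of_sylowIn hsyl
  have hTS : T' ≤ (S : Subgroup G) := hB'.2.2.2.2.2.1
  have hzc : z ∈ Subgroup.centralizer ((S : Subgroup G) : Set G) :=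
    (omegaCenterOf_le_infOz _ hzS).2
  have hn : g⁻¹ ∈ Subgroup.normalizer (pCoreOf 2 L' : Set G) :=
    Cfsg.Agent.Helper55.J48.le_normalizer_pCoreOf L' (inv_mem hg)
  have ho' : g⁻¹ * o * g⁻¹⁻¹ ∈ pCoreOf 2 L' := (Subgroup.mem_normalizer_iff.mp hn o).mp ho
  have hoS : g⁻¹ * o * g⁻¹⁻¹ ∈ (S : Subgroup G) := hTS (hQT ho')
  have hcomm : (g⁻¹ * o * g⁻¹⁻¹) * z = z * (g⁻¹ * o * g⁻¹⁻¹) :=
    Subgroup.mem_centralizer_iff.mp hzc _ hoS
  calc o * (g * z * g⁻¹) = g * ((g⁻¹ * o * g⁻¹⁻¹) * z) * g⁻¹ := by group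
    _ = g * (z * (g⁻¹ * o * g⁻¹⁻¹)) * g⁻¹ := by rw [hcomm]
    _ = (g * z * g⁻¹) * o := by group

/-- `hOz` of `rkill4a` : `O₂(K')` centralizes `k⁻¹ z k` -/
theorem oz [Finite G] (S : Sylow 2 G) (L T' K' L' : Subgroup G)
    (hB' : Base S L T' K' L') (z k : G) (hzS : z ∈ omegaCenterOf (S : Subgroup G))
    (hk : k ∈ K') :
    ∀ o ∈ pCoreOf 2 K', o * (k⁻¹ * z * k) = (k⁻¹ * z * k) * o := by
  intro o ho
  have hKL' : K' ≤ L' := le_sup_left.trans hB'.2.2.2.2.2.2.2.2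
  have hOO : pCoreOf 2 K' ≤ pCoreOf 2 L' := (Cfsg.Agent.H4.Jk.ka S L T' K' L' hB').2.1
  have h := oz_core S L T' K' L' hB' z k⁻¹ hzS (inv_mem (hKL' hk)) o (hOO ho)
  simpa using h

/-- the same for `k z k⁻¹` -/
theorem oz' [Finite G] (S : Sylow 2 G) (L T' K' L' : Subgroup G)
    (hB' : Base S L T' K' L') (z k : G) (hzS : z ∈ omegaCenterOf (S : Subgroup G))
    (hk : k ∈ K') :
    ∀ o ∈ pCoreOf 2 K', o * (k * z * k⁻¹) = (k * z * k⁻¹) * o := by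
  intro o ho
  have hKL' : K' ≤ L' := le_sup_left.trans hB'.2.2.2.2.2.2.2.2
  have hOO : pCoreOf 2 K' ≤ pCoreOf 2 L' := (Cfsg.Agent.H4.Jk.ka S L T' K' L' hB').2.1
  exact oz_core S L T' K' L' hB' z k hzS (hKL' hk) o (hOO ho)

/-- `O₂(K') ≤ O₂(L') ≤ T' ≤ S` and `K' ≤ L'` for a `Base` -/
theorem core_chain [Finite G] (S : Sylow 2 G) (L T' K' L' : Subgroup G)
    (hB' : Base S L T' K' L') :
    pCoreOf 2 K' ≤ pCoreOf 2 L' ∧ pCoreOf 2 L' ≤ T' ∧ T' ≤ (S : Subgroup G) ∧ K' ≤ L' ∧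
      T' ≤ L' :=
  ⟨(Cfsg.Agent.H4.Jk.ka S L T' K' L' hB').2.1,
    Cfsg.Agent.Helper55.J48.pCoreOf_le_of_sylowIn (sylowIn_of_base S L T' K' L' hB'),
    hB'.2.2.2.2.2.1, le_sup_left.trans hB'.2.2.2.2.2.2.2.2,
    (sylowIn_of_base S L T' K' L' hB').1⟩

end Cfsg.Agent.H66.Jy
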