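import Mathlib
import Cfsg.Prelude.Def_Solvable

set_option autoImplicit false

namespace Cfsg.Agent.H66
open Cfsg
open scoped Pointwise

variable {G : Type*} [Group G]

theorem mem_conj_smul_iff (R : Subgroup G) (g x : G) :
    x ∈ MulAut.conj g • R ↔ g⁻¹ * x * g ∈ R := by
  rw [Subgroup.mem_pointwise_smul_iff_inv_smul_mem]
  simp [MulAut.smul_def]

theorem frob_mem {R : Subgroup G} (hR : IsFrobeniusComplement R) {g y : G} (hy : y ∈ R)
    (hy1 : y ≠ 1) (hgy : g * y * g⁻¹ ∈ R) : g ∈ R := by
  by_contra hg
  have h := hR.2.2 g hg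
  have hmem : g * y * g⁻¹ ∈ R ⊓ MulAut.conj g • R := by
    refine Subgroup.mem_inf.mpr ⟨hgy, ?_⟩
    rw [mem_conj_smul_iff]
    have : g⁻¹ * (g * y * g⁻¹) * g = y := by group
    rw [this]; exact hy
  rw [h, Subgroup.mem_bot] at hmem
  apply hy1
  have : y = g⁻¹ * (g * y * g⁻¹) * g := by group
  rw [this, hmem]; group

theorem one_mem_frobeniusKernel (R : Subgroup G) : (1 : G) ∈ frobeniusKernel R := Or.inl rfl

/-- The basic count in a Frobenius group, for a normal subgroup `N`. -/
theorem frob_count [Finite G] {R : Subgroup G} (hR : IsFrobeniusComplement R) (N : Subgroup G)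
    [N.Normal] :
    ((N : Set G) \ frobeniusKernel R).ncard * Nat.card R + Nat.card G =
      Nat.card G * Nat.card (N ⊓ R : Subgroup G) := by
  classical
  let _ : Fintype G := Fintype.ofFinite G
  obtain ⟨K, hK⟩ : ∃ K : Set G, K = frobeniusKernel R := ⟨_, rfl⟩
  rw [← hK]
  let Nf : Finset G := Finset.univ.filter (· ∈ N)
  let rel : G → G → Prop := fun x g => g⁻¹ * x * g ∈ R
  have hcomm := Finset.sum_card_bipartiteAbove_eq_sum_card_bipartiteBelow rel (s := Nf)
    (t := Finset.univ)
  have hR1 : ∀ g ∈ (Finset.univ : Finset G),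
      (Nf.bipartiteBelow rel g).card = Nat.card (N ⊓ R : Subgroup G) := by
    intro g _
    rw [Nat.card_eq_fintype_card, Fintype.card_subtype]
    apply Finset.card_bij (fun x _ => g⁻¹ * x * g)
    · intro x hx
      simp only [Finset.bipartiteBelow, Finset.mem_filter, Nf, Finset.mem_univ, true_and] at hx ⊢
      refine ⟨?_, hx.2⟩
      have := (inferInstance : N.Normal).conj_mem x hx.1 g⁻¹
      simpa using this
    · intro x₁ _ x₂ _ h
      simpa using h
    · intro y hy
      simp only [Finset.mem_filter, Finset.mem_univ, true_and] at hy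
      refine ⟨g * y * g⁻¹, ?_, by group⟩
      simp only [Finset.bipartiteBelow, Finset.mem_filter, Nf, Finset.mem_univ, true_and]
      refine ⟨(inferInstance : N.Normal).conj_mem y hy.1 g, ?_⟩
      show g⁻¹ * (g * y * g⁻¹) * g ∈ R
      have : g⁻¹ * (g * y * g⁻¹) * g = y := by group
      rw [this]; exact hy.2
  have hL1 : ∀ x ∈ Nf, ((Finset.univ : Finset G).bipartiteAbove rel x).card =
      (if x = 1 then Nat.card G else 0) + (if x ∉ K then Nat.card R else 0) := by
    intro x _
    by_cases hx1 : x = 1
    · subst hx1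
      have h1K : (1 : G) ∈ K := by rw [hK]; exact one_mem_frobeniusKernel R
      have : (Finset.univ : Finset G).bipartiteAbove rel 1 = Finset.univ := by
        ext g
        simp only [Finset.bipartiteAbove, Finset.mem_filter, Finset.mem_univ, true_and, iff_true]
        show g⁻¹ * 1 * g ∈ R
        simp
      rw [this, Finset.card_univ, Nat.card_eq_fintype_card]
      simp [h1K]
    · by_cases hxK : x ∈ K
      · have hno : ∀ g : G, x ∉ MulAut.conj g • R := by
          rw [hK] at hxK
          rcases hxK with h | h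
          · exact absurd h hx1
          · exact h
        have : (Finset.univ : Finset G).bipartiteAbove rel x = ∅ := by
          ext g
          simp only [Finset.bipartiteAbove, Finset.mem_filter, Finset.mem_univ, true_and,
            Finset.notMem_empty, iff_false]
          intro hrel
          exact hno g ((mem_conj_smul_iff R g x).mpr hrel)
        rw [this]
        simp [hx1, hxK]
      · have hex : ∃ g₀ : G, x ∈ MulAut.conj g₀ • R := by
          by_contra hcon
          push Not at hcon
          apply hxK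
          rw [hK]
          exact Or.inr hcon
        obtain ⟨g₀, hg₀⟩ := hex
        rw [mem_conj_smul_iff] at hg₀
        have hy1 : g₀⁻¹ * x * g₀ ≠ 1 := by
          intro h
          apply hx1
          have : x = g₀ * (g₀⁻¹ * x * g₀) * g₀⁻¹ := by group
          rw [this, h]; group
        have hcard : ((Finset.univ : Finset G).bipartiteAbove rel x).card = Nat.card R := by
          rw [Nat.card_eq_fintype_card, Fintype.card_subtype]
          symm
          apply Finset.card_bij (fun r _ => g₀ * r)
          · intro r hr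
            simp only [Finset.mem_filter, Finset.mem_univ, true_and] at hr
            simp only [Finset.bipartiteAbove, Finset.mem_filter, Finset.mem_univ, true_and]
            show (g₀ * r)⁻¹ * x * (g₀ * r) ∈ R
            have : (g₀ * r)⁻¹ * x * (g₀ * r) = r⁻¹ * (g₀⁻¹ * x * g₀) * r := by group
            rw [this]
            exact R.mul_mem (R.mul_mem (R.inv_mem hr) hg₀) hr
          · intro r₁ _ r₂ _ h
            simpa using h
          · intro g hg
            simp only [Finset.bipartiteAbove, Finset.mem_filter, Finset.mem_univ, true_and] at hg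
            have hg' : g⁻¹ * x * g ∈ R := hg
            refine ⟨g₀⁻¹ * g, ?_, by group⟩
            simp only [Finset.mem_filter, Finset.mem_univ, true_and]
            have he : g⁻¹ * g₀ ∈ R := by
              apply frob_mem hR hg₀ hy1
              have : g⁻¹ * g₀ * (g₀⁻¹ * x * g₀) * (g⁻¹ * g₀)⁻¹ = g⁻¹ * x * g := by group
              rw [this]; exact hg'
            have : g₀⁻¹ * g = (g⁻¹ * g₀)⁻¹ := by group
            rw [this]; exact R.inv_mem he
        rw [hcard]
        simp [hx1, hxK]
  rw [Finset.sum_congr rfl hL1, Finset.sum_congr rfl hR1] at hcomm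
  rw [Finset.sum_add_distrib, Finset.sum_ite_eq', ← Finset.sum_filter, Finset.sum_const,
    Finset.sum_const, smul_eq_mul, smul_eq_mul, Finset.card_univ, ← Nat.card_eq_fintype_card] at hcomm
  have h1N : (1 : G) ∈ Nf := by simp [Nf, N.one_mem]
  rw [if_pos h1N] at hcomm
  have hset : ((N : Set G) \ K) = ↑(Nf.filter (fun x => x ∉ K)) := by
    ext x
    simp [Nf]
  rw [hset, Set.ncard_coe_finset]
  omega

end Cfsg.Agent.H66

namespace Cfsg.Agent.H66
open Cfsg
open scoped Pointwise

variable {G : Type*} [Group G]

theorem card_mul_relIndex_of_le [Finite G] {H K : Subgroup G} (h : H ≤ K) :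
    Nat.card H * H.relIndex K = Nat.card K := by
  have := Subgroup.relIndex_mul_relIndex (⊥ : Subgroup G) H K bot_le h
  rwa [Subgroup.relIndex_bot_left, Subgroup.relIndex_bot_left] at this

/-- The Frobenius kernel has as many elements as the index of the complement. -/
theorem frob_kernel_card [Finite G] {R : Subgroup G} (hR : IsFrobeniusComplement R) :
    (frobeniusKernel R).ncard * Nat.card R = Nat.card G := by
  have h := frob_count hR ⊤
  have h2 := Set.ncard_inter_add_ncard_sdiff_eq_ncard (Set.univ : Set G) (frobeniusKernel R)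
    (Set.toFinite _)
  rw [Set.univ_inter, Set.ncard_univ] at h2
  rw [Subgroup.coe_top, top_inf_eq] at h
  have h3 : (Set.univ \ frobeniusKernel R).ncard * Nat.card R + Nat.card G =
      ((frobeniusKernel R).ncard + (Set.univ \ frobeniusKernel R).ncard) * Nat.card R := by
    rw [h2]; exact h
  rw [Nat.add_mul] at h3
  omega

/-- The count for a normal subgroup, in additive form. -/
theorem frob_count' [Finite G] {R : Subgroup G} (hR : IsFrobeniusComplement R) (N : Subgroup G)
    [N.Normal] :
    Nat.card N + (frobeniusKernel R).ncard =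
      ((N : Set G) ∩ frobeniusKernel R).ncard +
        (frobeniusKernel R).ncard * Nat.card (N ⊓ R : Subgroup G) := by
  have h := frob_count hR N
  have h2 := Set.ncard_inter_add_ncard_sdiff_eq_ncard (N : Set G) (frobeniusKernel R)
    (Set.toFinite _)
  have h3 := frob_kernel_card hR
  have hN : (N : Set G).ncard = Nat.card N := rfl
  rw [hN] at h2
  have ha : 0 < Nat.card R := Nat.card_pos
  rw [← h3] at h
  have h4 : (((N : Set G) \ frobeniusKernel R).ncard + (frobeniusKernel R).ncard) * Nat.card R =
      ((frobeniusKernel R).ncard * Nat.card (N ⊓ R : Subgroup G)) * Nat.card R := by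
    rw [Nat.add_mul, h]; ring
  have h5 := Nat.eq_of_mul_eq_mul_right ha h4
  omega

theorem kernel_subset_of_ncard [Finite G] (R : Subgroup G) (N : Subgroup G)
    (h : ((N : Set G) ∩ frobeniusKernel R).ncard = (frobeniusKernel R).ncard) :
    frobeniusKernel R ⊆ N := by
  have := Set.eq_of_subset_of_ncard_le (Set.inter_subset_right : (N : Set G) ∩ frobeniusKernel R ⊆ _)
    (le_of_eq h.symm) (Set.toFinite _)
  intro x hx
  rw [← this] at hx
  exact hx.1

/-- A normal subgroup of a Frobenius group not containing the kernel meets the complement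
trivially, and together with the complement does not generate the group. -/
theorem frob_normal_dichotomy [Finite G] {R : Subgroup G} (hR : IsFrobeniusComplement R)
    (N : Subgroup G) [N.Normal] (hKN : ¬ frobeniusKernel R ⊆ N) :
    N ⊓ R = ⊥ ∧ R ⊔ N ≠ ⊤ := by
  have hC := frob_count' hR N
  have hκ := frob_kernel_card hR
  have hkN1 : 1 ≤ ((N : Set G) ∩ frobeniusKernel R).ncard := by
    have : ((N : Set G) ∩ frobeniusKernel R).Nonempty :=
      ⟨1, N.one_mem, one_mem_frobeniusKernel R⟩
    exact (Set.ncard_pos (Set.toFinite _)).mpr this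
  have hkNle : ((N : Set G) ∩ frobeniusKernel R).ncard ≤ (frobeniusKernel R).ncard :=
    Set.ncard_le_ncard Set.inter_subset_right (Set.toFinite _)
  have hj1 : Nat.card (N ⊓ R : Subgroup G) * N.relIndex R = Nat.card R := by
    have := card_mul_relIndex_of_le (inf_le_right : N ⊓ R ≤ R)
    rwa [Subgroup.inf_relIndex_right] at this
  have hj2 : Nat.card N * N.relIndex R = Nat.card (R ⊔ N : Subgroup G) := by
    have := card_mul_relIndex_of_le (le_sup_right : N ≤ R ⊔ N)
    rwa [Subgroup.relIndex_sup_right] at this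
  have ha : 0 < Nat.card R := Nat.card_pos
  have hj : 0 < N.relIndex R := by
    rcases Nat.eq_zero_or_pos (N.relIndex R) with h0 | h0
    · rw [h0, mul_zero] at hj1; omega
    · exact h0
  have hbot : N ⊓ R = ⊥ := by
    by_contra hne
    have hr2 : 2 ≤ Nat.card (N ⊓ R : Subgroup G) := by
      have := (Subgroup.one_lt_card_iff_ne_bot (N ⊓ R)).mpr hne
      omega
    have hdvd : Nat.card (R ⊔ N : Subgroup G) ∣ Nat.card G := Subgroup.card_subgroup_dvd_card _
    rw [← hj2, ← hκ, ← hj1, ← mul_assoc] at hdvd
    have hdvd2 := Nat.dvd_of_mul_dvd_mul_right hj hdvd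
    obtain ⟨t, ht⟩ := hdvd2
    have hP2 : 2 * (frobeniusKernel R).ncard ≤
        (frobeniusKernel R).ncard * Nat.card (N ⊓ R : Subgroup G) := by
      rw [mul_comm 2]
      exact Nat.mul_le_mul_left _ hr2
    rcases Nat.lt_or_ge t 2 with hlt | hge
    · have ht1 : t = 1 := by
        rcases Nat.eq_zero_or_pos t with h0 | h0
        · rw [h0, mul_zero] at ht; omega
        · omega
      rw [ht1, mul_one] at ht
      apply hKN
      apply kernel_subset_of_ncard
      omega
    · have : Nat.card N * 2 ≤ Nat.card N * t := Nat.mul_le_mul_left _ hge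
      omega
  refine ⟨hbot, ?_⟩
  intro htop
  have hr1 : Nat.card (N ⊓ R : Subgroup G) = 1 := by rw [hbot]; exact Subgroup.card_bot
  rw [hr1, one_mul] at hj1
  rw [hr1, mul_one] at hC
  rw [htop, Subgroup.card_top, ← hκ, hj1] at hj2
  have h6 := Nat.eq_of_mul_eq_mul_right ha hj2
  apply hKN
  apply kernel_subset_of_ncard
  omega

/-- In a Frobenius group with a normal subgroup `N` meeting the complement trivially, the coset
`r N` of a nontrivial element `r` of the complement consists of `N`-conjugates of `r`. -/
theorem frob_conj_of_mul [Finite G] {R : Subgroup G} (hR : IsFrobeniusComplement R)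
    (N : Subgroup G) [N.Normal] (hNR : N ⊓ R = ⊥) {r₀ : G} (hr : r₀ ∈ R) (hr1 : r₀ ≠ 1) {n : G}
    (hn : n ∈ N) : ∃ a ∈ N, r₀ * n = a * r₀ * a⁻¹ := by
  let φ : N → N := fun a => ⟨r₀⁻¹ * a * r₀ * a⁻¹, by
    have h1 : r₀⁻¹ * (a : G) * r₀ ∈ N := by
      have := (inferInstance : N.Normal).conj_mem a a.2 r₀⁻¹
      simpa using this
    exact N.mul_mem h1 (N.inv_mem a.2)⟩
  have hinj : Function.Injective φ := by
    intro a b hab
    have h1 : r₀⁻¹ * (a : G) * r₀ * (a : G)⁻¹ = r₀⁻¹ * (b : G) * r₀ * (b : G)⁻¹ :=
      congrArg Subtype.val hab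
    have h2 : ((b : G)⁻¹ * a) * r₀ * ((b : G)⁻¹ * a)⁻¹ = r₀ := by
      have e1 : (a : G) * r₀ * (a : G)⁻¹ = (b : G) * r₀ * (b : G)⁻¹ := by
        have := congrArg (fun z => r₀ * z) h1
        simpa [mul_assoc] using this
      calc ((b : G)⁻¹ * a) * r₀ * ((b : G)⁻¹ * a)⁻¹
          = (b : G)⁻¹ * ((a : G) * r₀ * (a : G)⁻¹) * b := by group
        _ = (b : G)⁻¹ * ((b : G) * r₀ * (b : G)⁻¹) * b := by rw [e1]
        _ = r₀ := by group
    have h3 : (b : G)⁻¹ * a ∈ R := by
      apply frob_mem hR hr hr1
      rw [h2]; exact hr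
    have h4 : (b : G)⁻¹ * a ∈ N ⊓ R := ⟨N.mul_mem (N.inv_mem b.2) a.2, h3⟩
    rw [hNR, Subgroup.mem_bot] at h4
    apply Subtype.ext
    have : (a : G) = b * ((b : G)⁻¹ * a) := by group
    rw [this, h4, mul_one]
  have hsurj := Finite.surjective_of_injective hinj
  obtain ⟨a, ha⟩ := hsurj ⟨n, hn⟩
  refine ⟨a, a.2, ?_⟩
  have h1 : r₀⁻¹ * (a : G) * r₀ * (a : G)⁻¹ = n := congrArg Subtype.val ha
  rw [← h1]; group

end Cfsg.Agent.H66
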