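import Cfsg.Agent.H66.HHB

/-!
# Hall–Higman Theorem B: choice of the `q`-subgroup, and the linear-group form

* `exists_q_subgroup`: in a `p`-soluble group with `O_p = 1`, an element `x` of order `p^(m+1)`
  normalises a `q`-subgroup (`q ≠ p`) not centralised by `x^(p^m)`.
* `hhB_group`: Theorem B for a faithful representation of a `p`-soluble group with `O_p = 1` over
  an algebraically closed field of characteristic `p`.
-/

set_option autoImplicit false
set_option linter.style.haveILetI false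
set_option linter.unusedVariables false
set_option linter.unusedSectionVars false

namespace Cfsg.Agent.H66

open Cfsg

theorem exists_q_subgroup {H : Type*} [Group H] [Finite H] {p : ℕ} [Fact p.Prime]
    (hsol : IsPSolvable p H) (hOp : pCore p H = ⊥)
    (x : H) (m : ℕ) (hx1 : x ^ p ^ (m + 1) = 1) (hx2 : x ^ p ^ m ≠ 1) :
    ∃ (q : ℕ) (_ : Fact q.Prime) (Q : Subgroup H), q ≠ p ∧ IsPGroup q Q ∧
      x ∈ Subgroup.normalizer (Q : Set H) ∧ ∃ a ∈ Q, x ^ p ^ m * a ≠ a * x ^ p ^ m := by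
  have hp : p.Prime := Fact.out
  obtain ⟨y, hy⟩ : ∃ y, y = x ^ p ^ m := ⟨_, rfl⟩
  rw [← hy]
  have hyp : y ^ p = 1 := by rw [hy, ← pow_mul, ← pow_succ]; exact hx1
  have hy1 : y ≠ 1 := by rw [hy]; exact hx2
  have hyo : orderOf y = p := orderOf_eq_prime hyp hy1
  obtain ⟨N, hN⟩ : ∃ N, N = pPrimeCore p H := ⟨_, rfl⟩
  haveI hNn : N.Normal := by rw [hN]; infer_instance
  have hNc : (Nat.card N).Coprime p := by rw [hN]; exact H14.pPrimeCore_coprime p H
  have hyN : y ∉ N := by
    intro h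
    have h1 : orderOf y ∣ Nat.card N := by
      have := orderOf_dvd_natCard (⟨y, h⟩ : N)
      rwa [Subgroup.orderOf_mk] at this
    rw [hyo] at h1
    exact (Nat.Prime.coprime_iff_not_dvd hp).mp hNc.symm h1
  have hcent := centralizer_pPrimeCore_le p hsol hOp
  rw [← hN] at hcent
  have hyC : y ∉ Subgroup.centralizer (N : Set H) := fun h => hyN (hcent h)
  have hZ : IsPGroup p (Subgroup.zpowers x) := by
    apply IsPGroup.of_card (n := m + 1)
    rw [Nat.card_zpowers]; exact orderOf_eq_prime_pow hx2 hx1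
  have hex : ∃ (q : ℕ) (_ : Fact q.Prime) (S : Sylow q N),
      Subgroup.zpowers x ≤
        Subgroup.normalizer (((S : Subgroup N).map N.subtype : Subgroup H) : Set H) ∧
      ∃ a ∈ (S : Subgroup N).map N.subtype, y * a ≠ a * y := by
    by_contra hcon
    push Not at hcon
    apply hyC
    have hCN : N ⊓ Subgroup.centralizer ({y} : Set H) = N := by
      apply Subgroup.eq_of_le_of_card_ge inf_le_left
      apply Nat.le_of_dvd Nat.card_pos
      rw [← Nat.factorization_prime_le_iff_dvd (Nat.card_pos.ne') (Nat.card_pos.ne')]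
      intro q hq
      haveI : Fact q.Prime := ⟨hq⟩
      obtain ⟨S, hS⟩ := H80.exists_sylow_normalized q p N hNc (Subgroup.zpowers x) hZ
      have h1 : (S : Subgroup N).map N.subtype ≤ N ⊓ Subgroup.centralizer ({y} : Set H) := by
        intro a ha
        refine Subgroup.mem_inf.mpr ⟨Subgroup.map_subtype_le _ ha, ?_⟩
        rw [Subgroup.mem_centralizer_iff]
        intro z hz
        rw [Set.mem_singleton_iff] at hz
        rw [hz]
        exact hcon q ‹_› S hS a ha
      have h2 := Subgroup.card_dvd_of_le h1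
      rw [Subgroup.card_map_of_injective N.subtype_injective, Sylow.card_eq_multiplicity] at h2
      exact (Nat.Prime.pow_dvd_iff_le_factorization hq (Nat.card_pos.ne')).mp h2
    rw [Subgroup.mem_centralizer_iff]
    intro n hn
    have h3 : n ∈ N ⊓ Subgroup.centralizer ({y} : Set H) := by rw [hCN]; exact hn
    exact (Subgroup.mem_centralizer_iff.mp h3.2 y rfl).symm
  obtain ⟨q, hqF, S, hSx, a, haS, hya⟩ := hex
  have hq : q.Prime := hqF.out
  obtain ⟨Q, hQ⟩ : ∃ Q : Subgroup H, Q = (S : Subgroup N).map N.subtype := ⟨_, rfl⟩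
  rw [← hQ] at hSx haS
  have hQN : Q ≤ N := by rw [hQ]; exact Subgroup.map_subtype_le _
  have hQq : IsPGroup q Q := by rw [hQ]; exact S.isPGroup'.map N.subtype
  have hQc : (Nat.card Q).Coprime p :=
    Nat.Coprime.coprime_dvd_left (Subgroup.card_dvd_of_le hQN) hNc
  have hqp : q ≠ p := by
    intro hqp
    obtain ⟨k, hk⟩ := IsPGroup.iff_card.mp hQq
    rw [hk, hqp] at hQc
    have hk0 : k = 0 := by
      by_contra hk0
      exact hp.one_lt.ne' ((Nat.coprime_pow_left_iff (Nat.pos_of_ne_zero hk0) p p).mp hQc |>.symm ▸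
        (Nat.coprime_self p).mp ((Nat.coprime_pow_left_iff (Nat.pos_of_ne_zero hk0) p p).mp hQc))
    rw [hk0, pow_zero] at hk
    have hQbot : Q = ⊥ := Subgroup.card_eq_one.mp hk
    rw [hQbot, Subgroup.mem_bot] at haS
    rw [haS] at hya
    simp at hya
  exact ⟨q, hqF, Q, hqp, hQq, hSx (Subgroup.mem_zpowers x), a, haS, hya⟩

/-- Theorem B of Hall and Higman for a faithful representation over an algebraically closed
field. -/
theorem hhB_group {H : Type*} [Group H] [Finite H] {p : ℕ} [Fact p.Prime]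
    (hsol : IsPSolvable p H) (hOp : pCore p H = ⊥)
    {K : Type*} [Field K] [IsAlgClosed K] [CharP K p] {V : Type*} [AddCommGroup V] [Module K V]
    [FiniteDimensional K V] (ρ : H →* Module.End K V) (hfaith : Function.Injective ρ)
    (x : H) (m : ℕ) (hx1 : x ^ p ^ (m + 1) = 1) (hx2 : x ^ p ^ m ≠ 1) :
    ∃ N : ℕ, (ρ x - 1) ^ (N - 1) ≠ 0 ∧ (N = p ^ (m + 1) ∨ ∃ (n₀ q k : ℕ), 1 ≤ n₀ ∧ n₀ ≤ m + 1 ∧
      q.Prime ∧ 1 ≤ k ∧ p ^ n₀ - 1 = q ^ k ∧ (∀ T : Sylow q H, ¬ IsMulCommutative T) ∧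
      N = p ^ (m + 1 - n₀) * (p ^ n₀ - 1)) := by
  obtain ⟨q, hqF, Q, hqp, hQq, hxQ, hh⟩ := exists_q_subgroup hsol hOp x m hx1 hx2
  obtain ⟨N, hN, hcases⟩ := hhB_aux p q hqp.symm (Module.finrank K V) H V rfl ρ hfaith Q hQq x m
    hx1 hxQ hh
  refine ⟨N, hN, ?_⟩
  rcases hcases with h | ⟨n₀, k, h1, h2, h3, h4, h5, h6⟩
  · exact Or.inl h
  · right
    refine ⟨n₀, q, k, h1, h2, hqF.out, h3, h4, ?_, h6⟩
    intro T hT
    apply h5
    obtain ⟨T', hT'⟩ := hQq.exists_le_sylow
    obtain ⟨c, hc⟩ := MulAction.exists_smul_eq H T T'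
    have e := Sylow.equivSMul T c
    rw [hc] at e
    intro a ha b hb
    have h7 : e.symm ⟨a, hT' ha⟩ * e.symm ⟨b, hT' hb⟩ = e.symm ⟨b, hT' hb⟩ * e.symm ⟨a, hT' ha⟩ :=
      hT.is_comm.comm _ _
    rw [← map_mul, ← map_mul] at h7
    have h8 := e.symm.injective h7
    exact congrArg Subtype.val h8

end Cfsg.Agent.H66
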