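import Cfsg.Agent.H66.HHLin

/-!
# The `𝔽_p`-representation on `O_p / Φ(O_p)` and auxiliary lemmas

* `exists_faithful_zmod_rep`: for a `p`-soluble group `Γ` with `O_{p'}(Γ) = 1`, the group
  `Γ / O_p(Γ)` acts faithfully and `𝔽_p`-linearly on `O_p(Γ) / Φ(O_p(Γ))`.
* `exists_fixed_in_coset`: a fixed point of a `q`-power-order twisted translation on a coset of a
  normal `p`-subgroup.
* `involves_S4_of_elements`: recognising a section isomorphic to the symmetric group of degree 4.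
-/

set_option autoImplicit false
set_option linter.style.haveILetI false
set_option linter.unusedVariables false
set_option linter.unusedSectionVars false

namespace Cfsg.Agent.H66

open Cfsg
open scoped commutatorElement

universe u

open scoped IsMulCommutative in
theorem exists_faithful_zmod_rep {Γ : Type u} [Group Γ] [Finite Γ] {p : ℕ} [Fact p.Prime]
    (hsol : IsPSolvable p Γ) (hO : pPrimeCore p Γ = ⊥) (P₁ : Subgroup Γ) [hP₁n : P₁.Normal]
    (hP₁ : P₁ = pCore p Γ) (Φ : Subgroup Γ) [hΦn : Φ.Normal]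
    (hΦ : Φ = (frattini ↥P₁).map P₁.subtype) :
    ∃ (V : Type u) (_ : AddCommGroup V) (_ : Module (ZMod p) V)
      (θ : (Γ ⧸ P₁) →* Module.End (ZMod p) V) (ι : Γ → V),
      Function.Injective θ ∧ (∀ v, ∃ u ∈ P₁, ι u = v) ∧
      (∀ a ∈ P₁, ∀ b ∈ P₁, ι (a * b) = ι a + ι b) ∧
      (∀ a ∈ P₁, ∀ k : ℤ, ι (a ^ k) = k • ι a) ∧
      (∀ g, ∀ u ∈ P₁, θ (QuotientGroup.mk' P₁ g) (ι u) = ι (g * u * g⁻¹)) ∧
      (∀ u ∈ P₁, ∀ u' ∈ P₁, ι u = ι u' ↔ QuotientGroup.mk' Φ u = QuotientGroup.mk' Φ u') ∧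
      (∀ v : V, p • v = 0) := by
  classical
  have hp : p.Prime := Fact.out
  have hP₁p : IsPGroup p P₁ := by rw [hP₁]; exact H14.pCore_isPGroup p Γ
  obtain ⟨A, hA⟩ : ∃ A : Subgroup (Γ ⧸ Φ), A = P₁.map (QuotientGroup.mk' Φ) := ⟨_, rfl⟩
  haveI hAn : A.Normal := by
    rw [hA]; exact Subgroup.Normal.map hP₁n _ (QuotientGroup.mk'_surjective Φ)
  have hcommΦ : ∀ g, (∀ a ∈ P₁, g * a * g⁻¹ * a⁻¹ ∈ Φ) ↔
      ∀ b ∈ A, QuotientGroup.mk' Φ g * b * (QuotientGroup.mk' Φ g)⁻¹ = b := by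
    intro g
    constructor
    · intro h b hb
      rw [hA] at hb
      obtain ⟨a, ha, rfl⟩ := hb
      rw [← map_inv, ← map_mul, ← map_mul]
      have h1 := (QuotientGroup.eq_one_iff (N := Φ) _).mpr (h a ha)
      rw [← mul_inv_eq_one, ← map_inv, ← map_mul]
      exact h1
    · intro h a ha
      have h1 := h (QuotientGroup.mk' Φ a) (by rw [hA]; exact Subgroup.mem_map_of_mem _ ha)
      rw [← mul_inv_eq_one, ← map_inv, ← map_mul, ← map_mul, ← map_inv, ← map_mul] at h1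
      exact (QuotientGroup.eq_one_iff (N := Φ) _).mp h1
  have hcommP : ∀ g ∈ P₁, ∀ a ∈ P₁, g * a * g⁻¹ * a⁻¹ ∈ Φ := by
    intro g hg a ha
    rw [hΦ]
    refine ⟨⁅(⟨g, hg⟩ : ↥P₁), (⟨a, ha⟩ : ↥P₁)⁆, ?_, ?_⟩
    · exact H3.commutator_le_frattini hP₁p
        (Subgroup.commutator_mem_commutator (Subgroup.mem_top _) (Subgroup.mem_top _))
    · simp [commutatorElement_def]
  have hAc : ∀ a ∈ A, ∀ b ∈ A, a * b = b * a := by
    intro a ha b hb
    have ha' := ha
    rw [hA] at ha'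
    obtain ⟨g, hg, rfl⟩ := ha'
    have h1 := (hcommΦ g).mp (hcommP g hg) b hb
    calc QuotientGroup.mk' Φ g * b
        = QuotientGroup.mk' Φ g * b * (QuotientGroup.mk' Φ g)⁻¹ * QuotientGroup.mk' Φ g := by
          group
      _ = b * QuotientGroup.mk' Φ g := by rw [h1]
  have hAe : ∀ a ∈ A, a ^ p = 1 := by
    intro a ha
    rw [hA] at ha
    obtain ⟨g, hg, rfl⟩ := ha
    rw [← map_pow]
    apply (QuotientGroup.eq_one_iff (N := Φ) _).mpr
    rw [hΦ]
    exact ⟨(⟨g, hg⟩ : ↥P₁) ^ p, H3.pow_mem_frattini hP₁p _, rfl⟩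
  haveI hAcomm : IsMulCommutative A := ⟨⟨fun a b => Subtype.ext (hAc a a.2 b b.2)⟩⟩
  have hM : ∀ m : ↥A, m ^ p = 1 := fun m => Subtype.ext (by
    rw [Subgroup.coe_pow]; exact hAe m m.2)
  obtain ⟨c, hc⟩ : ∃ c : (Γ ⧸ Φ) →* MulAut ↥A, c = MulAut.conjNormal := ⟨_, rfl⟩
  have hc1 : ∀ e, c e = 1 ↔ ∀ b ∈ A, e * b * e⁻¹ = b := by
    intro e
    rw [hc]
    constructor
    · intro h b hb
      have h1 := congrArg (fun f : MulAut ↥A => ((f ⟨b, hb⟩ : ↥A) : Γ ⧸ Φ)) h
      simp only [MulAut.conjNormal_apply, MulAut.one_apply] at h1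
      exact h1
    · intro h
      ext b
      rw [MulAut.conjNormal_apply, MulAut.one_apply]
      exact h b b.2
  have hexp' : ∀ a : Additive ↥A, p • a = 0 := fun a => by
    have := hM (Additive.toMul a)
    exact congrArg Additive.ofMul this
  haveI : Module (ZMod p) (Additive ↥A) := AddCommGroup.zmodModule hexp'
  obtain ⟨T, hTdef⟩ : ∃ T : (Γ ⧸ Φ) →* Module.End (ZMod p) (Additive ↥A), T = zmodLinHom p c :=
    ⟨_, rfl⟩
  have hT : ∀ e (m : ↥A), T e (Additive.ofMul m) = Additive.ofMul (c e m) := by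
    intro e m; rw [hTdef]; rfl
  have hT1 : ∀ e, T e = 1 ↔ c e = 1 := by
    intro e
    constructor
    · intro h1
      ext m
      have h2 := hT e m
      rw [h1] at h2
      exact congrArg Subtype.val (congrArg Additive.toMul h2).symm
    · intro he
      have h1 : T e = zmodLinHom p (MonoidHom.id (MulAut ↥A)) (c e) := by rw [hTdef]; rfl
      rw [h1, he, map_one]
  -- the kernel of the action is contained in `P₁`
  have hker : ∀ g : Γ, (∀ a ∈ P₁, g * a * g⁻¹ * a⁻¹ ∈ Φ) → g ∈ P₁ := by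
    obtain ⟨C, hC⟩ : ∃ C : Subgroup Γ, C = (c.comp (QuotientGroup.mk' Φ)).ker := ⟨_, rfl⟩
    haveI hCn : C.Normal := by rw [hC]; infer_instance
    have hCmem : ∀ g, g ∈ C ↔ ∀ a ∈ P₁, g * a * g⁻¹ * a⁻¹ ∈ Φ := by
      intro g
      rw [hC, MonoidHom.mem_ker, MonoidHom.comp_apply, hc1, hcommΦ]
    have hprime : ∀ h ∈ C, (orderOf h).Coprime p → h = 1 := by
      intro h hh hcop
      obtain ⟨α, hα⟩ : ∃ α : MulAut ↥P₁, α = MulAut.conjNormal h := ⟨_, rfl⟩
      have hα1 : α = 1 := by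
        apply H76.eq_one_of_trivial_on_frattini_of_coprime hP₁p α
        · intro y
          have h1 := (hCmem h).mp hh y y.2
          rw [hΦ] at h1
          obtain ⟨z, hz, hz'⟩ := h1
          have h2 : z = α y * y⁻¹ := by
            apply Subtype.ext
            rw [Subgroup.coe_mul, hα, MulAut.conjNormal_apply, Subgroup.coe_inv]
            exact hz'
          rw [← h2]; exact hz
        · apply Nat.Coprime.coprime_dvd_left _ hcop
          rw [hα]
          exact orderOf_map_dvd _ h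
      have h2 : h ∈ Subgroup.centralizer ((P₁ : Subgroup Γ) : Set Γ) := by
        rw [Subgroup.mem_centralizer_iff]
        intro y hy
        have h3 := congrArg (fun f : MulAut ↥P₁ => ((f ⟨y, hy⟩ : ↥P₁) : Γ)) hα1
        simp only [hα, MulAut.conjNormal_apply, MulAut.one_apply] at h3
        calc y * h = h * y * h⁻¹ * h := by rw [h3]
          _ = h * y := by group
      have h3 : h ∈ P₁ := by
        have := H80.centralizer_pCore_le p hsol hO
        rw [← hP₁] at this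
        exact this h2
      obtain ⟨k, hk⟩ := hP₁p ⟨h, h3⟩
      have h4 : h ^ p ^ k = 1 := by
        have := congrArg Subtype.val hk
        simpa using this
      have h5 : orderOf h ∣ p ^ k := orderOf_dvd_of_pow_eq_one h4
      have h6 : orderOf h = 1 := Nat.Coprime.eq_one_of_dvd (Nat.Coprime.pow_right k hcop) h5
      exact orderOf_eq_one_iff.mp h6
    have hCp : IsPGroup p C := by
      intro g
      have hn0 : orderOf (g : Γ) ≠ 0 := (orderOf_pos (g : Γ)).ne'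
      obtain ⟨k, m, hm, hn⟩ := Nat.exists_eq_pow_mul_and_not_dvd hn0 p hp.ne_one
      refine ⟨k, ?_⟩
      apply Subtype.ext
      rw [Subgroup.coe_pow, Subgroup.coe_one]
      apply hprime _ (C.pow_mem g.2 _)
      have h1 : ((g : Γ) ^ p ^ k) ^ m = 1 := by
        rw [← pow_mul, ← hn]; exact pow_orderOf_eq_one _
      have h2 : orderOf ((g : Γ) ^ p ^ k) ∣ m := orderOf_dvd_of_pow_eq_one h1
      exact Nat.Coprime.coprime_dvd_left h2 ((Nat.Prime.coprime_iff_not_dvd hp).mpr hm).symm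
    intro g hg
    have h1 : C ≤ pCore p Γ := H80.le_pCore p C hCn hCp
    rw [← hP₁] at h1
    exact h1 ((hCmem g).mpr hg)
  obtain ⟨ρ₁, hρ₁⟩ : ∃ ρ₁ : Γ →* Module.End (ZMod p) (Additive ↥A),
      ρ₁ = T.comp (QuotientGroup.mk' Φ) := ⟨_, rfl⟩
  have hρ₁1 : ∀ g, ρ₁ g = 1 ↔ ∀ a ∈ P₁, g * a * g⁻¹ * a⁻¹ ∈ Φ := by
    intro g
    rw [hρ₁, MonoidHom.comp_apply, hT1, hc1, hcommΦ]
  have hle : P₁ ≤ ρ₁.ker := by
    intro g hg
    rw [MonoidHom.mem_ker, hρ₁1]
    exact hcommP g hg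
  obtain ⟨ρ, hρ⟩ : ∃ ρ : (Γ ⧸ P₁) →* Module.End (ZMod p) (Additive ↥A),
      ρ = QuotientGroup.lift P₁ ρ₁ hle := ⟨_, rfl⟩
  have hρmk : ∀ g, ρ (QuotientGroup.mk' P₁ g) = ρ₁ g := by
    intro g; rw [hρ]; rfl
  have hρinj : Function.Injective ρ := by
    intro a b hab
    obtain ⟨g, rfl⟩ := QuotientGroup.mk'_surjective P₁ a
    obtain ⟨g', rfl⟩ := QuotientGroup.mk'_surjective P₁ b
    rw [hρmk, hρmk] at hab
    have h1 : ρ₁ (g⁻¹ * g') = 1 := by
      have hu : IsUnit (ρ₁ g) := (Group.isUnit g).map ρ₁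
      apply hu.mul_left_cancel
      rw [← map_mul, mul_inv_cancel_left, mul_one, hab]
    have h2 : g⁻¹ * g' ∈ P₁ := hker _ ((hρ₁1 _).mp h1)
    exact QuotientGroup.eq.mpr h2
  have hmemA : ∀ u ∈ P₁, QuotientGroup.mk' Φ u ∈ A := by
    intro u hu; rw [hA]; exact Subgroup.mem_map_of_mem _ hu
  obtain ⟨ι, hι⟩ : ∃ ι : Γ → Additive ↥A, ∀ u (hu : u ∈ P₁),
      ι u = Additive.ofMul (⟨QuotientGroup.mk' Φ u, hmemA u hu⟩ : ↥A) :=
    ⟨fun g => if h : g ∈ P₁ then Additive.ofMul (⟨QuotientGroup.mk' Φ g, hmemA g h⟩ : ↥A) else 0,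
      fun u hu => dif_pos hu⟩
  refine ⟨Additive ↥A, inferInstance, inferInstance, ρ, ι, hρinj, ?_, ?_, ?_, ?_, ?_, hexp'⟩
  · intro v
    have hv : ((Additive.toMul v : ↥A) : Γ ⧸ Φ) ∈ P₁.map (QuotientGroup.mk' Φ) :=
      hA.le (Additive.toMul v).2
    obtain ⟨u, hu, huv⟩ := hv
    refine ⟨u, hu, ?_⟩
    rw [hι u hu]
    apply congrArg Additive.ofMul
    exact Subtype.ext huv
  · intro a ha b hb
    rw [hι a ha, hι b hb, hι _ (P₁.mul_mem ha hb), ← ofMul_mul]
    apply congrArg Additive.ofMul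
    apply Subtype.ext
    exact map_mul (QuotientGroup.mk' Φ) a b
  · intro a ha k
    rw [hι a ha, hι _ (P₁.zpow_mem ha k), ← ofMul_zpow]
    apply congrArg Additive.ofMul
    apply Subtype.ext
    exact map_zpow (QuotientGroup.mk' Φ) a k
  · intro g u hu
    rw [hι u hu, hι _ (hP₁n.conj_mem u hu g), hρmk, hρ₁, MonoidHom.comp_apply, hT]
    apply congrArg Additive.ofMul
    apply Subtype.ext
    rw [hc, MulAut.conjNormal_apply]
    show QuotientGroup.mk' Φ g * QuotientGroup.mk' Φ u * (QuotientGroup.mk' Φ g)⁻¹ =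
      QuotientGroup.mk' Φ (g * u * g⁻¹)
    rw [map_mul, map_mul, map_inv]
  · intro u hu u' hu'
    rw [hι u hu, hι u' hu']
    constructor
    · intro h
      have h1 := congrArg Additive.toMul h
      exact congrArg Subtype.val h1
    · intro h
      apply congrArg Additive.ofMul
      exact Subtype.ext h

/-- A fixed point of the map `x ↦ c x d` on the coset `b P₁` of a normal `p`-subgroup, for
`q`-elements `c`, `d` with `q ≠ p`. -/
theorem exists_fixed_in_coset {Γ : Type*} [Group Γ] [Finite Γ] {p q : ℕ} [Fact p.Prime]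
    [Fact q.Prime] (hqp : q ≠ p) (P₁ : Subgroup Γ) [hP₁n : P₁.Normal] (hP₁p : IsPGroup p P₁)
    (b c d : Γ) (j : ℕ) (hc : c ^ q ^ j = 1) (hd : d ^ q ^ j = 1)
    (hbcd : b⁻¹ * c * b * d ∈ P₁) :
    ∃ u ∈ P₁, c * (b * u) * d = b * u := by
  classical
  have hmem : ∀ u ∈ P₁, b⁻¹ * c * (b * u) * d ∈ P₁ := by
    intro u hu
    have h1 : b⁻¹ * c * (b * u) * d = (b⁻¹ * c * b * d) * (d⁻¹ * u * d⁻¹⁻¹) := by group
    rw [h1]
    exact P₁.mul_mem hbcd (hP₁n.conj_mem u hu d⁻¹)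
  obtain ⟨f, hf⟩ : ∃ f : ↥P₁ → ↥P₁, ∀ u, (f u : Γ) = b⁻¹ * c * (b * u) * d :=
    ⟨fun u => ⟨b⁻¹ * c * (b * u) * d, hmem u u.2⟩, fun u => rfl⟩
  have hfinj : Function.Injective f := by
    intro u v huv
    have h1 := congrArg Subtype.val huv
    rw [hf, hf] at h1
    apply Subtype.ext
    have h2 : b⁻¹ * c * (b * (u : Γ)) = b⁻¹ * c * (b * v) := mul_right_cancel h1
    exact mul_left_cancel (mul_left_cancel h2)
  have hfbij : Function.Bijective f := Finite.injective_iff_bijective.mp hfinj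
  obtain ⟨σ, hσ⟩ : ∃ σ : Equiv.Perm ↥P₁, ∀ u, σ u = f u :=
    ⟨Equiv.ofBijective f hfbij, fun u => rfl⟩
  have hσk : ∀ (k : ℕ) (u : ↥P₁), ((σ ^ k) u : Γ) = b⁻¹ * c ^ k * (b * u) * d ^ k := by
    intro k
    induction k with
    | zero => intro u; simp
    | succ k ih =>
      intro u
      rw [pow_succ' σ k, Equiv.Perm.mul_apply, hσ, hf, ih, pow_succ' c, pow_succ d]
      group
  haveI : Fintype ↥P₁ := Fintype.ofFinite _
  have hσ1 : σ ^ q ^ j = 1 := by
    ext u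
    rw [hσk, hc, hd]
    simp
  have hcard : ¬ q ∣ Fintype.card ↥P₁ := by
    obtain ⟨n, hn⟩ := IsPGroup.iff_card.mp hP₁p
    rw [← Nat.card_eq_fintype_card, hn]
    intro h
    exact hqp ((Nat.prime_dvd_prime_iff_eq Fact.out Fact.out).mp
      ((Fact.out : q.Prime).dvd_of_dvd_pow h))
  obtain ⟨u, hu⟩ := Equiv.Perm.exists_fixed_point_of_prime hcard hσ1
  refine ⟨u, u.2, ?_⟩
  have h1 := congrArg Subtype.val hu
  rw [hσ, hf] at h1
  calc c * (b * u) * d = b * (b⁻¹ * c * (b * (u : Γ)) * d) := by group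
    _ = b * u := by rw [h1]

/-- The image of a "norm" product under an additive map compatible with conjugation. -/
theorem iota_normProd {Γ : Type*} [Group Γ] (P₁ : Subgroup Γ) [hP₁n : P₁.Normal]
    {R V : Type*} [Semiring R] [AddCommGroup V] [Module R V]
    (θ : (Γ ⧸ P₁) →* Module.End R V) (ι : Γ → V) (hι1 : ι 1 = 0)
    (hιmul : ∀ a ∈ P₁, ∀ b ∈ P₁, ι (a * b) = ι a + ι b)
    (hιconj : ∀ g, ∀ u ∈ P₁, θ (QuotientGroup.mk' P₁ g) (ι u) = ι (g * u * g⁻¹))
    (b u : Γ) (hu : u ∈ P₁) :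
    ∀ k, normProd b u k ∈ P₁ ∧
      ι (normProd b u k) =
        (∑ i ∈ Finset.range k, θ (QuotientGroup.mk' P₁ b) ^ i) (ι u) := by
  intro k
  induction k with
  | zero =>
    refine ⟨P₁.one_mem, ?_⟩
    rw [Finset.sum_range_zero, LinearMap.zero_apply]
    exact hι1
  | succ k ih =>
    have h1 : b ^ k * u * (b ^ k)⁻¹ ∈ P₁ := hP₁n.conj_mem u hu _
    refine ⟨P₁.mul_mem ih.1 h1, ?_⟩
    have h2 : normProd b u (k + 1) = normProd b u k * (b ^ k * u * (b ^ k)⁻¹) := rfl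
    rw [h2, hιmul _ ih.1 _ h1, ih.2, Finset.sum_range_succ, LinearMap.add_apply,
      ← hιconj (b ^ k) u hu, map_pow, map_pow]

theorem geom_sum_eq_zero_of_sq {p : ℕ} [Fact p.Prime] (hp2 : p ≠ 2) {V : Type*} [AddCommGroup V]
    [Module (ZMod p) V] (T : Module.End (ZMod p) V) (h : (T - 1) * (T - 1) = 0) :
    ∑ i ∈ Finset.range p, T ^ i = 0 := by
  have hp : p.Prime := Fact.out
  have h1 := geom_sum_eq_sub_one_pow (K := ZMod p) p 1 T
  rw [pow_one] at h1
  rw [h1]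
  have hp3 : 2 ≤ p := hp.two_le
  have h2 : p - 1 = 2 + (p - 3) := by omega
  rw [h2, pow_add, pow_two, h, zero_mul]

/-- Linear algebra in characteristic 2: an involution `T` with `(T - 1) V ⊆ {0, v₁}` inverting an
element `Y` with `Y ^ 4 ≠ 1` generates with `Y` a copy of `S₃` acting on `⟨v₁, Y v₁⟩`. -/
theorem la_two {R V : Type*} [Ring R] [AddCommGroup V] [Module R V] (hV : ∀ v : V, v + v = 0)
    (T Y : Module.End R V) (v₁ : V) (hT : ∀ v, T v = v ∨ T v = v + v₁) (hT1 : T v₁ = v₁)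
    (hYTY : Y * T * Y = T) (hYinj : ∀ v, Y v = 0 → v = 0) (hv₁ : v₁ ≠ 0) (hY4 : Y ^ 4 ≠ 1) :
    Y ^ 6 = 1 ∧ Y v₁ ≠ 0 ∧ Y v₁ ≠ v₁ ∧ Y (Y v₁) = v₁ + Y v₁ ∧ T (Y v₁) = v₁ + Y v₁ := by
  have key : ∀ v, Y (T (Y v)) = T v := fun v => congrArg (fun f : Module.End R V => f v) hYTY
  obtain ⟨v₂, hv₂⟩ : ∃ v₂, v₂ = Y v₁ := ⟨_, rfl⟩
  rw [← hv₂]
  have hY2 : ∀ v, ∃ u, (u = 0 ∨ u = v₁ ∨ u = v₂ ∨ u = v₁ + v₂) ∧ Y (Y v) = v + u := by
    intro v
    have h1 := key v
    rcases hT (Y v) with h2 | h2 <;> rcases hT v with h3 | h3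
    · refine ⟨0, Or.inl rfl, ?_⟩
      rw [h2, h3] at h1; rw [h1, add_zero]
    · refine ⟨v₁, Or.inr (Or.inl rfl), ?_⟩
      rw [h2, h3] at h1; exact h1
    · refine ⟨v₂, Or.inr (Or.inr (Or.inl rfl)), ?_⟩
      rw [h2, h3, map_add, ← hv₂] at h1
      linear_combination (norm := module) h1 - hV v₂
    · refine ⟨v₁ + v₂, Or.inr (Or.inr (Or.inr rfl)), ?_⟩
      rw [h2, h3, map_add, ← hv₂] at h1
      linear_combination (norm := module) h1 - hV v₂
  have h1 := key v₁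
  rw [← hv₂, hT1] at h1
  rcases hT v₂ with h2 | h2
  · exfalso
    rw [h2] at h1
    apply hY4
    apply LinearMap.ext; intro v
    obtain ⟨u, hu, huv⟩ := hY2 v
    have hu2 : Y (Y u) = u := by
      rcases hu with hu | hu | hu | hu
      · rw [hu]; simp
      · rw [hu, ← hv₂, h1]
      · rw [hu, h1, ← hv₂]
      · rw [hu]; simp only [map_add, ← hv₂, h1]
    have e4 : Y (Y (Y (Y v))) = v := by
      rw [huv, map_add, map_add, huv, hu2]
      linear_combination (norm := module) hV u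
    rw [Module.End.pow_apply]
    exact e4
  · rw [h2, map_add, ← hv₂] at h1
    have hYv₂ : Y v₂ = v₁ + v₂ := by linear_combination (norm := module) h1 - hV v₂
    have hv₂0 : v₂ ≠ 0 := by
      intro h0; rw [hv₂] at h0; exact hv₁ (hYinj v₁ h0)
    have hv₂1 : v₂ ≠ v₁ := by
      intro h
      rw [h] at hYv₂ hv₂
      apply hv₁
      apply hYinj
      rw [hYv₂]; exact hV v₁
    refine ⟨?_, hv₂0, hv₂1, hYv₂, ?_⟩
    · apply LinearMap.ext; intro v
      obtain ⟨u, hu, huv⟩ := hY2 v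
      have hu2 : Y (Y u) = u + Y u := by
        rcases hu with hu | hu | hu | hu
        · rw [hu]; simp
        · rw [hu, ← hv₂, hYv₂]
        · rw [hu, hYv₂, map_add, ← hv₂, hYv₂]
        · rw [hu]; simp only [map_add, ← hv₂, hYv₂]
      have e4 : Y (Y (Y (Y v))) = v + Y u := by
        rw [huv, map_add, map_add, huv, hu2]
        linear_combination (norm := module) hV u
      have e3 : Y (Y (Y u)) = u := by
        rw [hu2, map_add, hu2]
        linear_combination (norm := module) hV (Y u)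
      have e6 : Y (Y (Y (Y (Y (Y v))))) = v := by
        rw [e4, map_add, map_add, huv, e3]
        linear_combination (norm := module) hV u
      rw [Module.End.pow_apply]
      exact e6
    · rw [h2, add_comm]

/-- Recognition of a section isomorphic to `S₄`: a four-group `{1, w₁, w₂, w₁ w₂}`, an element
`y` of order 3 permuting its involutions cyclically and an element `g` inverting `y` and
normalising the four-group. -/
theorem involves_S4_of_elements {E : Type*} [Group E] [Finite E] (w₁ w₂ y g : E)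
    (h1 : w₁ ≠ 1) (h2 : w₂ ≠ 1) (h12 : w₁ ≠ w₂) (hw₁ : w₁ * w₁ = 1) (hw₂ : w₂ * w₂ = 1)
    (hc : w₁ * w₂ = w₂ * w₁) (hy : y ^ 3 = 1) (hy1 : y * w₁ * y⁻¹ = w₂)
    (hy2 : y * w₂ * y⁻¹ = w₁ * w₂) (hg1 : g * w₁ * g⁻¹ = w₁) (hg2 : g * w₂ * g⁻¹ = w₁ * w₂)
    (hg : g * y * g⁻¹ = y⁻¹) : Involves (Equiv.Perm (Fin 4)) E := by
  have e1 : w₁ * (w₁ * w₂) = w₂ := by rw [← mul_assoc, hw₁, one_mul]
  have e2 : w₂ * (w₁ * w₂) = w₁ := by rw [hc, ← mul_assoc, hw₂, one_mul]
  have e3 : (w₁ * w₂) * w₁ = w₂ := by rw [hc, mul_assoc, hw₁, mul_one]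
  have e4 : (w₁ * w₂) * w₂ = w₁ := by rw [mul_assoc, hw₂, mul_one]
  have e5 : (w₁ * w₂) * (w₁ * w₂) = 1 := by rw [mul_assoc, e2, hw₁]
  have e6 : w₂ * w₁ = w₁ * w₂ := hc.symm
  have i1 : w₁⁻¹ = w₁ := inv_eq_of_mul_eq_one_right hw₁
  have i2 : w₂⁻¹ = w₂ := inv_eq_of_mul_eq_one_right hw₂
  have i3 : (w₁ * w₂)⁻¹ = w₁ * w₂ := inv_eq_of_mul_eq_one_right e5
  have n1 : w₁ * w₂ ≠ 1 := by
    intro h
    apply h12
    have := inv_eq_of_mul_eq_one_right h
    rw [i1] at this; exact this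
  have n2 : w₁ * w₂ ≠ w₁ := by
    intro h; apply h2
    have := congrArg (fun x => w₁ * x) h
    simp only [e1, hw₁] at this; exact this
  have n3 : w₁ * w₂ ≠ w₂ := by
    intro h; apply h1
    have := congrArg (fun x => x * w₂) h
    simp only [e4, hw₂] at this; exact this
  obtain ⟨W, hW⟩ : ∃ W : Subgroup E, ∀ x, x ∈ W ↔ (x = 1 ∨ x = w₁ ∨ x = w₂ ∨ x = w₁ * w₂) := by
    refine ⟨{ carrier := {x | x = 1 ∨ x = w₁ ∨ x = w₂ ∨ x = w₁ * w₂}
              mul_mem' := ?_, one_mem' := Or.inl rfl, inv_mem' := ?_ }, fun x => Iff.rfl⟩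
    · intro a b ha hb
      simp only [Set.mem_ofPred_eq] at ha hb ⊢
      rcases ha with ha | ha | ha | ha <;> rcases hb with hb | hb | hb | hb <;> rw [ha, hb] <;>
        simp [e1, e2, e3, e4, e5, e6, hw₁, hw₂]
    · intro a ha
      simp only [Set.mem_ofPred_eq] at ha ⊢
      rcases ha with ha | ha | ha | ha <;> rw [ha] <;> simp [i1, i2, i3]
  have hcard : Nat.card W = 4 := by
    have hset : (W : Set E) = {1, w₁, w₂, w₁ * w₂} := by
      ext x
      simp only [SetLike.mem_coe, hW, Set.mem_insert_iff, Set.mem_singleton_iff]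
    have h3 : Nat.card W = (W : Set E).ncard := (Nat.card_coe_set_eq (W : Set E))
    rw [h3, hset, Set.ncard_insert_of_notMem, Set.ncard_insert_of_notMem, Set.ncard_pair]
    · exact fun h => n3 h.symm
    · simp only [Set.mem_insert_iff, Set.mem_singleton_iff, not_or]
      exact ⟨h12, fun h => n2 h.symm⟩
    · simp only [Set.mem_insert_iff, Set.mem_singleton_iff, not_or]
      exact ⟨fun h => h1 h.symm, fun h => h2 h.symm, fun h => n1 h.symm⟩
  have hy3 : y * (w₁ * w₂) * y⁻¹ = w₁ := by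
    rw [show y * (w₁ * w₂) * y⁻¹ = (y * w₁ * y⁻¹) * (y * w₂ * y⁻¹) by group, hy1, hy2, e2]
  have hg3 : g * (w₁ * w₂) * g⁻¹ = w₂ := by
    rw [show g * (w₁ * w₂) * g⁻¹ = (g * w₁ * g⁻¹) * (g * w₂ * g⁻¹) by group, hg1, hg2, e1]
  apply H52.involves_S4_of_data W y g hcard hy
  · intro w hw
    rw [hW] at hw ⊢
    rcases hw with hw | hw | hw | hw
    · left; rw [hw]; simp
    · right; right; left; rw [hw, hy1]
    · right; right; right; rw [hw, hy2]
    · right; left; rw [hw, hy3]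
  · intro w hw
    rw [hW] at hw ⊢
    rcases hw with hw | hw | hw | hw
    · left; rw [hw]; simp
    · right; left; rw [hw, hg1]
    · right; right; right; rw [hw, hg2]
    · right; right; left; rw [hw, hg3]
  · exact hg
  · intro w hw hfix
    rw [hW] at hw
    rcases hw with hw | hw | hw | hw
    · exact hw
    · exfalso; rw [hw, hy1] at hfix; exact h12 hfix.symm
    · exfalso; rw [hw, hy2] at hfix; exact n3 hfix
    · exfalso; rw [hw, hy3] at hfix; exact n2 hfix.symm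

end Cfsg.Agent.H66
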