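import Cfsg.Agent.H66.Fpf4Core
import Cfsg.Agent.H11.Cores
import Cfsg.Agent.H12.HallSystem
import Cfsg.Agent.H80.SolvPSolv

/-!
# Fixed-point-free automorphisms of order dividing 4

* `fpf4_quot_pCore_comm`: a finite solvable group `Γ` of odd order with `O_{p'}(Γ) = 1` and a
  fixed-point-free automorphism `φ` with `φ⁴ = 1` has `Γ / O_p(Γ)` abelian.
* `fpf4_commutator_le`: hence `G' ≤ O_{q',q}(G)` for every odd prime `q`.
* `isNilpotent_of_le_pPrimePCore`: a subgroup contained in `O_{q',q}(G)` for all primes `q` is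
  nilpotent.
-/

set_option autoImplicit false
set_option linter.style.haveILetI false
set_option linter.unusedVariables false
set_option linter.unusedSectionVars false

namespace Cfsg.Agent.H66

open Cfsg
open scoped commutatorElement

universe u

/-- If `σ` has no nontrivial fixed point in the finite `σ`-invariant subgroup `N`, every element
of `N` has the form `h⁻¹ σ(h)` with `h ∈ N`. -/
theorem exists_inv_mul_map {G : Type*} [Group G] (σ : MulAut G) (N : Subgroup G) [Finite N]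
    (hN : ∀ x ∈ N, σ x ∈ N) (hfix : ∀ g ∈ N, σ g = g → g = 1) (x : G) (hx : x ∈ N) :
    ∃ h ∈ N, x = h⁻¹ * σ h := by
  obtain ⟨f, hf⟩ : ∃ f : ↥N → ↥N, ∀ h, (f h : G) = (h : G)⁻¹ * σ h :=
    ⟨fun h => ⟨(h : G)⁻¹ * σ h, N.mul_mem (N.inv_mem h.2) (hN _ h.2)⟩, fun h => rfl⟩
  have hfinj : Function.Injective f := by
    intro h k hhk
    have h1 := congrArg Subtype.val hhk
    rw [hf, hf] at h1
    have h2 : σ ((k : G) * (h : G)⁻¹) = (k : G) * (h : G)⁻¹ := by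
      rw [map_mul, map_inv]
      have h3 : σ (k : G) = (k : G) * ((h : G)⁻¹ * σ (h : G)) := by rw [h1]; group
      rw [h3]; group
    have h3 := hfix _ (N.mul_mem k.2 (N.inv_mem h.2)) h2
    apply Subtype.ext
    exact (mul_inv_eq_one.mp h3).symm
  have hfsurj := (Finite.injective_iff_bijective.mp hfinj).2
  obtain ⟨h, hh⟩ := hfsurj ⟨x, hx⟩
  refine ⟨h, h.2, ?_⟩
  have h1 := congrArg Subtype.val hh
  rw [hf] at h1
  exact h1.symm

/-- A fixed-point-free automorphism stays fixed-point-free modulo an invariant finite subgroup. -/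
theorem fpf_quotient {G : Type*} [Group G] (σ : MulAut G) (N : Subgroup G) [Finite N]
    (hN : ∀ x ∈ N, σ x ∈ N) (hfix : ∀ g, σ g = g → g = 1) (g : G) (hg : g⁻¹ * σ g ∈ N) :
    g ∈ N := by
  obtain ⟨n, hn, hgn⟩ := exists_inv_mul_map σ N hN (fun g _ => hfix g) _ hg
  have h1 : σ (g * n⁻¹) = g * n⁻¹ := by
    rw [map_mul, map_inv]
    have h2 : σ g = g * (n⁻¹ * σ n) := by rw [← hgn]; group
    rw [h2]; group
  have h3 := hfix _ h1
  rw [mul_inv_eq_one] at h3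
  rw [h3]; exact hn

theorem eq_one_of_mul_self_of_odd {H : Type*} [Group H] [Finite H] (hodd : Odd (Nat.card H))
    (c : H) (hc : c * c = 1) : c = 1 := by
  have h1 : orderOf c ∣ 2 := orderOf_dvd_of_pow_eq_one (by rw [pow_two]; exact hc)
  have h2 : orderOf c ∣ Nat.card H := orderOf_dvd_natCard c
  have h3 : Odd (orderOf c) := hodd.of_dvd_nat h2
  have h4 : orderOf c = 1 := by
    rcases (Nat.dvd_prime Nat.prime_two).mp h1 with h | h
    · exact h
    · rw [h] at h3; exact absurd h3 (by decide)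
  exact orderOf_eq_one_iff.mp h4

set_option maxHeartbeats 1600000 in
theorem fpf4_quot_pCore_comm {Γ : Type u} [Group Γ] [Finite Γ] {p : ℕ} [Fact p.Prime]
    (hp2 : p ≠ 2) (hodd : Odd (Nat.card Γ)) [Group.IsSolvable Γ] (hO : pPrimeCore p Γ = ⊥)
    (φ : MulAut Γ) (hφ4 : ∀ g, φ (φ (φ (φ g))) = g) (hφfix : ∀ g, φ g = g → g = 1) :
    ∀ a b : Γ, a * b * a⁻¹ * b⁻¹ ∈ pCore p Γ := by
  classical
  have hp : p.Prime := Fact.out
  have hsol : IsPSolvable p Γ := H80.isPSolvable_of_isSolvable p (Nat.card Γ) Γ rfl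
  obtain ⟨P₁, hP₁⟩ : ∃ P₁ : Subgroup Γ, P₁ = pCore p Γ := ⟨_, rfl⟩
  rw [← hP₁]
  haveI hP₁n : P₁.Normal := by rw [hP₁]; infer_instance
  have hP₁p : IsPGroup p P₁ := by rw [hP₁]; exact H14.pCore_isPGroup p Γ
  have hP₁char : P₁.Characteristic := by rw [hP₁]; exact H11.pCore_characteristic p
  have hφP : ∀ x, x ∈ P₁ ↔ φ x ∈ P₁ := by
    intro x
    have h2 : x ∈ P₁.comap φ.toMonoidHom ↔ x ∈ P₁ := by rw [hP₁char.fixed φ]
    exact ⟨fun hx => h2.mpr hx, fun hx => h2.mp hx⟩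
  obtain ⟨Φ, hΦ⟩ : ∃ Φ : Subgroup Γ, Φ = (frattini ↥P₁).map P₁.subtype := ⟨_, rfl⟩
  haveI hΦn : Φ.Normal := by
    rw [hΦ]
    apply Subgroup.normalizer_eq_top_iff.mp
    rw [eq_top_iff]
    refine le_trans ?_ (H1.normalizer_le_normalizer_map_of_characteristic P₁ (frattini ↥P₁))
    rw [Subgroup.normalizer_eq_top_iff.mpr hP₁n]
  obtain ⟨ψ, hψ⟩ : ∃ ψ : ↥P₁ ≃* ↥P₁, ∀ y : ↥P₁, ((ψ y : ↥P₁) : Γ) = φ y := by
    refine ⟨{ toFun := fun y => ⟨φ y, (hφP y).mp y.2⟩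
              invFun := fun y => ⟨φ.symm y,
                (hφP _).mpr (by rw [MulEquiv.apply_symm_apply]; exact y.2)⟩
              left_inv := fun y => Subtype.ext (by simp)
              right_inv := fun y => Subtype.ext (by simp)
              map_mul' := fun y z => Subtype.ext (by simp) }, fun y => rfl⟩
  have hΦφ : ∀ x ∈ Φ, φ x ∈ Φ := by
    intro x hx
    rw [hΦ] at hx ⊢
    obtain ⟨y, hy, rfl⟩ := hx
    refine ⟨ψ y, ?_, hψ y⟩
    have h2 : y ∈ (frattini ↥P₁).comap ψ.toMonoidHom ↔ y ∈ frattini ↥P₁ := by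
      rw [(frattini_characteristic (G := ↥P₁)).fixed ψ]
    exact h2.mpr hy
  obtain ⟨V, iV1, iV2, θ, ι, hθinj, hιsurj, hιmul, hιzpow, hιconj, hιeq, hVp⟩ :=
    exists_faithful_zmod_rep hsol hO P₁ hP₁ Φ hΦ
  have hι1 : ι 1 = 0 := by
    have := hιzpow 1 P₁.one_mem 0
    rwa [zpow_zero, zero_smul] at this
  have hmapP : P₁.map (φ : Γ →* Γ) = P₁ := by
    apply le_antisymm
    · rintro _ ⟨x, hx, rfl⟩; exact (hφP x).mp hx
    · intro x hx
      refine ⟨φ.symm x, (hφP _).mpr (by rw [MulEquiv.apply_symm_apply]; exact hx), ?_⟩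
      exact MulEquiv.apply_symm_apply φ x
  obtain ⟨σ, hσ⟩ : ∃ σ : MulAut (Γ ⧸ P₁),
      ∀ g, σ (QuotientGroup.mk' P₁ g) = QuotientGroup.mk' P₁ (φ g) :=
    ⟨QuotientGroup.congr P₁ P₁ φ hmapP, fun g => rfl⟩
  have hσ4 : ∀ h, σ (σ (σ (σ h))) = h := by
    intro h
    obtain ⟨g, rfl⟩ := QuotientGroup.mk'_surjective P₁ h
    rw [hσ, hσ, hσ, hσ, hφ4]
  have hσfix : ∀ h, σ h = h → h = 1 := by
    intro h hh
    obtain ⟨g, rfl⟩ := QuotientGroup.mk'_surjective P₁ h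
    rw [hσ] at hh
    have h1 : (φ g)⁻¹ * g ∈ P₁ := QuotientGroup.eq.mp hh
    have h2 : g⁻¹ * φ g ∈ P₁ := by
      have := P₁.inv_mem h1
      rwa [mul_inv_rev, inv_inv] at this
    have h3 := fpf_quotient φ P₁ (fun x hx => (hφP x).mp hx) hφfix g h2
    exact (QuotientGroup.eq_one_iff g).mpr h3
  have hιwd : ∀ u ∈ P₁, ∀ u' ∈ P₁, ι u = ι u' → ι (φ u) = ι (φ u') := by
    intro u hu u' hu' h
    rw [hιeq _ ((hφP u).mp hu) _ ((hφP u').mp hu')]
    have h1 := (hιeq u hu u' hu').mp h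
    have h2 : u⁻¹ * u' ∈ Φ := QuotientGroup.eq.mp h1
    have h3 := hΦφ _ h2
    rw [map_mul, map_inv] at h3
    exact QuotientGroup.eq.mpr h3
  obtain ⟨S₀, hS₀⟩ : ∃ S₀ : V → V, ∀ u ∈ P₁, S₀ (ι u) = ι (φ u) := by
    refine ⟨fun v => ι (φ (Classical.choose (hιsurj v))), ?_⟩
    intro u hu
    have h1 := Classical.choose_spec (hιsurj (ι u))
    exact hιwd _ h1.1 _ hu h1.2
  have hS₀add : ∀ v w, S₀ (v + w) = S₀ v + S₀ w := by
    intro v w
    obtain ⟨u, hu, rfl⟩ := hιsurj v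
    obtain ⟨u', hu', rfl⟩ := hιsurj w
    rw [← hιmul u hu u' hu', hS₀ _ (P₁.mul_mem hu hu'), hS₀ u hu, hS₀ u' hu', map_mul,
      hιmul _ ((hφP u).mp hu) _ ((hφP u').mp hu')]
  obtain ⟨S, hS⟩ : ∃ S : Module.End (ZMod p) V, ∀ v, S v = S₀ v :=
    ⟨(AddMonoidHom.mk' S₀ hS₀add).toZModLinearMap p, fun v => rfl⟩
  have hSι : ∀ u ∈ P₁, S (ι u) = ι (φ u) := fun u hu => by rw [hS, hS₀ u hu]
  have hS4 : ∀ v, S (S (S (S v))) = v := by
    intro v
    obtain ⟨u, hu, rfl⟩ := hιsurj v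
    have h1 := (hφP u).mp hu
    have h2 := (hφP _).mp h1
    have h3 := (hφP _).mp h2
    rw [hSι u hu, hSι _ h1, hSι _ h2, hSι _ h3, hφ4]
  have hSfix : ∀ v, S v = v → v = 0 := by
    intro v hv
    obtain ⟨u, hu, rfl⟩ := hιsurj v
    rw [hSι u hu] at hv
    have h1 := (hιeq _ ((hφP u).mp hu) u hu).mp hv
    have h2 : (φ u)⁻¹ * u ∈ Φ := QuotientGroup.eq.mp h1
    have h3 : u⁻¹ * φ u ∈ Φ := by
      have := Φ.inv_mem h2
      rwa [mul_inv_rev, inv_inv] at this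
    have h4 := fpf_quotient φ Φ hΦφ hφfix u h3
    rw [← hι1]
    apply (hιeq u hu 1 P₁.one_mem).mpr
    rw [map_one]
    exact (QuotientGroup.eq_one_iff u).mpr h4
  have hSθ : ∀ h v, S (θ h v) = θ (σ h) (S v) := by
    intro h v
    obtain ⟨g, rfl⟩ := QuotientGroup.mk'_surjective P₁ h
    obtain ⟨u, hu, rfl⟩ := hιsurj v
    rw [hιconj g u hu, hSι _ (hP₁n.conj_mem u hu g), hσ, hSι u hu,
      hιconj _ _ ((hφP u).mp hu), map_mul, map_mul, map_inv]
  have hoddH : Odd (Nat.card (Γ ⧸ P₁)) := hodd.of_dvd_nat (Subgroup.card_quotient_dvd_card P₁)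
  have hsolH : IsPSolvable p (Γ ⧸ P₁) := H80.isPSolvable_quotient p P₁ hsol
  have hOpH : pCore p (Γ ⧸ P₁) = ⊥ := by
    subst hP₁
    exact pCore_quotient_pCore_bot p
  obtain ⟨M, hM⟩ : ∃ M : Subgroup (Γ ⧸ P₁), M = pPrimeCore p (Γ ⧸ P₁) := ⟨_, rfl⟩
  haveI hMn : M.Normal := by rw [hM]; infer_instance
  have hMchar : M.Characteristic := by rw [hM]; exact H11.pPrimeCore_characteristic p
  have hMσ : ∀ x ∈ M, σ x ∈ M := by
    intro x hx
    have h2 : x ∈ M.comap σ.toMonoidHom ↔ x ∈ M := by rw [hMchar.fixed σ]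
    exact h2.mpr hx
  have hMp : (Nat.card M).Coprime p := by rw [hM]; exact H14.pPrimeCore_coprime p _
  have hτM := fpf4_sq_centralizes hp2 hoddH θ hθinj σ hσ4 hσfix S hS4 hSfix hSθ M hMσ hMp
  have hcent : Subgroup.centralizer (M : Set (Γ ⧸ P₁)) ≤ M := by
    rw [hM]; exact centralizer_pPrimeCore_le p hsolH hOpH
  have hτH : ∀ h : Γ ⧸ P₁, σ (σ h) = h := by
    intro h
    have h1 : h⁻¹ * σ (σ h) ∈ Subgroup.centralizer (M : Set (Γ ⧸ P₁)) := by
      rw [Subgroup.mem_centralizer_iff]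
      intro m hm
      have h2 : h * m * h⁻¹ ∈ M := hMn.conj_mem m hm h
      have h3 := hτM _ h2
      simp only [map_mul, map_inv] at h3
      rw [hτM m hm] at h3
      calc m * (h⁻¹ * σ (σ h)) = h⁻¹ * (h * m * h⁻¹) * σ (σ h) := by group
        _ = h⁻¹ * (σ (σ h) * m * (σ (σ h))⁻¹) * σ (σ h) := by rw [h3]
        _ = h⁻¹ * σ (σ h) * m := by group
    have h4 := hτM _ (hcent h1)
    simp only [map_mul, map_inv, hσ4] at h4
    have h5 : (h⁻¹ * σ (σ h)) * (h⁻¹ * σ (σ h)) = 1 := by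
      nth_rewrite 1 [← h4]
      group
    exact (inv_mul_eq_one.mp (eq_one_of_mul_self_of_odd hoddH _ h5)).symm
  have hσinv : ∀ x : Γ ⧸ P₁, σ x = x⁻¹ := by
    intro x
    obtain ⟨h, -, rfl⟩ := exists_inv_mul_map σ ⊤ (fun x _ => Subgroup.mem_top _)
      (fun g _ => hσfix g) x (Subgroup.mem_top x)
    rw [map_mul, map_inv, hτH]
    group
  have hab : ∀ x y : Γ ⧸ P₁, x * y = y * x := by
    intro x y
    have h1 := hσinv (x * y)
    rw [map_mul, hσinv x, hσinv y, mul_inv_rev] at h1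
    have h2 := congrArg (fun t => t⁻¹) h1
    simp only [mul_inv_rev, inv_inv] at h2
    exact h2.symm
  intro a b
  apply (QuotientGroup.eq_one_iff (N := P₁) _).mp
  show QuotientGroup.mk' P₁ (a * b * a⁻¹ * b⁻¹) = 1
  rw [map_mul, map_mul, map_mul, map_inv, map_inv, hab (QuotientGroup.mk' P₁ a),
    mul_inv_cancel_right, mul_inv_cancel]

theorem fpf4_commutator_le {G : Type u} [Group G] [Finite G] [Group.IsSolvable G]
    (hodd : Odd (Nat.card G)) (σ : MulAut G) (hσ4 : ∀ g, σ (σ (σ (σ g))) = g)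
    (hfpf : ∀ g, σ g = g → g = 1) {q : ℕ} [Fact q.Prime] (hq2 : q ≠ 2) :
    commutator G ≤ pPrimePCore q G := by
  have hNchar : (pPrimeCore q G).Characteristic := H11.pPrimeCore_characteristic q
  have hσN : ∀ x, x ∈ pPrimeCore q G ↔ σ x ∈ pPrimeCore q G := by
    intro x
    have h2 : x ∈ (pPrimeCore q G).comap σ.toMonoidHom ↔ x ∈ pPrimeCore q G := by
      rw [hNchar.fixed σ]
    exact ⟨fun hx => h2.mpr hx, fun hx => h2.mp hx⟩
  have hmap : (pPrimeCore q G).map (σ : G →* G) = pPrimeCore q G := by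
    apply le_antisymm
    · rintro _ ⟨x, hx, rfl⟩; exact (hσN x).mp hx
    · intro x hx
      refine ⟨σ.symm x, (hσN _).mpr (by rw [MulEquiv.apply_symm_apply]; exact hx), ?_⟩
      exact MulEquiv.apply_symm_apply σ x
  obtain ⟨φ, hφ⟩ : ∃ φ : MulAut (G ⧸ pPrimeCore q G),
      ∀ g, φ (QuotientGroup.mk' (pPrimeCore q G) g) = QuotientGroup.mk' (pPrimeCore q G) (σ g) :=
    ⟨QuotientGroup.congr (pPrimeCore q G) (pPrimeCore q G) σ hmap, fun g => rfl⟩
  have hφ4 : ∀ h, φ (φ (φ (φ h))) = h := by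
    intro h
    obtain ⟨g, rfl⟩ := QuotientGroup.mk'_surjective (pPrimeCore q G) h
    rw [hφ, hφ, hφ, hφ, hσ4]
  have hφfix : ∀ h, φ h = h → h = 1 := by
    intro h hh
    obtain ⟨g, rfl⟩ := QuotientGroup.mk'_surjective (pPrimeCore q G) h
    rw [hφ] at hh
    have h1 : (σ g)⁻¹ * g ∈ pPrimeCore q G := QuotientGroup.eq.mp hh
    have h2 : g⁻¹ * σ g ∈ pPrimeCore q G := by
      have := (pPrimeCore q G).inv_mem h1
      rwa [mul_inv_rev, inv_inv] at this
    have h3 := fpf_quotient σ (pPrimeCore q G) (fun x hx => (hσN x).mp hx) hfpf g h2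
    exact (QuotientGroup.eq_one_iff g).mpr h3
  have hoddΓ : Odd (Nat.card (G ⧸ pPrimeCore q G)) :=
    hodd.of_dvd_nat (Subgroup.card_quotient_dvd_card _)
  have key := fpf4_quot_pCore_comm hq2 hoddΓ (H14.pPrimeCore_quotient_eq_bot q G) φ hφ4 hφfix
  rw [commutator_def, Subgroup.commutator_le]
  intro g₁ _ g₂ _
  show QuotientGroup.mk' (pPrimeCore q G) ⁅g₁, g₂⁆ ∈ pCore q (G ⧸ pPrimeCore q G)
  rw [commutatorElement_def, map_mul, map_mul, map_mul, map_inv, map_inv]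
  exact key _ _

theorem pPrimePCore_eq_top_of_coprime {G : Type*} [Group G] [Finite G] (q : ℕ) [Fact q.Prime]
    (h : (Nat.card G).Coprime q) : pPrimePCore q G = ⊤ := by
  have h1 : pPrimeCore q G = ⊤ := by
    rw [eq_top_iff]
    apply H14.le_pPrimeCore inferInstance
    rw [Subgroup.card_top]; exact h
  rw [eq_top_iff]
  intro x _
  show QuotientGroup.mk' (pPrimeCore q G) x ∈ pCore q (G ⧸ pPrimeCore q G)
  have h2 : QuotientGroup.mk' (pPrimeCore q G) x = 1 :=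
    (QuotientGroup.eq_one_iff x).mpr (by rw [h1]; exact Subgroup.mem_top x)
  rw [h2]; exact Subgroup.one_mem _

/-- A subgroup contained in `O_{q',q}(G)` for every prime `q` is nilpotent. -/
theorem isNilpotent_of_le_pPrimePCore {G : Type*} [Group G] [Finite G] (K : Subgroup G)
    (h : ∀ q : ℕ, q.Prime → K ≤ pPrimePCore q G) : Group.IsNilpotent K := by
  apply H12.isNilpotent_of_normal_complements (H := ↥K)
    (fun q => (pPrimeCore (q : ℕ) G).subgroupOf K)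
  · intro q
    exact Subgroup.Normal.subgroupOf inferInstance K
  · intro q
    haveI : Fact (q : ℕ).Prime := ⟨q.2⟩
    have hpg : IsPGroup (q : ℕ) (↥K ⧸ (pPrimeCore (q : ℕ) G).subgroupOf K) := by
      intro x
      obtain ⟨y, rfl⟩ := QuotientGroup.mk'_surjective _ x
      have h2 : QuotientGroup.mk' (pPrimeCore (q : ℕ) G) (y : G) ∈
          pCore (q : ℕ) (G ⧸ pPrimeCore (q : ℕ) G) := h q q.2 y.2
      obtain ⟨k, hk⟩ := (H14.pCore_isPGroup (q : ℕ) (G ⧸ pPrimeCore (q : ℕ) G)) ⟨_, h2⟩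
      refine ⟨k, ?_⟩
      rw [← map_pow]
      apply (QuotientGroup.eq_one_iff _).mpr
      rw [Subgroup.mem_subgroupOf]
      apply (QuotientGroup.eq_one_iff (N := pPrimeCore (q : ℕ) G) _).mp
      have h3 := congrArg Subtype.val hk
      rw [Subgroup.coe_pow, Subgroup.coe_one] at h3
      rw [Subgroup.coe_pow]
      show QuotientGroup.mk' (pPrimeCore (q : ℕ) G) ((y : G) ^ (q : ℕ) ^ k) = 1
      rw [map_pow]; exact h3
    obtain ⟨j, hj⟩ := IsPGroup.iff_card.mp hpg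
    exact ⟨j, by rw [Subgroup.index_eq_card]; exact hj⟩
  · intro q
    have h1 : Nat.card ((pPrimeCore (q : ℕ) G).subgroupOf K) ∣ Nat.card (pPrimeCore (q : ℕ) G) :=
      Subgroup.card_comap_dvd_of_injective (pPrimeCore (q : ℕ) G) K.subtype K.subtype_injective
    exact Nat.Coprime.coprime_dvd_left h1 (H14.pPrimeCore_coprime (q : ℕ) G)

end Cfsg.Agent.H66
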