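import Mathlib
import Cfsg.Agent.H64.JzFinal
import Cfsg.Agent.H64.JyDefs

/-! JY-NJ (project JY = S2953, helper64): for `T = S` one has `N_G(J(S)) ≤ N_G(S)`
(S2951 gives `Ω₁Z(S) = Ω₁Z(J(S))`; then hZ for the Sylow subgroup `n S n⁻¹`). -/

set_option autoImplicit false
open Cfsg

namespace Cfsg.Agent.H66.Jy

open Cfsg.Agent.H64.Jz

universe u

variable {G : Type u} [Group G]

theorem omegaCenterOf_le_infY (X : Subgroup G) :
    omegaCenterOf X ≤ X ⊓ Subgroup.centralizer (X : Set G) := by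
  unfold omegaCenterOf omegaOne
  rw [Subgroup.closure_le]
  intro x hx
  exact hx.1

theorem mem_omegaCenterOfY {X : Subgroup G} {x : G} (hx : x ∈ X)
    (hc : x ∈ Subgroup.centralizer (X : Set G)) (h2 : x ^ 2 = 1) : x ∈ omegaCenterOf X := by
  unfold omegaCenterOf omegaOne
  exact Subgroup.subset_closure ⟨⟨hx, hc⟩, h2⟩

/-- conjugation by `n` maps `Ω₁Z(X)` into `Ω₁Z(Y)` when it maps `X` onto `Y` -/
theorem conj_mem_omegaCenterOfY {X Y : Subgroup G} {n : G}
    (hXY : ∀ x : G, x ∈ X ↔ n * x * n⁻¹ ∈ Y) :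
    ∀ y ∈ omegaCenterOf X, n * y * n⁻¹ ∈ omegaCenterOf Y := by
  intro y hy
  have hgen : ∀ x : G, (x ∈ X ⊓ Subgroup.centralizer (X : Set G) ∧ x ^ 2 = 1) →
      n * x * n⁻¹ ∈ omegaCenterOf Y := by
    intro x hx
    obtain ⟨⟨hxX, hxC⟩, hx2⟩ := hx
    refine mem_omegaCenterOfY ((hXY x).mp hxX) ?_ ?_
    · rw [Subgroup.mem_centralizer_iff]
      intro h hh
      have hh' : n⁻¹ * h * n ∈ X := by
        rw [hXY]
        have e : n * (n⁻¹ * h * n) * n⁻¹ = h := by group
        rw [e]; exact hh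
      have hc := (Subgroup.mem_centralizer_iff.mp hxC) (n⁻¹ * h * n) hh'
      have e1 : h * (n * x * n⁻¹) = n * ((n⁻¹ * h * n) * x) * n⁻¹ := by group
      have e2 : (n * x * n⁻¹) * h = n * (x * (n⁻¹ * h * n)) * n⁻¹ := by group
      rw [e1, e2, hc]
    · rw [conj_pow, hx2, mul_one, mul_inv_cancel]
  unfold omegaCenterOf omegaOne at hy
  induction hy using Subgroup.closure_induction with
  | mem x hx => exact hgen x hx
  | one =>
    have e : n * (1 : G) * n⁻¹ = 1 := by group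
    rw [e]; exact Subgroup.one_mem _
  | mul a b _ _ iha ihb =>
    have e : n * (a * b) * n⁻¹ = (n * a * n⁻¹) * (n * b * n⁻¹) := by group
    rw [e]; exact Subgroup.mul_mem _ iha ihb
  | inv a _ iha =>
    have e : n * a⁻¹ * n⁻¹ = (n * a * n⁻¹)⁻¹ := by group
    rw [e]; exact Subgroup.inv_mem _ iha

/-- abstract core: if `Ω₁Z(S) = Ω₁Z(J(S))` and hZ holds, then `N_G(J(S)) ≤ N_G(S)` -/
theorem nj_core [Finite G]
    (hZ : ∀ S : Sylow 2 G, Subgroup.centralizer (omegaCenterOf (S : Subgroup G) : Set G) ≤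
      Subgroup.normalizer ((S : Subgroup G) : Set G))
    (S : Sylow 2 G)
    (hZZ : omegaCenterOf (S : Subgroup G) = omegaCenterOf (thompsonSubgroupOf 2 (S : Subgroup G))) :
    Subgroup.normalizer (thompsonSubgroupOf 2 (S : Subgroup G) : Set G) ≤
      Subgroup.normalizer ((S : Subgroup G) : Set G) := by
  have : Fact (Nat.Prime 2) := ⟨Nat.prime_two⟩
  intro n hn
  -- n normalizes Ω₁Z(J(S))
  have hnZ₀ : ∀ y ∈ omegaCenterOf (thompsonSubgroupOf 2 (S : Subgroup G)),
      n * y * n⁻¹ ∈ omegaCenterOf (thompsonSubgroupOf 2 (S : Subgroup G)) :=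
    conj_mem_omegaCenterOfY (fun y => (Subgroup.mem_normalizer_iff.mp hn) y)
  -- the Sylow subgroup S' = n S n⁻¹
  have hmemS' : ∀ x : G, x ∈ ((n • S : Sylow 2 G) : Subgroup G) ↔
      n⁻¹ * x * n ∈ (S : Subgroup G) := by
    intro x
    rw [Sylow.coe_subgroup_smul, Subgroup.mem_pointwise_smul_iff_inv_smul_mem]
    simp [MulAut.smul_def, mul_assoc]
  -- Ω₁Z(S') ≤ Ω₁Z(J(S))
  have hle : omegaCenterOf ((n • S : Sylow 2 G) : Subgroup G) ≤
      omegaCenterOf (thompsonSubgroupOf 2 (S : Subgroup G)) := by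
    intro x hx
    have h1 : n⁻¹ * x * (n⁻¹)⁻¹ ∈ omegaCenterOf (S : Subgroup G) := by
      refine conj_mem_omegaCenterOfY (X := ((n • S : Sylow 2 G) : Subgroup G)) ?_ x hx
      intro y
      rw [hmemS']
      have e : n⁻¹ * (n⁻¹ * y * (n⁻¹)⁻¹) * n = n⁻¹ * (n⁻¹ * y * n) * n := by group
      constructor
      · intro h
        have e2 : n⁻¹ * y * (n⁻¹)⁻¹ = n⁻¹ * y * n := by group
        rw [e2]; exact h
      · intro h
        have e2 : n⁻¹ * y * (n⁻¹)⁻¹ = n⁻¹ * y * n := by group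
        rw [e2] at h; exact h
    rw [hZZ] at h1
    have h2 := hnZ₀ _ h1
    have e : n * (n⁻¹ * x * (n⁻¹)⁻¹) * n⁻¹ = x := by group
    rw [e] at h2
    exact h2
  -- S centralizes Ω₁Z(S'), hence normalizes S'
  have hSC : (S : Subgroup G) ≤
      Subgroup.centralizer (omegaCenterOf ((n • S : Sylow 2 G) : Subgroup G) : Set G) := by
    intro s hs
    rw [Subgroup.mem_centralizer_iff]
    intro h hh
    have hh' : h ∈ omegaCenterOf (S : Subgroup G) := by rw [hZZ]; exact hle hh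
    have hh'' := omegaCenterOf_le_infY _ hh'
    exact ((Subgroup.mem_centralizer_iff.mp hh''.2) s hs).symm
  have hSN : (S : Subgroup G) ≤ Subgroup.normalizer (((n • S : Sylow 2 G) : Subgroup G) : Set G) :=
    hSC.trans (hZ (n • S))
  -- so S ≤ S', hence S' = S
  have hfix : (n • S : Sylow 2 G) ∈ MulAction.fixedPoints (S : Subgroup G) (Sylow 2 G) :=
    (Subgroup.sylow_mem_fixedPoints_iff (S : Subgroup G)).mpr hSN
  have hSS' : (S : Subgroup G) ≤ ((n • S : Sylow 2 G) : Subgroup G) :=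
    (S.2.sylow_mem_fixedPoints_iff).mp hfix
  have heq : ((n • S : Sylow 2 G) : Subgroup G) = (S : Subgroup G) := S.3 (n • S).2 hSS'
  have heq' : n • S = S := Sylow.ext heq
  exact Sylow.smul_eq_iff_mem_normalizer.mp heq'

/-- `Ω₁Z(S) = Ω₁Z(J(S))` from the clauses of S2951 at `T = S` -/
theorem omega_eq_of_concl (S : Sylow 2 G) (L : Subgroup G)
    (h : Concl S (S : Subgroup G) L) :
    omegaCenterOf (S : Subgroup G) = omegaCenterOf (thompsonSubgroupOf 2 (S : Subgroup G)) := by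
  rcases h with h | h | h
  · exact h.1
  · exact h.1
  · exact h.1

/-- JY-NJ in explicit form -/
theorem nj_of_base [Finite G] (S : Sylow 2 G) (M K L : Subgroup G)
    (hB : Base S M (S : Subgroup G) K L) :
    Subgroup.normalizer (thompsonSubgroupOf 2 (S : Subgroup G) : Set G) ≤
      Subgroup.normalizer ((S : Subgroup G) : Set G) :=
  nj_core hB.1.2.2 S (omega_eq_of_concl S L (stMain S M (S : Subgroup G) K L hB))

/-- JY-NJ -/
theorem nj : Cfsg.Agent.H64.Jy.StNJ.{u} := by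
  intro G _ _ S M K L hB
  exact nj_of_base S M K L hB

example : Cfsg.Agent.H64.Jy.StNJ.{u} := nj

end Cfsg.Agent.H66.Jy
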