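import Mathlib

/-!
# Burnside's theorem on matrix algebras

A subalgebra of `End_K(V)` (`K` algebraically closed, `V` finite-dimensional, nonzero) with no
nontrivial invariant subspace is all of `End_K(V)`.  (Lomonosov–Rosenthal proof.)
-/

set_option autoImplicit false
set_option linter.style.haveILetI false

namespace Cfsg.Agent.H66

open Module

variable {K V : Type*} [Field K] [AddCommGroup V] [Module K V]

/-- An irreducible subalgebra acts transitively on nonzero vectors. -/
theorem exists_apply_eq_of_irr (A : Subalgebra K (Module.End K V))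
    (hirr : ∀ W : Submodule K V, (∀ a ∈ A, ∀ w ∈ W, a w ∈ W) → W = ⊥ ∨ W = ⊤)
    (v : V) (hv : v ≠ 0) (w : V) : ∃ a ∈ A, a v = w := by
  let W : Submodule K V :=
    { carrier := {w | ∃ a ∈ A, a v = w}
      add_mem' := by
        rintro _ _ ⟨a, ha, rfl⟩ ⟨b, hb, rfl⟩
        exact ⟨a + b, A.add_mem ha hb, rfl⟩
      zero_mem' := ⟨0, A.zero_mem, rfl⟩
      smul_mem' := by
        rintro c _ ⟨a, ha, rfl⟩
        exact ⟨c • a, A.smul_mem ha c, rfl⟩ }
  have hW : W = ⊥ ∨ W = ⊤ := by
    apply hirr
    rintro b hb _ ⟨a, ha, rfl⟩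
    exact ⟨b * a, A.mul_mem hb ha, rfl⟩
  have hvW : v ∈ W := ⟨1, A.one_mem, rfl⟩
  rcases hW with h | h
  · rw [h, Submodule.mem_bot] at hvW
    exact absurd hvW hv
  · have : w ∈ W := by rw [h]; exact Submodule.mem_top
    exact this

/-- **Burnside's theorem**: an irreducible subalgebra of `End_K(V)` over an algebraically closed
field is everything. -/
theorem burnside_span [IsAlgClosed K] [FiniteDimensional K V] [Nontrivial V]
    (A : Subalgebra K (Module.End K V))
    (hirr : ∀ W : Submodule K V, (∀ a ∈ A, ∀ w ∈ W, a w ∈ W) → W = ⊥ ∨ W = ⊤) : A = ⊤ := by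
  classical
  -- an operator of minimal rank
  have hex : ∃ n, ∃ T ∈ A, T ≠ 0 ∧ finrank K (LinearMap.range T) = n :=
    ⟨_, 1, A.one_mem, one_ne_zero, rfl⟩
  obtain ⟨T, hTA, hT0, hTn⟩ := Nat.find_spec hex
  have hmin : ∀ T' ∈ A, T' ≠ 0 → finrank K (LinearMap.range T) ≤ finrank K (LinearMap.range T') := by
    intro T' hT'A hT'0
    rw [hTn]
    exact Nat.find_min' hex ⟨T', hT'A, hT'0, rfl⟩
  obtain ⟨v₁, hv₁⟩ : ∃ v₁, T v₁ ≠ 0 := by
    by_contra hcon
    push Not at hcon
    exact hT0 (LinearMap.ext hcon)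
  -- `T a T` is a multiple of `T`
  have hTaT : ∀ a ∈ A, ∃ μ : K, T * a * T = μ • T := by
    intro a ha
    have hinv : ∀ y ∈ LinearMap.range T, (T * a) y ∈ LinearMap.range T := by
      intro y _
      exact ⟨a y, rfl⟩
    let S : Module.End K (LinearMap.range T) := (T * a).restrict hinv
    haveI : Nontrivial (LinearMap.range T) := by
      refine ⟨⟨⟨T v₁, ⟨v₁, rfl⟩⟩, 0, ?_⟩⟩
      intro h
      exact hv₁ (congrArg Subtype.val h)
    obtain ⟨μ, hμ⟩ := Module.End.exists_eigenvalue S
    obtain ⟨y, hy⟩ := hμ.exists_hasEigenvector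
    refine ⟨μ, ?_⟩
    by_contra hne
    have hT'A : T * a * T - μ • T ∈ A :=
      A.sub_mem (A.mul_mem (A.mul_mem hTA ha) hTA) (A.smul_mem hTA μ)
    have hT'0 : T * a * T - μ • T ≠ 0 := fun h => hne (sub_eq_zero.mp h)
    have h1 := hmin _ hT'A hT'0
    -- range of T' is inside the image of range (S - μ)
    have h2 : LinearMap.range (T * a * T - μ • T) ≤
        (LinearMap.range (S - μ • (1 : Module.End K (LinearMap.range T)))).map
          (LinearMap.range T).subtype := by
      rintro _ ⟨v, rfl⟩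
      refine ⟨(S - μ • (1 : Module.End K (LinearMap.range T))) ⟨T v, ⟨v, rfl⟩⟩, ⟨_, rfl⟩, ?_⟩
      simp [S, LinearMap.restrict_apply]
    have h3 : finrank K (LinearMap.range (T * a * T - μ • T)) ≤
        finrank K (LinearMap.range (S - μ • (1 : Module.End K (LinearMap.range T)))) :=
      (Submodule.finrank_mono h2).trans (Submodule.finrank_map_le _ _)
    have h4 := LinearMap.finrank_range_add_finrank_ker
      (S - μ • (1 : Module.End K (LinearMap.range T)))
    have h5 : 0 < finrank K (LinearMap.ker (S - μ • (1 : Module.End K (LinearMap.range T)))) := by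
      rw [Module.finrank_pos_iff_exists_ne_zero]
      refine ⟨⟨y, ?_⟩, ?_⟩
      · rw [LinearMap.mem_ker, LinearMap.sub_apply, LinearMap.smul_apply, Module.End.one_apply,
          sub_eq_zero]
        exact hy.apply_eq_smul
      · intro h
        exact hy.2 (congrArg Subtype.val h)
    omega
  -- `T` has rank one: `T v = φ v • y₀`
  set y₀ := T v₁ with hy₀
  have hrank : ∀ v, ∃ c : K, T v = c • y₀ := by
    intro v
    obtain ⟨a, ha, hav⟩ := exists_apply_eq_of_irr A hirr y₀ hv₁ v
    obtain ⟨μ, hμ⟩ := hTaT a ha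
    refine ⟨μ, ?_⟩
    have := congrArg (fun f : Module.End K V => f v₁) hμ
    simp only [Module.End.mul_apply, LinearMap.smul_apply] at this
    rw [← hav]
    exact this
  obtain ⟨ψ, hψ⟩ : ∃ ψ : Module.Dual K V, ψ y₀ ≠ 0 := by
    by_contra hcon
    push Not at hcon
    exact hv₁ ((Module.forall_dual_apply_eq_zero_iff K y₀).mp hcon)
  set φ : Module.Dual K V := (ψ y₀)⁻¹ • (ψ.comp T) with hφ
  have hTφ : ∀ v, T v = φ v • y₀ := by
    intro v
    obtain ⟨c, hc⟩ := hrank v
    rw [hφ, LinearMap.smul_apply, LinearMap.comp_apply, hc, map_smul, smul_eq_mul, smul_eq_mul,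
      ← mul_assoc, mul_comm _ c, mul_assoc, inv_mul_cancel₀ hψ, mul_one]
  -- all rank one maps `smulRight (φ ∘ b) v` lie in `A`
  have hr1 : ∀ b ∈ A, ∀ v : V, LinearMap.smulRight (φ.comp b) v ∈ A := by
    intro b hb v
    obtain ⟨a, ha, hav⟩ := exists_apply_eq_of_irr A hirr y₀ hv₁ v
    have : LinearMap.smulRight (φ.comp b) v = a * T * b := by
      ext z
      simp only [LinearMap.smulRight_apply, LinearMap.comp_apply, Module.End.mul_apply]
      rw [hTφ (b z), map_smul, hav]
    rw [this]
    exact A.mul_mem (A.mul_mem ha hTA) hb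
  -- the functionals `φ ∘ b` exhaust the dual
  let Φ : Submodule K (Module.Dual K V) :=
    { carrier := {θ | ∃ b ∈ A, θ = φ.comp b}
      add_mem' := by
        rintro _ _ ⟨a, ha, rfl⟩ ⟨b, hb, rfl⟩
        exact ⟨a + b, A.add_mem ha hb, by rw [LinearMap.comp_add]⟩
      zero_mem' := ⟨0, A.zero_mem, by rw [LinearMap.comp_zero]⟩
      smul_mem' := by
        rintro c _ ⟨a, ha, rfl⟩
        exact ⟨c • a, A.smul_mem ha c, by rw [LinearMap.comp_smul]⟩ }
  have hΦ : Φ = ⊤ := by
    have h1 : Φ.dualCoannihilator = ⊥ := by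
      have h2 : Φ.dualCoannihilator = ⊥ ∨ Φ.dualCoannihilator = ⊤ := by
        apply hirr
        intro a ha w hw
        rw [Submodule.mem_dualCoannihilator] at hw ⊢
        rintro _ ⟨b, hb, rfl⟩
        exact hw (φ.comp (b * a)) ⟨b * a, A.mul_mem hb ha, rfl⟩
      rcases h2 with h2 | h2
      · exact h2
      · exfalso
        have h3 : v₁ ∈ Φ.dualCoannihilator := by rw [h2]; exact Submodule.mem_top
        rw [Submodule.mem_dualCoannihilator] at h3
        have h4 := h3 (φ.comp 1) ⟨1, A.one_mem, rfl⟩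
        have h5 : φ v₁ = 0 := h4
        have h6 := hTφ v₁
        rw [h5, zero_smul] at h6
        exact hv₁ h6
    have h2 := Subspace.dualCoannihilator_dualAnnihilator_eq (W := Φ)
    rw [h1, Submodule.dualAnnihilator_bot] at h2
    exact h2.symm
  have hr1' : ∀ (θ : Module.Dual K V) (v : V), LinearMap.smulRight θ v ∈ A := by
    intro θ v
    have : θ ∈ Φ := by rw [hΦ]; exact Submodule.mem_top
    obtain ⟨b, hb, rfl⟩ := this
    exact hr1 b hb v
  -- every endomorphism is a sum of rank one maps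
  rw [eq_top_iff]
  intro f _
  let bs := Module.finBasis K V
  have hf : f = ∑ i, LinearMap.smulRight (bs.coord i) (f (bs i)) := by
    apply bs.ext
    intro j
    rw [LinearMap.sum_apply]
    simp only [LinearMap.smulRight_apply, Module.Basis.coord_apply, Module.Basis.repr_self_apply,
      ite_smul, one_smul, zero_smul]
    simp
  rw [hf]
  exact A.sum_mem (fun i _ => hr1' _ _)

end Cfsg.Agent.H66
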