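import Cfsg.Agent.H87.CrDefs

/-!
helper66: pieces CR-COMP of S5141 (helper87's project): good maps compose.
-/

set_option linter.style.haveILetI false
set_option linter.unusedVariables false
set_option linter.unusedSectionVars false
set_option autoImplicit false

namespace Cfsg.Agent.H66.Cr

open Cfsg Cfsg.FusionSystem Cfsg.Agent.H86 Cfsg.Agent.H87 Cfsg.Agent.H87.Cr

variable {Ω : Type*} [Group Ω] {S T : Subgroup Ω}

/-- For an extension `l` of `f` to `P C_S(T)` moving `C_S(T)` by elements of `T`, the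
displacement of `c ∈ C_S(T)` lies in the image of `P`. -/
theorem displacement_mem {F : FusionSystem S} {E : FusionSystem T} {P : Subgroup Ω}
    {f l : Ω → Ω} (hP : E.IsCentric P) (hf : Mor E P f)
    (hl : Mor F (P ⊔ centralizerIn S T) l) (hlf : ∀ x ∈ P, l x = f x)
    (hlc : ∀ c ∈ centralizerIn S T, c⁻¹ * l c ∈ T) {c : Ω} (hc : c ∈ centralizerIn S T) :
    c⁻¹ * l c ∈ imgS P f := by
  have hPT : P ≤ T := hP.1
  have hcen : E.IsCentric (imgS P f) := isCentric_of_isConj hP (isConj_iff.2 ⟨f, hf, rfl⟩)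
  apply isCentric_self_le hcen
  rw [mem_centralizerIn_iff]
  refine ⟨hlc c hc, ?_⟩
  intro y hy
  obtain ⟨x, hx, rfl⟩ := hf.mem_imgS.1 hy
  have hxs : x ∈ P ⊔ centralizerIn S T := (le_sup_left : P ≤ _) hx
  have hcs : c ∈ P ⊔ centralizerIn S T := (le_sup_right : centralizerIn S T ≤ _) hc
  have h1 : x * c = c * x := (mem_centralizerIn_iff.1 hc).2 x (hPT hx)
  have h2 : f x * c = c * f x := (mem_centralizerIn_iff.1 hc).2 (f x) (hf.mem hx)
  have h3 : f x * l c = l c * f x := by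
    rw [← hlf x hx, ← hl.map_mul hxs hcs, ← hl.map_mul hcs hxs, h1]
  have h2' : f x * c⁻¹ = c⁻¹ * f x := by
    have : c⁻¹ * (f x * c) * c⁻¹ = c⁻¹ * (c * f x) * c⁻¹ := by rw [h2]
    calc f x * c⁻¹ = c⁻¹ * (c * f x) * c⁻¹ := by group
      _ = c⁻¹ * (f x * c) * c⁻¹ := by rw [h2]
      _ = c⁻¹ * f x := by group
  calc f x * (c⁻¹ * l c) = (f x * c⁻¹) * l c := by group
    _ = c⁻¹ * (f x * l c) := by rw [h2']; group
    _ = c⁻¹ * l c * f x := by rw [h3]; group

/-- Piece CR-COMP of S5141: good maps compose. -/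
theorem goodOn_comp {F : FusionSystem S} {E : FusionSystem T} (hTS : T ≤ S) {P R : Subgroup Ω}
    {f g : Ω → Ω} (hP : E.IsCentric P) (hf : Mor E P f) (hg : Mor E R g)
    (hfR : ∀ x ∈ P, f x ∈ R) (h₁ : GoodOn F T P f) (h₂ : GoodOn F T R g) :
    GoodOn F T P (g ∘ f) := by
  obtain ⟨lf, hlf, hlff, hlfc⟩ := h₁
  obtain ⟨lg, hlg, hlgg, hlgc⟩ := h₂
  have hPT : P ≤ T := hP.1
  have himgR : imgS P f ≤ R := by
    intro y hy
    obtain ⟨x, hx, rfl⟩ := hf.mem_imgS.1 hy
    exact hfR x hx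
  have hz : ∀ c ∈ centralizerIn S T, c⁻¹ * lf c ∈ R := fun c hc =>
    himgR (displacement_mem hP hf hlf hlff hlfc hc)
  have hmaps : ∀ y ∈ P ⊔ centralizerIn S T, lf y ∈ R ⊔ centralizerIn S T := by
    intro y hy
    obtain ⟨x, hx, c, hc, rfl⟩ := mem_sup_cent hPT hy
    have hxs : x ∈ P ⊔ centralizerIn S T := (le_sup_left : P ≤ _) hx
    have hcs : c ∈ P ⊔ centralizerIn S T := (le_sup_right : centralizerIn S T ≤ _) hc
    rw [hlf.map_mul hxs hcs, hlff x hx]
    have e : lf c = c * (c⁻¹ * lf c) := by group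
    rw [e]
    apply Subgroup.mul_mem
    · exact (le_sup_left : R ≤ _) (hfR x hx)
    · apply Subgroup.mul_mem
      · exact (le_sup_right : centralizerIn S T ≤ _) hc
      · exact (le_sup_left : R ≤ _) (hz c hc)
  refine ⟨lg ∘ lf, hlf.comp hlg hmaps, ?_, ?_⟩
  · intro x hx
    show lg (lf x) = g (f x)
    rw [hlff x hx, hlgg _ (hfR x hx)]
  · intro c hc
    show c⁻¹ * lg (lf c) ∈ T
    have e : lf c = c * (c⁻¹ * lf c) := by group
    have hcs : c ∈ R ⊔ centralizerIn S T := (le_sup_right : centralizerIn S T ≤ _) hc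
    have hzs : c⁻¹ * lf c ∈ R ⊔ centralizerIn S T := (le_sup_left : R ≤ _) (hz c hc)
    rw [e, hlg.map_mul hcs hzs, hlgg _ (hz c hc), ← mul_assoc]
    exact T.mul_mem (hlgc c hc) (hg.mem (hz c hc))

end Cfsg.Agent.H66.Cr
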