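import Cfsg.Agent.H87.CrDefs
import Cfsg.Agent.H66.CrComp

/-!
helper66: piece CR-INV of S5141 (helper87's project): the inverse of a good map is good.
-/

set_option linter.style.haveILetI false
set_option linter.unusedVariables false
set_option linter.unusedSectionVars false
set_option autoImplicit false

namespace Cfsg.Agent.H66.Cr

open Cfsg Cfsg.FusionSystem Cfsg.Agent.H86 Cfsg.Agent.H87 Cfsg.Agent.H87.Cr

variable {Ω : Type*} [Group Ω] {S T : Subgroup Ω}

/-- Piece CR-INV of S5141: the inverse of a good map is good. -/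
theorem goodOn_inv [Finite S] {F : FusionSystem S} {E : FusionSystem T} (hTS : T ≤ S)
    {P : Subgroup Ω} {f : Ω → Ω} (hP : E.IsCentric P) (hf : Mor E P f)
    (h : GoodOn F T P f) : GoodOn F T (imgS P f) (invOn P f) := by
  obtain ⟨l, hl, hlf, hlc⟩ := h
  have hPT : P ≤ T := hP.1
  have hPs : P ≤ P ⊔ centralizerIn S T := le_sup_left
  have hXs : centralizerIn S T ≤ P ⊔ centralizerIn S T := le_sup_right
  -- every `c ∈ X` is `l (c * y₀⁻¹)` with `y₀ ∈ P`
  have hpre : ∀ c ∈ centralizerIn S T, ∃ y ∈ P, l (c * y⁻¹) = c := by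
    intro c hc
    obtain ⟨y, hy, hyz⟩ := hf.mem_imgS.1 (displacement_mem hP hf hl hlf hlc hc)
    refine ⟨y, hy, ?_⟩
    rw [hl.map_mul (hXs hc) ((P ⊔ centralizerIn S T).inv_mem (hPs hy)), hl.map_inv (hPs hy),
      hlf y hy, hyz]
    group
  have hle : imgS P f ⊔ centralizerIn S T ≤ imgS (P ⊔ centralizerIn S T) l := by
    apply sup_le
    · intro y hy
      obtain ⟨x, hx, rfl⟩ := hf.mem_imgS.1 hy
      rw [← hlf x hx]
      exact hl.mem_imgS_of_mem (hPs hx)
    · intro c hc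
      obtain ⟨y, hy, hyc⟩ := hpre c hc
      rw [← hyc]
      exact hl.mem_imgS_of_mem
        (Subgroup.mul_mem _ (hXs hc) ((P ⊔ centralizerIn S T).inv_mem (hPs hy)))
  refine ⟨invOn (P ⊔ centralizerIn S T) l, hl.inv.restrict hle, ?_, ?_⟩
  · intro y hy
    obtain ⟨x, hx, rfl⟩ := hf.mem_imgS.1 hy
    rw [invOn_apply hf.injOn hx, ← hlf x hx, invOn_apply hl.injOn (hPs hx)]
  · intro c hc
    obtain ⟨y, hy, hyc⟩ := hpre c hc
    have e : invOn (P ⊔ centralizerIn S T) l c = c * y⁻¹ := by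
      conv_lhs => rw [← hyc]
      exact invOn_apply hl.injOn
        (Subgroup.mul_mem _ (hXs hc) ((P ⊔ centralizerIn S T).inv_mem (hPs hy)))
    rw [e]
    have : c⁻¹ * (c * y⁻¹) = y⁻¹ := by group
    rw [this]
    exact T.inv_mem (hPT hy)

end Cfsg.Agent.H66.Cr
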