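import Cfsg.Agent.H66.ZRep

/-!
# Cyclic subgroups normalised by `O_p` lie in `O_p` (when `O_{p'} = 1`)

`mem_pCore_of_normalized`: let `Γ` be a finite `p`-soluble group with `O_{p'}(Γ) = 1` and `a` a
`p`-element such that `O_p(Γ)` normalises `⟨a⟩`.  If `p` is odd, or `Γ` does not involve `S₄`, then
`a ∈ O_p(Γ)`.
-/

set_option autoImplicit false
set_option linter.style.haveILetI false
set_option linter.unusedVariables false
set_option linter.unusedSectionVars false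

namespace Cfsg.Agent.H66

open Cfsg
open scoped commutatorElement

universe u

set_option maxHeartbeats 1600000 in
theorem mem_pCore_of_normalized {Γ : Type u} [Group Γ] [Finite Γ] {p : ℕ} [Fact p.Prime]
    (hsol : IsPSolvable p Γ) (hO : pPrimeCore p Γ = ⊥) (a : Γ) (ha : ∃ j, a ^ p ^ j = 1)
    (hnorm : ∀ u ∈ pCore p Γ, u * a * u⁻¹ ∈ Subgroup.zpowers a)
    (h : p ≠ 2 ∨ ¬ Involves (Equiv.Perm (Fin 4)) Γ) : a ∈ pCore p Γ := by
  classical
  have hp : p.Prime := Fact.out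
  obtain ⟨P₁, hP₁⟩ : ∃ P₁ : Subgroup Γ, P₁ = pCore p Γ := ⟨_, rfl⟩
  rw [← hP₁] at hnorm ⊢
  haveI hP₁n : P₁.Normal := by rw [hP₁]; infer_instance
  have hP₁p : IsPGroup p P₁ := by rw [hP₁]; exact H14.pCore_isPGroup p Γ
  by_contra haP
  have hex : ∃ k, a ^ p ^ k ∈ P₁ := by
    obtain ⟨j, hj⟩ := ha
    exact ⟨j, by rw [hj]; exact P₁.one_mem⟩
  obtain ⟨k, hk⟩ : ∃ k, k = Nat.find hex := ⟨_, rfl⟩
  have hk1 : a ^ p ^ k ∈ P₁ := by rw [hk]; exact Nat.find_spec hex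
  have hk0 : k ≠ 0 := by
    intro h0
    rw [h0, pow_zero, pow_one] at hk1
    exact haP hk1
  obtain ⟨b, hbdef⟩ : ∃ b, b = a ^ p ^ (k - 1) := ⟨_, rfl⟩
  have hb : b ∉ P₁ := by
    rw [hbdef]
    exact Nat.find_min hex (by rw [← hk]; omega)
  have hbp : b ^ p ∈ P₁ := by
    rw [hbdef, ← pow_mul, ← pow_succ]
    have : k - 1 + 1 = k := by omega
    rw [this]; exact hk1
  obtain ⟨bb, hbb⟩ : ∃ bb : Γ ⧸ P₁, bb = QuotientGroup.mk' P₁ b := ⟨_, rfl⟩
  have hbb1 : bb ≠ 1 := by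
    rw [hbb]; intro h1
    exact hb ((QuotientGroup.eq_one_iff (N := P₁) b).mp h1)
  have hbbp : bb ^ p = 1 := by
    rw [hbb, ← map_pow]
    exact (QuotientGroup.eq_one_iff (N := P₁) _).mpr hbp
  have hbbo : orderOf bb = p := orderOf_eq_prime hbbp hbb1
  have hcomm : ∀ u ∈ P₁, ∃ m : ℤ, b * u * b⁻¹ * u⁻¹ = (b ^ p) ^ m := by
    intro u hu
    obtain ⟨j, hj⟩ := Subgroup.mem_zpowers_iff.mp (hnorm u hu)
    have h2 : u * b * u⁻¹ = b ^ j := by
      rw [hbdef]
      calc u * a ^ p ^ (k - 1) * u⁻¹ = (u * a * u⁻¹) ^ p ^ (k - 1) := conj_pow.symm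
        _ = (a ^ j) ^ p ^ (k - 1) := by rw [hj]
        _ = (a ^ p ^ (k - 1)) ^ j := by
          rw [← zpow_natCast (a ^ j), ← zpow_mul, mul_comm, zpow_mul, zpow_natCast]
    have h4 : u * b⁻¹ * u⁻¹ = (b ^ j)⁻¹ := by rw [← h2]; group
    have h3 : b * u * b⁻¹ * u⁻¹ = b ^ (1 - j) := by
      calc b * u * b⁻¹ * u⁻¹ = b * (u * b⁻¹ * u⁻¹) := by group
        _ = b * (b ^ j)⁻¹ := by rw [h4]
        _ = b ^ (1 - j) := by rw [zpow_sub, zpow_one]
    have h5 : b * u * b⁻¹ * u⁻¹ ∈ P₁ := P₁.mul_mem (hP₁n.conj_mem u hu b) (P₁.inv_mem hu)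
    have h6 : bb ^ (1 - j) = 1 := by
      rw [hbb, ← map_zpow, ← h3]
      exact (QuotientGroup.eq_one_iff (N := P₁) _).mpr h5
    have h7 : (p : ℤ) ∣ 1 - j := by
      rw [← hbbo]; exact orderOf_dvd_iff_zpow_eq_one.mpr h6
    obtain ⟨m, hm⟩ := h7
    refine ⟨m, ?_⟩
    rw [h3, hm, zpow_mul, zpow_natCast]
  obtain ⟨Φ, hΦ⟩ : ∃ Φ : Subgroup Γ, Φ = (frattini ↥P₁).map P₁.subtype := ⟨_, rfl⟩
  haveI hΦn : Φ.Normal := by
    rw [hΦ]
    apply Subgroup.normalizer_eq_top_iff.mp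
    rw [eq_top_iff]
    refine le_trans ?_ (H1.normalizer_le_normalizer_map_of_characteristic P₁ (frattini ↥P₁))
    rw [Subgroup.normalizer_eq_top_iff.mpr hP₁n]
  obtain ⟨V, iV1, iV2, θ, ι, hθinj, hιsurj, hιmul, hιzpow, hιconj, hιeq, hVp⟩ :=
    exists_faithful_zmod_rep hsol hO P₁ hP₁ Φ hΦ
  have hι1 : ι 1 = 0 := by
    have := hιzpow 1 P₁.one_mem 0
    rwa [zpow_zero, zero_smul] at this
  obtain ⟨T, hT⟩ : ∃ T, T = θ bb := ⟨_, rfl⟩
  obtain ⟨v₁, hv₁⟩ : ∃ v₁, v₁ = ι (b ^ p) := ⟨_, rfl⟩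
  have hTι : ∀ u ∈ P₁, T (ι u) = ι (b * u * b⁻¹) := by
    intro u hu; rw [hT, hbb]; exact hιconj b u hu
  have hTv : ∀ v, ∃ m : ℤ, T v = v + m • v₁ := by
    intro v
    obtain ⟨u, hu, rfl⟩ := hιsurj v
    obtain ⟨m, hm⟩ := hcomm u hu
    refine ⟨m, ?_⟩
    have h1 : b * u * b⁻¹ = (b ^ p) ^ m * u := by rw [← hm]; group
    rw [hTι u hu, h1, hιmul _ (P₁.zpow_mem hbp m) _ hu, hιzpow _ hbp, hv₁, add_comm]
  have hTv₁ : T v₁ = v₁ := by
    rw [hv₁, hTι _ hbp]
    congr 1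
    rw [← pow_succ', pow_succ, mul_inv_cancel_right]
  have hT2 : (T - 1) * (T - 1) = 0 := by
    apply LinearMap.ext; intro v
    obtain ⟨m, hm⟩ := hTv v
    simp only [Module.End.mul_apply, LinearMap.sub_apply, Module.End.one_apply,
      LinearMap.zero_apply]
    rw [hm, add_sub_cancel_left, map_zsmul, hTv₁, sub_self]
  have hT1 : T ≠ 1 := by
    intro h1; apply hbb1; apply hθinj; rw [← hT, h1, map_one]
  have hv₁0 : v₁ ≠ 0 := by
    intro h0
    apply hT1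
    apply LinearMap.ext; intro v
    obtain ⟨m, hm⟩ := hTv v
    rw [hm, h0, smul_zero, add_zero]; rfl
  have hsolH : IsPSolvable p (Γ ⧸ P₁) := H80.isPSolvable_quotient p P₁ hsol
  have hOpH : pCore p (Γ ⧸ P₁) = ⊥ := by
    subst hP₁
    exact pCore_quotient_pCore_bot p
  have e0 : bb ^ p ^ 0 = bb := by rw [pow_zero, pow_one]
  obtain ⟨q, hqF, Q, hqp, hQq, hbQ, s, hsQ, hs⟩ :=
    exists_q_subgroup hsolH hOpH bb 0 (by rw [zero_add, pow_one]; exact hbbp)
      (by rw [e0]; exact hbb1)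
  have hq : q.Prime := hqF.out
  by_cases hp2 : p = 2
  swap
  · -- the odd case
    have hsum : ∑ i ∈ Finset.range p, T ^ i = 0 := geom_sum_eq_zero_of_sq hp2 T hT2
    obtain ⟨Q₁, hQ₁Q, hbQ₁, ⟨a₁, ha₁, hba₁⟩, hcomQ₁, -, habel, hnonab⟩ :=
      exists_minimal_special p q hqp.symm Q hQq bb 0 (by rw [zero_add, pow_one]; exact hbbp) hbQ
        ⟨s, hsQ, hs⟩
    rw [e0] at hba₁ hcomQ₁
    have hQ₁q : IsPGroup q Q₁ := hQq.to_le hQ₁Q
    have hxD : ∀ d ∈ Q₁, bb * d * bb⁻¹ ∈ Q₁ :=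
      fun d hd => (Subgroup.mem_normalizer_iff.mp hbQ₁ d).mp hd
    by_cases hab : ∀ x ∈ Q₁, ∀ y ∈ Q₁, x * y = y * x
    · have hfree := habel hab
      haveI : Fintype ↥Q₁ := Fintype.ofFinite _
      have hN : ∑ i ∈ Finset.range p, θ (bb ^ i) = 0 := by
        rw [← hsum]; apply Finset.sum_congr rfl; intro i _; rw [map_pow, hT]
      have hfs := frob_sum θ Q₁ bb p hp.pos hxD
        (fun i hi0 hip => hfree i hi0 (by rw [zero_add, pow_one]; exact hip)) hN
      have hcop : (Fintype.card ↥Q₁).Coprime p := by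
        obtain ⟨n, hn⟩ := IsPGroup.iff_card.mp hQ₁q
        rw [← Nat.card_eq_fintype_card, hn]
        exact Nat.Coprime.pow_left n ((Nat.coprime_primes hq hp).mpr hqp)
      have ha₁1 : a₁ = 1 := by
        apply hθinj
        rw [map_one]
        have h1 : θ a₁ * ∑ d : ↥Q₁, θ (d : Γ ⧸ P₁) = ∑ d : ↥Q₁, θ (d : Γ ⧸ P₁) := by
          rw [Finset.mul_sum]
          exact Fintype.sum_equiv (Equiv.mulLeft (⟨a₁, ha₁⟩ : ↥Q₁)) _ _
            (fun d => by rw [← map_mul]; rfl)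
        rw [hfs] at h1
        have hu : IsUnit ((Fintype.card ↥Q₁ : ℕ) : Module.End (ZMod p) V) := by
          have h2 : IsUnit ((Fintype.card ↥Q₁ : ℕ) : ZMod p) :=
            (ZMod.isUnit_iff_coprime _ _).mpr hcop
          have h3 := h2.map (algebraMap (ZMod p) (Module.End (ZMod p) V))
          rwa [map_natCast] at h3
        apply hu.mul_right_cancel
        rw [h1, one_mul]
      exact hba₁ (by rw [ha₁1, mul_one, one_mul])
    · obtain ⟨hfc, hcc, hzc⟩ := hnonab hab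
      have hcne : ∃ z ∈ Subgroup.center ↥Q₁, z ≠ 1 := by
        by_contra hcon
        push Not at hcon
        apply hab
        intro x hx y hy
        have h1 : ⁅(⟨x, hx⟩ : ↥Q₁), ⟨y, hy⟩⁆ ∈ commutator ↥Q₁ :=
          Subgroup.commutator_mem_commutator (Subgroup.mem_top _) (Subgroup.mem_top _)
        rw [hcc] at h1
        have h2 := congrArg Subtype.val (hcon _ h1)
        have h3 : x * y * x⁻¹ * y⁻¹ = 1 := by
          simpa [commutatorElement_def] using h2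
        calc x * y = x * y * x⁻¹ * y⁻¹ * (y * x) := by group
          _ = y * x := by rw [h3, one_mul]
      obtain ⟨z, hz, hz1⟩ := hcne
      obtain ⟨y, hy⟩ : ∃ y : Γ ⧸ P₁, y = (z : Γ ⧸ P₁) := ⟨_, rfl⟩
      have hyQ₁ : y ∈ Q₁ := by rw [hy]; exact z.2
      have hy1 : y ≠ 1 := by
        rw [hy]; intro h1; exact hz1 (Subtype.ext h1)
      have hycomm : ∀ d ∈ Q₁, y * d = d * y := by
        intro d hd
        have h1 := Subgroup.mem_center_iff.mp hz ⟨d, hd⟩
        have h2 := congrArg Subtype.val h1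
        rw [hy]; exact h2.symm
      have hyb : bb * y = y * bb := by
        have h1 : y ∈ (frattini ↥Q₁).map Q₁.subtype := by
          rw [hfc, hy]; exact ⟨z, hz, rfl⟩
        have h2 := hzc y h1
        rwa [e0] at h2
      obtain ⟨j, hyj⟩ : ∃ j, y ^ q ^ j = 1 := by
        obtain ⟨j, hj⟩ := hQ₁q ⟨y, hyQ₁⟩
        exact ⟨j, congrArg Subtype.val hj⟩
      obtain ⟨yh, ⟨j', hyhj⟩, hyh⟩ := exists_pelement_lift (QuotientGroup.mk' P₁)
        (QuotientGroup.mk'_surjective P₁) q y ⟨j, hyj⟩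
      have hmem : b⁻¹ * yh * b * yh⁻¹ ∈ P₁ := by
        apply (QuotientGroup.eq_one_iff (N := P₁) _).mp
        show QuotientGroup.mk' P₁ (b⁻¹ * yh * b * yh⁻¹) = 1
        rw [map_mul, map_mul, map_mul, map_inv, map_inv, ← hbb, hyh, mul_assoc bb⁻¹, ← hyb,
          inv_mul_cancel_left, mul_inv_cancel]
      obtain ⟨u, hu, hfix⟩ := exists_fixed_in_coset hqp P₁ hP₁p b yh yh⁻¹ j' hyhj
        (by rw [inv_pow, hyhj, inv_one]) hmem
      obtain ⟨b', hb'⟩ : ∃ b', b' = b * u := ⟨_, rfl⟩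
      rw [← hb'] at hfix
      have hu' : b * u * b⁻¹ ∈ P₁ := hP₁n.conj_mem u hu b
      have hnp := iota_normProd P₁ θ ι hι1 hιmul hιconj b (b * u * b⁻¹) hu' p
      have hb'p : b' ^ p = normProd b (b * u * b⁻¹) p * b ^ p := by
        rw [normProd_mul_pow, hb']
        congr 1
        group
      have hb'pP : b' ^ p ∈ P₁ := by rw [hb'p]; exact P₁.mul_mem hnp.1 hbp
      have hιb' : ι (b' ^ p) = v₁ := by
        rw [hb'p, hιmul _ hnp.1 _ hbp, hnp.2, ← hbb, ← hT, hsum, LinearMap.zero_apply, zero_add,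
          hv₁]
      obtain ⟨Y, hY⟩ : ∃ Y, Y = θ y := ⟨_, rfl⟩
      have hYv₁ : Y v₁ = v₁ := by
        rw [← hιb', hY, ← hyh, hιconj yh _ hb'pP]
        congr 1
        rw [← conj_pow, hfix]
      have hTY : T * Y = Y * T := by rw [hT, hY, ← map_mul, ← map_mul, hyb]
      have hTW : ∀ v, T (Y v - v) = Y v - v := by
        intro v
        obtain ⟨m, hm⟩ := hTv v
        have h1 : T (Y v) = Y (T v) := congrArg (fun f : Module.End (ZMod p) V => f v) hTY
        rw [map_sub, h1, hm, map_add, map_zsmul, hYv₁]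
        abel
      obtain ⟨S, hS⟩ : ∃ S : Subgroup (Γ ⧸ P₁), ∀ h, h ∈ S ↔ ∀ v, θ h (Y v - v) = Y v - v := by
        refine ⟨{ carrier := {h | ∀ v, θ h (Y v - v) = Y v - v}
                  mul_mem' := ?_, one_mem' := ?_, inv_mem' := ?_ }, fun h => Iff.rfl⟩
        · intro a b ha hb v
          rw [map_mul, Module.End.mul_apply, hb v, ha v]
        · intro v; rw [map_one]; rfl
        · intro a ha v
          have h1 : θ a⁻¹ (θ a (Y v - v)) = Y v - v := by
            rw [← Module.End.mul_apply, ← map_mul, inv_mul_cancel, map_one]; rfl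
          rw [ha v] at h1; exact h1
      have hQpres : ∀ d ∈ Q₁, ∀ v, θ d (Y v - v) = Y (θ d v) - θ d v := by
        intro d hd v
        have h1 : θ d * Y = Y * θ d := by rw [hY, ← map_mul, ← map_mul, hycomm d hd]
        have h2 : θ d (Y v) = Y (θ d v) := congrArg (fun f : Module.End (ZMod p) V => f v) h1
        rw [map_sub, h2]
      have hbbS : bb ∈ S := by rw [hS]; intro v; rw [← hT]; exact hTW v
      have hcomS : ⁅Q₁, Subgroup.zpowers bb⁆ ≤ S := by
        rw [Subgroup.commutator_le]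
        intro d hd s' hs'
        have hsS : s' ∈ S := (Subgroup.zpowers_le.mpr hbbS) hs'
        have hsS' : s'⁻¹ ∈ S := S.inv_mem hsS
        rw [hS] at hsS hsS' ⊢
        intro v
        have h3 : θ d (θ d⁻¹ v) = v := by
          rw [← Module.End.mul_apply, ← map_mul, mul_inv_cancel, map_one]; rfl
        rw [commutatorElement_def, map_mul, map_mul, map_mul, Module.End.mul_apply,
          Module.End.mul_apply, Module.End.mul_apply, hsS' v, hQpres d⁻¹ (Q₁.inv_mem hd), hsS,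
          hQpres d hd, h3]
      have hQ₁S : Q₁ ≤ S := (le_of_eq hcomQ₁.symm).trans hcomS
      have hYY : ∀ v, Y (Y v - v) = Y v - v := by
        have h1 := (hS y).mp (hQ₁S hyQ₁)
        rw [← hY] at h1
        exact h1
      have hY2 : (Y - 1) * (Y - 1) = 0 := by
        apply LinearMap.ext; intro v
        simp only [Module.End.mul_apply, LinearMap.sub_apply, Module.End.one_apply,
          LinearMap.zero_apply]
        rw [hYY v, sub_self]
      have hYp : Y ^ p = 1 := by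
        have h1 := sub_one_pow_char_pow_alg (K := ZMod p) p 1 Y
        rw [pow_one] at h1
        have h2 : (Y - 1) ^ p = 0 := by
          have h3 : (Y - 1) ^ p = (Y - 1) ^ 2 * (Y - 1) ^ (p - 2) := by
            rw [← pow_add]; congr 1; have := hp.two_le; omega
          rw [h3, pow_two, hY2, zero_mul]
        rw [h2] at h1
        exact (sub_eq_zero.mp h1.symm)
      have hyp : y ^ p = 1 := by
        apply hθinj; rw [map_pow, ← hY, hYp, map_one]
      apply hy1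
      have h1 : orderOf y ∣ p := orderOf_dvd_of_pow_eq_one hyp
      have h2 : orderOf y ∣ q ^ j := orderOf_dvd_of_pow_eq_one hyj
      have h3 : (orderOf y).Coprime (q ^ j) :=
        Nat.Coprime.coprime_dvd_left h1
          (Nat.Coprime.pow_right j ((Nat.coprime_primes hp hq).mpr (Ne.symm hqp)))
      exact orderOf_eq_one_iff.mp (Nat.Coprime.eq_one_of_dvd h3 h2)
  · -- the case `p = 2`
    subst hp2
    have hS4 : ¬ Involves (Equiv.Perm (Fin 4)) Γ := h.resolve_left (fun h => h rfl)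
    apply hS4
    rw [e0] at hs
    have hbb2 : bb * bb = 1 := by rw [← pow_two]; exact hbbp
    have hbbinv : bb⁻¹ = bb := inv_eq_of_mul_eq_one_right hbb2
    obtain ⟨t, ht⟩ : ∃ t, t = s⁻¹ * (bb * s * bb⁻¹) := ⟨_, rfl⟩
    have htQ : t ∈ Q := by
      rw [ht]
      exact Q.mul_mem (Q.inv_mem hsQ) ((Subgroup.mem_normalizer_iff.mp hbQ s).mp hsQ)
    have ht1 : t ≠ 1 := by
      intro h1
      rw [ht] at h1
      apply hs
      have h2 : bb * s * bb⁻¹ = s := by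
        have := congrArg (fun x => s * x) h1
        simpa using this
      calc bb * s = bb * s * bb⁻¹ * bb := by group
        _ = s * bb := by rw [h2]
    have hbt : bb * t * bb = t⁻¹ := by
      rw [ht, hbbinv]
      calc bb * (s⁻¹ * (bb * s * bb)) * bb = bb * s⁻¹ * bb * s * (bb * bb) := by group
        _ = bb * s⁻¹ * bb * s := by rw [hbb2, mul_one]
        _ = bb⁻¹ * s⁻¹ * bb⁻¹ * s := by rw [hbbinv]
        _ = (s⁻¹ * (bb * s * bb))⁻¹ := by group
    obtain ⟨Y, hY⟩ : ∃ Y, Y = θ t := ⟨_, rfl⟩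
    have hYTY : Y * T * Y = T := by
      rw [hY, hT, ← map_mul, ← map_mul]
      congr 1
      calc t * bb * t = t * (bb * t * bb) * bb⁻¹ := by group
        _ = bb := by rw [hbt, mul_inv_cancel, one_mul, hbbinv]
    have hV2 : ∀ v : V, v + v = 0 := by
      intro v; have := hVp v; rwa [two_smul] at this
    have hTv' : ∀ v, T v = v ∨ T v = v + v₁ := by
      intro v
      obtain ⟨m, hm⟩ := hTv v
      rcases Int.even_or_odd m with ⟨r, hr⟩ | ⟨r, hr⟩
      · left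
        rw [hm, hr, add_smul, hV2, add_zero]
      · right
        rw [hm, hr, add_smul, one_smul, mul_smul, two_smul, hV2, zero_add]
    have hYinj : ∀ v, Y v = 0 → v = 0 := by
      intro v hv
      have h1 : θ t⁻¹ (Y v) = v := by
        rw [hY, ← Module.End.mul_apply, ← map_mul, inv_mul_cancel, map_one]; rfl
      rw [hv, map_zero] at h1; exact h1.symm
    obtain ⟨jt, htj⟩ : ∃ j, t ^ q ^ j = 1 := by
      obtain ⟨j, hj⟩ := hQq ⟨t, htQ⟩
      exact ⟨j, congrArg Subtype.val hj⟩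
    have hcop2 : (orderOf t).Coprime 2 := by
      have h1 : orderOf t ∣ q ^ jt := orderOf_dvd_of_pow_eq_one htj
      exact Nat.Coprime.coprime_dvd_left h1
        (Nat.Coprime.pow_left jt ((Nat.coprime_primes hq Nat.prime_two).mpr hqp))
    have ht4 : t ^ 4 ≠ 1 := by
      intro h4
      apply ht1
      have h1 : orderOf t ∣ 2 ^ 2 := orderOf_dvd_of_pow_eq_one (show t ^ 2 ^ 2 = 1 from h4)
      exact orderOf_eq_one_iff.mp (Nat.Coprime.eq_one_of_dvd (Nat.Coprime.pow_right 2 hcop2) h1)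
    have hY4 : Y ^ 4 ≠ 1 := by
      intro h4; apply ht4; apply hθinj; rw [map_pow, ← hY, h4, map_one]
    obtain ⟨hY6, hv₂0, hv₂1, hYv₂, hTv₂⟩ := la_two hV2 T Y v₁ hTv' hTv₁ hYTY hYinj hv₁0 hY4
    have ht6 : t ^ 6 = 1 := by apply hθinj; rw [map_pow, ← hY, hY6, map_one]
    have ht3 : t ^ 3 = 1 := by
      have h1 : orderOf t ∣ 3 * 2 := orderOf_dvd_of_pow_eq_one ht6
      exact orderOf_dvd_iff_pow_eq_one.mp (Nat.Coprime.dvd_of_dvd_mul_right hcop2 h1)
    haveI : Fact (Nat.Prime 3) := ⟨Nat.prime_three⟩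
    obtain ⟨th, ⟨j3, hthj⟩, hth⟩ := exists_pelement_lift (QuotientGroup.mk' P₁)
      (QuotientGroup.mk'_surjective P₁) 3 t ⟨1, by rw [pow_one]; exact ht3⟩
    have hth3 : th ^ 3 = 1 := by
      have h1 : th ^ 3 ∈ P₁ := by
        apply (QuotientGroup.eq_one_iff (N := P₁) _).mp
        show QuotientGroup.mk' P₁ (th ^ 3) = 1
        rw [map_pow, hth, ht3]
      obtain ⟨m, hm⟩ := hP₁p ⟨th ^ 3, h1⟩
      have hm' : (th ^ 3) ^ 2 ^ m = 1 := congrArg Subtype.val hm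
      have h2 : (th ^ 3) ^ 3 ^ j3 = 1 := by
        rw [← pow_mul, mul_comm, pow_mul, hthj, one_pow]
      have h3 : orderOf (th ^ 3) ∣ 2 ^ m := orderOf_dvd_of_pow_eq_one hm'
      have h4 : orderOf (th ^ 3) ∣ 3 ^ j3 := orderOf_dvd_of_pow_eq_one h2
      have h5 : (orderOf (th ^ 3)).Coprime (3 ^ j3) :=
        Nat.Coprime.coprime_dvd_left h3 (Nat.Coprime.pow _ _ (by norm_num))
      exact orderOf_eq_one_iff.mp (Nat.Coprime.eq_one_of_dvd h5 h4)
    have hmem : b⁻¹ * th * b * th ∈ P₁ := by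
      apply (QuotientGroup.eq_one_iff (N := P₁) _).mp
      show QuotientGroup.mk' P₁ (b⁻¹ * th * b * th) = 1
      rw [map_mul, map_mul, map_mul, map_inv, ← hbb, hth, hbbinv, hbt, inv_mul_cancel]
    obtain ⟨u, hu, hfix⟩ := exists_fixed_in_coset (p := 2) (q := 3) (by norm_num) P₁ hP₁p b th th
      1 (by rw [pow_one]; exact hth3) (by rw [pow_one]; exact hth3) hmem
    obtain ⟨g₀, hg₀⟩ : ∃ g₀, g₀ = b * u := ⟨_, rfl⟩
    rw [← hg₀] at hfix
    have hg₀th : g₀ * th * g₀⁻¹ = th⁻¹ := by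
      calc g₀ * th * g₀⁻¹ = th⁻¹ * (th * g₀ * th) * g₀⁻¹ := by group
        _ = th⁻¹ := by rw [hfix, mul_inv_cancel_right]
    have hu1 : QuotientGroup.mk' P₁ u = 1 := (QuotientGroup.eq_one_iff (N := P₁) u).mpr hu
    have hg₀mk : QuotientGroup.mk' P₁ g₀ = bb := by
      rw [hg₀, map_mul, ← hbb, hu1, mul_one]
    have hu₁ : b ^ 2 ∈ P₁ := hbp
    obtain ⟨u₂, hu₂def⟩ : ∃ u₂, u₂ = th * b ^ 2 * th⁻¹ := ⟨_, rfl⟩
    have hu₂ : u₂ ∈ P₁ := by rw [hu₂def]; exact hP₁n.conj_mem _ hu₁ th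
    have hιu₂ : ι u₂ = Y v₁ := by
      rw [hu₂def, ← hιconj th _ hu₁, hth, ← hY, ← hv₁]
    have hιu₁₂ : ι (b ^ 2 * u₂) = v₁ + Y v₁ := by
      rw [hιmul _ hu₁ _ hu₂, hιu₂, ← hv₁]
    have hconjeq : ∀ x, ∀ u ∈ P₁, ∀ u' ∈ P₁, θ (QuotientGroup.mk' P₁ x) (ι u) = ι u' →
        QuotientGroup.mk' Φ x * QuotientGroup.mk' Φ u * (QuotientGroup.mk' Φ x)⁻¹ =
          QuotientGroup.mk' Φ u' := by
      intro x u hu u' hu' hh
      have h1 : QuotientGroup.mk' Φ x * QuotientGroup.mk' Φ u * (QuotientGroup.mk' Φ x)⁻¹ =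
          QuotientGroup.mk' Φ (x * u * x⁻¹) := by simp only [map_mul, map_inv]
      rw [h1]
      apply (hιeq _ (hP₁n.conj_mem u hu x) _ hu').mp
      rw [← hιconj x u hu]; exact hh
    have hne1 : ∀ u ∈ P₁, ι u ≠ 0 → QuotientGroup.mk' Φ u ≠ 1 := by
      intro u hu hne h1
      apply hne
      rw [← hι1]
      apply (hιeq u hu 1 P₁.one_mem).mpr
      rw [h1, map_one]
    have hinv := involves_S4_of_elements (QuotientGroup.mk' Φ (b ^ 2)) (QuotientGroup.mk' Φ u₂)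
      (QuotientGroup.mk' Φ th) (QuotientGroup.mk' Φ g₀)
      (hne1 _ hu₁ (by rw [← hv₁]; exact hv₁0))
      (hne1 _ hu₂ (by rw [hιu₂]; exact hv₂0))
      (by
        intro h1
        have := (hιeq _ hu₁ _ hu₂).mpr h1
        rw [hιu₂, ← hv₁] at this
        exact hv₂1 this.symm)
      (by
        rw [← map_mul, ← map_one (QuotientGroup.mk' Φ)]
        apply (hιeq _ (P₁.mul_mem hu₁ hu₁) _ P₁.one_mem).mp
        rw [hιmul _ hu₁ _ hu₁, hι1]; exact hV2 _)
      (by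
        rw [← map_mul, ← map_one (QuotientGroup.mk' Φ)]
        apply (hιeq _ (P₁.mul_mem hu₂ hu₂) _ P₁.one_mem).mp
        rw [hιmul _ hu₂ _ hu₂, hι1]; exact hV2 _)
      (by
        rw [← map_mul, ← map_mul]
        apply (hιeq _ (P₁.mul_mem hu₁ hu₂) _ (P₁.mul_mem hu₂ hu₁)).mp
        rw [hιmul _ hu₁ _ hu₂, hιmul _ hu₂ _ hu₁, add_comm])
      (by rw [← map_pow, hth3, map_one])
      (by rw [hu₂def]; simp only [map_mul, map_inv])
      (by
        rw [← map_mul (QuotientGroup.mk' Φ) (b ^ 2) u₂]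
        apply hconjeq th u₂ hu₂ _ (P₁.mul_mem hu₁ hu₂)
        rw [hth, ← hY, hιu₂, hYv₂, hιu₁₂])
      (by
        apply hconjeq g₀ _ hu₁ _ hu₁
        rw [hg₀mk, ← hT, ← hv₁, hTv₁])
      (by
        rw [← map_mul (QuotientGroup.mk' Φ) (b ^ 2) u₂]
        apply hconjeq g₀ u₂ hu₂ _ (P₁.mul_mem hu₁ hu₂)
        rw [hg₀mk, ← hT, hιu₂, hTv₂, hιu₁₂])
      (by
        have := congrArg (QuotientGroup.mk' Φ) hg₀th
        simp only [map_mul, map_inv] at this
        exact this)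
    exact H52.involves_of_surjective (QuotientGroup.mk' Φ) (QuotientGroup.mk'_surjective Φ) hinv

end Cfsg.Agent.H66
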