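import Cfsg.Agent.H60.Cores

/-!
# Derived series of subgroups inside the ambient group (complements to `H60.dser`)
-/

set_option autoImplicit false
open Cfsg

namespace Cfsg.Agent.H66

open Cfsg.Agent.H60 (dser dser_zero dser_succ)

variable {G : Type*} [Group G]

theorem dser_mono {C C' : Subgroup G} (h : C ≤ C') : ∀ n, dser C n ≤ dser C' n
  | 0 => h
  | n + 1 => by
    rw [dser_succ, dser_succ]; exact Subgroup.commutator_mono (dser_mono h n) (dser_mono h n)

theorem dser_map {G' : Type*} [Group G'] (f : G →* G') (C : Subgroup G) :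
    ∀ n, (dser C n).map f = dser (C.map f) n
  | 0 => rfl
  | n + 1 => by
    rw [dser_succ, dser_succ, Subgroup.map_commutator, dser_map f C n]

theorem dser_eq_map_derivedSeries (C : Subgroup G) :
    ∀ n, dser C n = (derivedSeries C n).map C.subtype
  | 0 => by
    rw [dser_zero, derivedSeries_zero, ← MonoidHom.range_eq_map, Subgroup.range_subtype]
  | n + 1 => by
    rw [dser_succ, derivedSeries_succ, Subgroup.map_commutator, dser_eq_map_derivedSeries C n]

theorem derivedSeries_add (a : ℕ) : ∀ b, derivedSeries G (a + b) = dser (derivedSeries G a) b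
  | 0 => rfl
  | b + 1 => by
    rw [← Nat.add_assoc, derivedSeries_succ, dser_succ, derivedSeries_add a b]

/-- The derived length of the Sylow `p`-subgroups does not grow under surjective homomorphisms. -/
theorem sylow_derived_of_surjective [Finite G] {G' : Type*} [Group G'] (f : G →* G')
    (hf : Function.Surjective f) (p : ℕ) [Fact p.Prime] (d : ℕ)
    (h : ∀ S : Sylow p G, derivedSeries ↥(S : Subgroup G) d = ⊥) :
    ∀ S' : Sylow p G', derivedSeries ↥(S' : Subgroup G') d = ⊥ := by
  intro S'
  obtain ⟨S, rfl⟩ := Sylow.mapSurjective_surjective hf p S'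
  have h1 : dser ((S.mapSurjective hf : Sylow p G') : Subgroup G') d = ⊥ := by
    rw [Sylow.coe_mapSurjective, ← dser_map, dser_eq_map_derivedSeries, h S, Subgroup.map_bot,
      Subgroup.map_bot]
  rw [dser_eq_map_derivedSeries] at h1
  exact (Subgroup.map_eq_bot_iff_of_injective _ (Subgroup.subtype_injective _)).mp h1

end Cfsg.Agent.H66
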