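import Cfsg.Agent.H66.ZRep

/-!
# Fixed-point-free automorphisms of order dividing 4: the linear core

`fpf4_sq_centralizes`: let `H` be a finite solvable group of odd order acting faithfully on an
`𝔽_p`-module `V` (`p` odd), `σ` a fixed-point-free automorphism of `H` with `σ⁴ = 1` and `S` a
fixed-point-free linear map of `V` with `S⁴ = 1` compatible with `σ`.  Then `σ²` centralises every
`σ`-invariant subgroup of `H` of order prime to `p`.
-/

set_option autoImplicit false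
set_option linter.style.haveILetI false
set_option linter.unusedVariables false
set_option linter.unusedSectionVars false

namespace Cfsg.Agent.H66

open Cfsg
open scoped commutatorElement

theorem norm4_eq_zero {p : ℕ} {V : Type*} [AddCommGroup V] [Module (ZMod p) V]
    (Y : Module.End (ZMod p) V) (hY4 : ∀ v, Y (Y (Y (Y v))) = v)
    (hYfix : ∀ v, Y v = v → v = 0) (v : V) : v + Y v + Y (Y v) + Y (Y (Y v)) = 0 := by
  apply hYfix
  rw [map_add, map_add, map_add, hY4]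
  abel

set_option maxHeartbeats 1600000 in
theorem fpf4_sq_centralizes {H : Type*} [Group H] [Finite H] {p : ℕ} [Fact p.Prime]
    {V : Type*} [AddCommGroup V] [Module (ZMod p) V]
    (hp2 : p ≠ 2) (hodd : Odd (Nat.card H)) [Group.IsSolvable H]
    (θ : H →* Module.End (ZMod p) V) (hθ : Function.Injective θ)
    (σ : MulAut H) (hσ4 : ∀ h, σ (σ (σ (σ h))) = h) (hσfix : ∀ h, σ h = h → h = 1)
    (S : Module.End (ZMod p) V) (hS4 : ∀ v, S (S (S (S v))) = v) (hSfix : ∀ v, S v = v → v = 0)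
    (hSθ : ∀ h v, S (θ h v) = θ (σ h) (S v))
    (M : Subgroup H) (hMσ : ∀ x ∈ M, σ x ∈ M) (hMp : (Nat.card M).Coprime p) :
    ∀ x ∈ M, σ (σ x) = x := by
  classical
  have hp : p.Prime := Fact.out
  have hθmul : ∀ (a b : H) (v : V), θ a (θ b v) = θ (a * b) v := by
    intro a b v; rw [map_mul]; rfl
  by_contra hcon
  push Not at hcon
  obtain ⟨Q, hQS, hQmin⟩ :=
    (wellFounded_lt : WellFounded ((· < ·) : Subgroup H → Subgroup H → Prop)).has_min
      {Q : Subgroup H | Q ≤ M ∧ (∀ x ∈ Q, σ x ∈ Q) ∧ ∃ x ∈ Q, σ (σ x) ≠ x} ⟨M, le_rfl, hMσ, hcon⟩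
  obtain ⟨hQM, hQσ, x₀, hx₀Q, hx₀⟩ := hQS
  have hmin : ∀ R : Subgroup H, R ≤ Q → R ≠ Q → (∀ x ∈ R, σ x ∈ R) → ∀ x ∈ R, σ (σ x) = x := by
    intro R hRQ hne hRσ
    by_contra hc
    push Not at hc
    exact hQmin R ⟨hRQ.trans hQM, hRσ, hc⟩ (lt_of_le_of_ne hRQ hne)
  have hsq : ∀ c : H, c * c = 1 → c = 1 := by
    intro c hc
    have h1 : orderOf c ∣ 2 := orderOf_dvd_of_pow_eq_one (by rw [pow_two]; exact hc)
    have h2 : orderOf c ∣ Nat.card H := orderOf_dvd_natCard c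
    have h3 : Odd (orderOf c) := hodd.of_dvd_nat h2
    have h4 : orderOf c = 1 := by
      rcases (Nat.dvd_prime Nat.prime_two).mp h1 with h | h
      · exact h
      · rw [h] at h3; exact absurd h3 (by decide)
    exact orderOf_eq_one_iff.mp h4
  -- `Q = [Q, τ]`
  obtain ⟨Q₂, hQ₂⟩ : ∃ Q₂ : Subgroup H,
      Q₂ = Subgroup.closure {y | ∃ x ∈ Q, y = x⁻¹ * σ (σ x)} := ⟨_, rfl⟩
  have hQ₂Q : Q₂ ≤ Q := by
    rw [hQ₂, Subgroup.closure_le]
    rintro _ ⟨x, hx, rfl⟩
    exact Q.mul_mem (Q.inv_mem hx) (hQσ _ (hQσ x hx))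
  have hQ₂σ : ∀ y ∈ Q₂, σ y ∈ Q₂ := by
    intro y hy
    rw [hQ₂] at hy ⊢
    induction hy using Subgroup.closure_induction with
    | mem y hy =>
      obtain ⟨x, hx, rfl⟩ := hy
      apply Subgroup.subset_closure
      exact ⟨σ x, hQσ x hx, by rw [map_mul, map_inv]⟩
    | one => rw [map_one]; exact Subgroup.one_mem _
    | mul a b _ _ ha hb => rw [map_mul]; exact Subgroup.mul_mem _ ha hb
    | inv a _ ha => rw [map_inv]; exact Subgroup.inv_mem _ ha
  have hQ₂eq : Q₂ = Q := by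
    by_contra hne
    have h1 := hmin Q₂ hQ₂Q hne hQ₂σ
    apply hx₀
    have h2 : x₀⁻¹ * σ (σ x₀) ∈ Q₂ := by
      rw [hQ₂]; exact Subgroup.subset_closure ⟨x₀, hx₀Q, rfl⟩
    have h3 := h1 _ h2
    simp only [map_mul, map_inv, hσ4] at h3
    have h4 : (x₀⁻¹ * σ (σ x₀)) * (x₀⁻¹ * σ (σ x₀)) = 1 := by
      nth_rewrite 1 [← h3]
      group
    have h5 := hsq _ h4
    exact (inv_mul_eq_one.mp h5).symm
  have hQne : Q ≠ ⊥ := by
    intro hbot
    rw [hbot, Subgroup.mem_bot] at hx₀Q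
    apply hx₀; rw [hx₀Q, map_one, map_one]
  obtain ⟨D, hD⟩ : ∃ D : Subgroup H, D = ⁅Q, Q⁆ := ⟨_, rfl⟩
  have hDQ : D ≤ Q := by rw [hD]; exact (Group.IsSolvable.commutator_lt_of_ne_bot hQne).le
  have hDne : D ≠ Q := by rw [hD]; exact (Group.IsSolvable.commutator_lt_of_ne_bot hQne).ne
  have hDσ : ∀ y ∈ D, σ y ∈ D := by
    intro y hy
    have h1 : D.map σ.toMonoidHom ≤ D := by
      rw [hD, Subgroup.map_commutator]
      apply Subgroup.commutator_mono <;>
      · rintro _ ⟨x, hx, rfl⟩; exact hQσ x hx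
    exact h1 ⟨y, hy, rfl⟩
  have hDτ : ∀ y ∈ D, σ (σ y) = y := hmin D hDQ hDne hDσ
  have hDcent : ∀ c ∈ D, ∀ x ∈ Q, x * c = c * x := by
    intro c hc
    have h1 : Q₂ ≤ Subgroup.centralizer {c} := by
      rw [hQ₂, Subgroup.closure_le]
      rintro _ ⟨x, hx, rfl⟩
      rw [SetLike.mem_coe, Subgroup.mem_centralizer_iff]
      intro c' hc'
      rw [Set.mem_singleton_iff] at hc'
      rw [hc']
      have h2 : x * c * x⁻¹ ∈ D := by
        have h3 : x * c * x⁻¹ = ⁅x, c⁆ * c := by rw [commutatorElement_def]; group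
        rw [h3]
        exact D.mul_mem (by rw [hD]; exact Subgroup.commutator_mem_commutator hx (hDQ hc)) hc
      have h4 := hDτ _ h2
      simp only [map_mul, map_inv] at h4
      rw [hDτ c hc] at h4
      calc c * (x⁻¹ * σ (σ x)) = x⁻¹ * (x * c * x⁻¹) * σ (σ x) := by group
        _ = x⁻¹ * (σ (σ x) * c * (σ (σ x))⁻¹) * σ (σ x) := by rw [h4]
        _ = x⁻¹ * σ (σ x) * c := by group
    intro x hx
    have h5 : x ∈ Subgroup.centralizer {c} := h1 (by rw [hQ₂eq]; exact hx)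
    exact (Subgroup.mem_centralizer_iff.mp h5 c rfl).symm
  have hcopQ : (Nat.card Q).Coprime p :=
    Nat.Coprime.coprime_dvd_left (Subgroup.card_dvd_of_le hQM) hMp
  have hcopD : (Nat.card D).Coprime p :=
    Nat.Coprime.coprime_dvd_left (Subgroup.card_dvd_of_le hDQ) hcopQ
  have h2inv : ∀ v : V, v + v = 0 → v = 0 := by
    intro v hv
    have h1 : (2 : ZMod p) • v = 0 := by rw [two_smul]; exact hv
    have h2 : IsUnit (2 : ZMod p) := by
      have := (ZMod.isUnit_iff_coprime 2 p).mpr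
        ((Nat.coprime_primes Nat.prime_two hp).mpr (Ne.symm hp2))
      simpa using this
    exact (h2.smul_eq_zero).mp h1
  have hSneg : ∀ v, S (S v) = v → S v = -v := by
    intro v hv
    have h1 := norm4_eq_zero S hS4 hSfix v
    rw [hv] at h1
    have h2 : (v + S v) + (v + S v) = 0 := by rw [← h1]; abel
    exact eq_neg_of_add_eq_zero_right (h2inv _ h2)
  haveI : Fintype ↥D := Fintype.ofFinite _
  obtain ⟨E, hE⟩ : ∃ E : Module.End (ZMod p) V, E = ∑ z : ↥D, θ (z : H) := ⟨_, rfl⟩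
  have hEapp : ∀ v, E v = ∑ z : ↥D, θ (z : H) v := by
    intro v; rw [hE, LinearMap.sum_apply]
  have hσinvD : ∀ z ∈ D, σ z = z⁻¹ := by
    intro z hz
    have h1 : σ (z * σ z) = z * σ z := by
      rw [map_mul, hDτ z hz]
      exact hDcent z hz (σ z) (hDQ (hDσ z hz))
    have h2 := hσfix _ h1
    exact eq_inv_of_mul_eq_one_right h2
  have hEθ : ∀ x ∈ Q, ∀ v, E (θ x v) = θ x (E v) := by
    intro x hx v
    rw [hEapp, hEapp, map_sum]
    apply Finset.sum_congr rfl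
    intro z _
    rw [hθmul, hθmul, hDcent z z.2 x hx]
  have hES : ∀ v, E (S v) = S (E v) := by
    intro v
    rw [hEapp, hEapp, map_sum]
    have h1 : ∀ z : ↥D, S (θ (z : H) v) = θ ((z⁻¹ : ↥D) : H) (S v) := by
      intro z; rw [hSθ, hσinvD z z.2]; rfl
    rw [Finset.sum_congr rfl (fun z _ => h1 z)]
    exact (Equiv.sum_comp (Equiv.inv ↥D) (fun z : ↥D => θ (z : H) (S v))).symm
  have hθE : ∀ z ∈ D, ∀ v, E (θ z v) = E v := by
    intro z hz v
    rw [hEapp, hEapp]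
    have h1 : ∀ z' : ↥D, θ (z' : H) (θ z v) = θ (((z' * ⟨z, hz⟩ : ↥D)) : H) v := by
      intro z'; rw [hθmul]; rfl
    rw [Finset.sum_congr rfl (fun z' _ => h1 z')]
    exact Equiv.sum_comp (Equiv.mulRight (⟨z, hz⟩ : ↥D)) (fun z' : ↥D => θ (z' : H) v)
  have hB4 : ∀ w, E w = 0 → (∀ z ∈ D, θ z w = w) → w = 0 := by
    intro w hw hfix
    rw [hEapp] at hw
    have h1 : ∑ z : ↥D, θ (z : H) w = Fintype.card ↥D • w := by
      rw [Finset.sum_congr rfl (fun (z : ↥D) _ => hfix z z.2), Finset.sum_const, Finset.card_univ]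
    rw [h1] at hw
    have h2 : ((Fintype.card ↥D : ℕ) : ZMod p) • w = 0 := by
      rw [Nat.cast_smul_eq_nsmul]; exact hw
    have h3 : IsUnit ((Fintype.card ↥D : ℕ) : ZMod p) :=
      (ZMod.isUnit_iff_coprime _ _).mpr (by rw [← Nat.card_eq_fintype_card]; exact hcopD)
    exact h3.smul_eq_zero.mp h2
  have hsqD : ∀ z ∈ D, ∃ y ∈ D, y * y = z := by
    intro z hz
    have hoddz : Odd (orderOf z) := hodd.of_dvd_nat (orderOf_dvd_natCard z)
    obtain ⟨k, hk⟩ := hoddz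
    refine ⟨z ^ (k + 1), D.pow_mem hz _, ?_⟩
    rw [← pow_add]
    have h1 : k + 1 + (k + 1) = orderOf z + 1 := by omega
    rw [h1, pow_succ, pow_orderOf_eq_one, one_mul]
  have hB5 : ∀ w, E w = 0 → S (S w) = w → w = 0 := by
    intro w hw hSw
    apply hB4 w hw
    have hsq' : ∀ z ∈ D, θ (z * z) w = w := by
      intro z hz
      have h1 : S (S (θ z w)) = θ z w := by
        rw [hSθ, hSθ, hDτ z hz, hSw]
      have h2 := hSneg _ h1
      rw [hSθ, hσinvD z hz, hSneg w hSw, map_neg] at h2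
      have h3 : θ z⁻¹ w = θ z w := neg_injective h2
      rw [← hθmul, ← h3, hθmul, mul_inv_cancel, map_one]
      rfl
    intro z hz
    obtain ⟨y, hy, rfl⟩ := hsqD z hz
    exact hsq' y hy
  have hB6 : ∀ w, E w = 0 → S (S w) = -w := by
    intro w hw
    have h1 : w + S (S w) = 0 := by
      apply hB5
      · rw [map_add, hES, hES, hw, map_zero, map_zero, add_zero]
      · rw [map_add, map_add, hS4, add_comm]
    exact eq_neg_of_add_eq_zero_right h1
  have hB7 : ∀ x ∈ Q, ∀ w, E w = 0 → θ (x⁻¹ * σ (σ x)) w = w := by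
    intro x hx w hw
    have h1 : E (θ x w) = 0 := by rw [hEθ x hx, hw, map_zero]
    have h2 := hB6 _ h1
    rw [hSθ, hSθ, hB6 w hw, map_neg] at h2
    have h3 : θ (σ (σ x)) w = θ x w := neg_injective h2
    rw [← hθmul, h3, hθmul, inv_mul_cancel, map_one]
    rfl
  have hQfix : ∀ x ∈ Q, ∀ w, E w = 0 → θ x w = w := by
    obtain ⟨K, hK⟩ : ∃ K : Subgroup H, ∀ h, h ∈ K ↔ ∀ w, E w = 0 → θ h w = w := by
      refine ⟨{ carrier := {h | ∀ w, E w = 0 → θ h w = w}
                mul_mem' := ?_, one_mem' := ?_, inv_mem' := ?_ }, fun h => Iff.rfl⟩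
      · intro a b ha hb w hw
        rw [← hθmul, hb w hw, ha w hw]
      · intro w _; rw [map_one]; rfl
      · intro a ha w hw
        have h1 : θ a⁻¹ (θ a w) = w := by
          rw [hθmul, inv_mul_cancel, map_one]; rfl
        rw [ha w hw] at h1; exact h1
    have h1 : Q₂ ≤ K := by
      rw [hQ₂, Subgroup.closure_le]
      rintro _ ⟨x, hx, rfl⟩
      exact (hK _).mpr (hB7 x hx)
    intro x hx
    exact (hK x).mp (h1 (by rw [hQ₂eq]; exact hx))
  have hEinj : ∀ w, E w = 0 → w = 0 := by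
    intro w hw
    exact hB4 w hw (fun z hz => hQfix z (hDQ hz) w hw)
  have hDbot : ∀ z ∈ D, z = 1 := by
    intro z hz
    apply hθ
    rw [map_one]
    apply LinearMap.ext
    intro v
    have h1 : E (θ z v - v) = 0 := by rw [map_sub, hθE z hz, sub_self]
    have h2 := hEinj _ h1
    rw [Module.End.one_apply]
    exact sub_eq_zero.mp h2
  -- now `Q` is abelian and inverted by `τ`
  have hQab : ∀ x ∈ Q, ∀ y ∈ Q, x * y = y * x := by
    intro x hx y hy
    have h1 : ⁅x, y⁆ ∈ D := by rw [hD]; exact Subgroup.commutator_mem_commutator hx hy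
    have h2 := hDbot _ h1
    rw [commutatorElement_def] at h2
    calc x * y = x * y * x⁻¹ * y⁻¹ * (y * x) := by group
      _ = y * x := by rw [h2, one_mul]
  have hτinv' : ∀ y ∈ Subgroup.closure {y | ∃ x ∈ Q, y = x⁻¹ * σ (σ x)},
      y * σ (σ y) = 1 := by
    intro y hy
    induction hy using Subgroup.closure_induction with
    | mem y hy =>
      obtain ⟨x, hx, rfl⟩ := hy
      simp only [map_mul, map_inv, hσ4]
      group
    | one => simp
    | mul a b ha hb iha ihb =>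
      have haQ : a ∈ Q := hQ₂Q (by rw [hQ₂]; exact ha)
      have hbQ : b ∈ Q := hQ₂Q (by rw [hQ₂]; exact hb)
      have h1 : b * σ (σ a) = σ (σ a) * b := hQab b hbQ _ (hQσ _ (hQσ a haQ))
      calc a * b * σ (σ (a * b)) = a * (b * σ (σ a)) * σ (σ b) := by
            simp only [map_mul]; group
        _ = (a * σ (σ a)) * (b * σ (σ b)) := by rw [h1]; group
        _ = 1 := by rw [iha, ihb, one_mul]
    | inv a ha iha =>
      have haQ : a ∈ Q := hQ₂Q (by rw [hQ₂]; exact ha)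
      have h1 : a * σ (σ a) = σ (σ a) * a := hQab a haQ _ (hQσ _ (hQσ a haQ))
      calc a⁻¹ * σ (σ a⁻¹) = (σ (σ a) * a)⁻¹ := by simp only [map_inv]; group
        _ = 1 := by rw [← h1, iha, inv_one]
  have hτinv : ∀ x ∈ Q, x * σ (σ x) = 1 := by
    intro x hx
    apply hτinv'
    rw [← hQ₂, hQ₂eq]; exact hx
  have hτQ : ∀ x ∈ Q, σ (σ x) = x⁻¹ := fun x hx => eq_inv_of_mul_eq_one_right (hτinv x hx)
  have hsurj : ∀ x ∈ Q, ∃ h ∈ Q, x = h⁻¹ * σ h := by
    obtain ⟨f, hf⟩ : ∃ f : ↥Q → ↥Q, ∀ h, (f h : H) = (h : H)⁻¹ * σ h :=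
      ⟨fun h => ⟨(h : H)⁻¹ * σ h, Q.mul_mem (Q.inv_mem h.2) (hQσ _ h.2)⟩, fun h => rfl⟩
    have hfinj : Function.Injective f := by
      intro h k hhk
      have h1 := congrArg Subtype.val hhk
      rw [hf, hf] at h1
      have h2 : σ ((k : H) * (h : H)⁻¹) = (k : H) * (h : H)⁻¹ := by
        rw [map_mul, map_inv]
        have h3 : σ (k : H) = (k : H) * ((h : H)⁻¹ * σ (h : H)) := by rw [h1]; group
        rw [h3]; group
      have h3 := hσfix _ h2
      apply Subtype.ext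
      exact (mul_inv_eq_one.mp h3).symm
    have hfsurj := (Finite.injective_iff_bijective.mp hfinj).2
    intro x hx
    obtain ⟨h, hh⟩ := hfsurj ⟨x, hx⟩
    refine ⟨h, h.2, ?_⟩
    have h1 := congrArg Subtype.val hh
    rw [hf] at h1
    exact h1.symm
  have hYfix : ∀ x ∈ Q, ∀ v, θ x (S v) = v → v = 0 := by
    intro x hx v hv
    obtain ⟨h, hh, rfl⟩ := hsurj x hx
    have h1 : S (θ h v) = θ h v := by
      rw [hSθ]
      have h2 : θ (σ h) (S v) = θ h (θ (h⁻¹ * σ h) (S v)) := by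
        rw [hθmul, mul_inv_cancel_left]
      rw [h2, hv]
    have h3 := hSfix _ h1
    have h4 : θ h⁻¹ (θ h v) = v := by
      rw [hθmul, inv_mul_cancel, map_one]; rfl
    rw [h3, map_zero] at h4
    exact h4.symm
  have hy2 : ∀ x ∈ Q, ∀ v, θ x (S (θ x (S v))) = θ (x * σ x) (S (S v)) := by
    intro x hx v; rw [hSθ, hθmul]
  have hy3 : ∀ x ∈ Q, ∀ v, θ x (S (θ (x * σ x) (S (S v)))) = θ (σ x) (S (S (S v))) := by
    intro x hx v
    rw [hSθ, hθmul]
    have h1 : x * σ (x * σ x) = σ x := by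
      rw [map_mul, hτQ x hx, hQab (σ x) (hQσ x hx) x⁻¹ (Q.inv_mem hx), mul_inv_cancel_left]
    rw [h1]
  have hy4 : ∀ x ∈ Q, ∀ v, θ x (S (θ (σ x) (S (S (S v))))) = v := by
    intro x hx v
    rw [hSθ, hS4, hθmul, hτinv x hx, map_one]; rfl
  have hNx : ∀ x ∈ Q, ∀ v,
      v + θ x (S v) + θ (x * σ x) (S (S v)) + θ (σ x) (S (S (S v))) = 0 := by
    intro x hx v
    have h4 : ∀ v, (θ x * S) ((θ x * S) ((θ x * S) ((θ x * S) v))) = v := by
      intro v
      simp only [Module.End.mul_apply]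
      rw [hy2 x hx v, hy3 x hx v, hy4 x hx v]
    have h1 := norm4_eq_zero (θ x * S) h4 (fun v hv => hYfix x hx v hv) v
    simp only [Module.End.mul_apply] at h1
    rw [hy2 x hx v, hy3 x hx v] at h1
    exact h1
  haveI : Fintype ↥Q := Fintype.ofFinite _
  obtain ⟨EQ, hEQ⟩ : ∃ EQ : Module.End (ZMod p) V, EQ = ∑ x : ↥Q, θ (x : H) := ⟨_, rfl⟩
  have hEQapp : ∀ v, EQ v = ∑ x : ↥Q, θ (x : H) v := by
    intro v; rw [hEQ, LinearMap.sum_apply]
  have hre1 : ∀ u : V, ∑ x : ↥Q, θ (σ (x : H)) u = EQ u := by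
    intro u
    obtain ⟨f, hf⟩ : ∃ f : ↥Q → ↥Q, ∀ h, (f h : H) = σ h :=
      ⟨fun h => ⟨σ h, hQσ _ h.2⟩, fun h => rfl⟩
    have hfinj : Function.Injective f := by
      intro h k hhk
      have h1 := congrArg Subtype.val hhk
      rw [hf, hf] at h1
      exact Subtype.ext (σ.injective h1)
    rw [hEQapp]
    have h2 := Equiv.sum_comp (Equiv.ofBijective f (Finite.injective_iff_bijective.mp hfinj))
      (fun x : ↥Q => θ (x : H) u)
    rw [← h2]
    apply Finset.sum_congr rfl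
    intro x _
    show θ (σ (x : H)) u = θ ((f x : ↥Q) : H) u
    rw [hf]
  have hre2 : ∀ u : V, ∑ x : ↥Q, θ ((x : H) * σ (x : H)) u = EQ u := by
    intro u
    obtain ⟨f, hf⟩ : ∃ f : ↥Q → ↥Q, ∀ h, (f h : H) = (h : H) * σ h :=
      ⟨fun h => ⟨(h : H) * σ h, Q.mul_mem h.2 (hQσ _ h.2)⟩, fun h => rfl⟩
    have hfinj : Function.Injective f := by
      intro h k hhk
      have h1 := congrArg Subtype.val hhk
      rw [hf, hf] at h1
      -- `u = k⁻¹ h` satisfies `u σ(u) = 1`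
      have hu : (k : H)⁻¹ * (h : H) ∈ Q := Q.mul_mem (Q.inv_mem k.2) h.2
      have h2 : ((k : H)⁻¹ * (h : H)) * σ ((k : H)⁻¹ * (h : H)) = 1 := by
        rw [map_mul, map_inv]
        have h3 : (h : H) * (σ (k : H))⁻¹ = (σ (k : H))⁻¹ * (h : H) :=
          hQab _ h.2 _ (Q.inv_mem (hQσ _ k.2))
        calc (k : H)⁻¹ * (h : H) * ((σ (k : H))⁻¹ * σ (h : H))
            = (k : H)⁻¹ * ((h : H) * (σ (k : H))⁻¹) * σ (h : H) := by group
          _ = (k : H)⁻¹ * (σ (k : H))⁻¹ * ((h : H) * σ (h : H)) := by rw [h3]; group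
          _ = 1 := by rw [h1, hQab _ k.2 _ (hQσ _ k.2)]; group
      have h4 : σ ((k : H)⁻¹ * (h : H)) = ((k : H)⁻¹ * (h : H))⁻¹ :=
        eq_inv_of_mul_eq_one_right h2
      have h5 : σ (σ ((k : H)⁻¹ * (h : H))) = (k : H)⁻¹ * (h : H) := by
        rw [h4, map_inv, h4, inv_inv]
      rw [hτQ _ hu] at h5
      have h6 : ((k : H)⁻¹ * (h : H)) * ((k : H)⁻¹ * (h : H)) = 1 := by
        nth_rewrite 1 [← h5]
        exact inv_mul_cancel _
      have h7 := hsq _ h6
      apply Subtype.ext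
      exact (inv_mul_eq_one.mp h7).symm
    rw [hEQapp]
    have h2 := Equiv.sum_comp (Equiv.ofBijective f (Finite.injective_iff_bijective.mp hfinj))
      (fun x : ↥Q => θ (x : H) u)
    rw [← h2]
    apply Finset.sum_congr rfl
    intro x _
    show θ ((x : H) * σ (x : H)) u = θ ((f x : ↥Q) : H) u
    rw [hf]
  have hsum : ∀ v, (Fintype.card ↥Q) • v = EQ v := by
    intro v
    have h1 : ∑ x : ↥Q, (v + θ (x : H) (S v) + θ ((x : H) * σ (x : H)) (S (S v)) +
        θ (σ (x : H)) (S (S (S v)))) = 0 :=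
      Finset.sum_eq_zero (fun x _ => hNx x x.2 v)
    rw [Finset.sum_add_distrib, Finset.sum_add_distrib, Finset.sum_add_distrib,
      Finset.sum_const, Finset.card_univ, hre1, hre2, ← hEQapp] at h1
    have h2 := norm4_eq_zero S hS4 hSfix v
    have h3 : S v + S (S v) + S (S (S v)) = -v := by
      rw [← add_right_inj v, add_neg_cancel, ← h2]; abel
    have h4 : EQ (S v) + EQ (S (S v)) + EQ (S (S (S v))) = - EQ v := by
      rw [← map_add, ← map_add, h3, map_neg]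
    have h5 : Fintype.card ↥Q • v + (EQ (S v) + EQ (S (S v)) + EQ (S (S (S v)))) = 0 := by
      rw [← h1]; abel
    rw [h4] at h5
    exact eq_of_sub_eq_zero (by rw [sub_eq_add_neg]; exact h5)
  have hθEQ : ∀ x ∈ Q, ∀ v, θ x (EQ v) = EQ v := by
    intro x hx v
    rw [hEQapp, map_sum]
    have h1 : ∀ z' : ↥Q, θ x (θ (z' : H) v) = θ ((((⟨x, hx⟩ : ↥Q) * z' : ↥Q)) : H) v := by
      intro z'; rw [hθmul]; rfl
    rw [Finset.sum_congr rfl (fun z' _ => h1 z')]
    exact Equiv.sum_comp (Equiv.mulLeft (⟨x, hx⟩ : ↥Q)) (fun z' : ↥Q => θ (z' : H) v)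
  have hx₀1 : x₀ = 1 := by
    apply hθ
    rw [map_one]
    apply LinearMap.ext
    intro v
    rw [Module.End.one_apply]
    have h1 := hθEQ x₀ hx₀Q v
    rw [← hsum v, map_nsmul] at h1
    have h2 : (Fintype.card ↥Q) • (θ x₀ v - v) = 0 := by rw [nsmul_sub, h1, sub_self]
    have h3 : ((Fintype.card ↥Q : ℕ) : ZMod p) • (θ x₀ v - v) = 0 := by
      rw [Nat.cast_smul_eq_nsmul]; exact h2
    have h4 : IsUnit ((Fintype.card ↥Q : ℕ) : ZMod p) :=
      (ZMod.isUnit_iff_coprime _ _).mpr (by rw [← Nat.card_eq_fintype_card]; exact hcopQ)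
    exact sub_eq_zero.mp (h4.smul_eq_zero.mp h3)
  apply hx₀
  rw [hx₀1, map_one, map_one]

end Cfsg.Agent.H66
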