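import Cfsg.Agent.H66.GYDefs
import Cfsg.Agent.H14.Cores
import Cfsg.Agent.H80.PSolvable

/-!
# Assembly of the Gaschütz–Yen theorem (S3798) from `Red`, `Lift` and `Main`
-/

set_option autoImplicit false
set_option linter.style.haveILetI false
set_option linter.unusedVariables false
set_option linter.unusedSectionVars false

namespace Cfsg.Agent.H66.GY

open Cfsg

universe u

theorem gy_main (hRed : RedStatement.{u}) (hLift : LiftStatement.{u}) (hMain : MainStatement.{u})
    {G : Type u} [Group G] [Finite G] {p : ℕ} [Fact p.Prime] (hp : p ≠ 2)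
    (hdvd : p ∣ Nat.card G) (hG : Cfsg.IsPSolvable p G)
    (htrans : ∀ U V : Subgroup G, Nat.card U = p → Nat.card V = p →
      ∃ a : MulAut G, U.map a.toMonoidHom = V) : Cfsg.PLengthLE p 1 G := by
  apply hLift G p
  have hcop : (Nat.card (pPrimeCore p G)).Coprime p := H14.pPrimeCore_coprime p G
  have hcard : Nat.card G = Nat.card (G ⧸ pPrimeCore p G) * Nat.card (pPrimeCore p G) :=
    Subgroup.card_eq_card_quotient_mul_card_subgroup (pPrimeCore p G)
  have hdvd' : p ∣ Nat.card (G ⧸ pPrimeCore p G) := by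
    rw [hcard] at hdvd
    exact (Nat.Coprime.dvd_mul_right hcop.symm).mp hdvd
  exact hMain (G ⧸ pPrimeCore p G) p hp hdvd' (H80.isPSolvable_quotient p _ hG)
    (H14.pPrimeCore_quotient_eq_bot p G) (hRed G p htrans)

end Cfsg.Agent.H66.GY
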