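import Mathlib
import Cfsg.Agent.H66.GrossDefs
import Cfsg.Agent.H66.Fpf4
import Cfsg.Agent.H27.Rad

/-!
# Gross's theorem: assembly

* `k_holds`: **K** from G1, G2a, G2b1, G2b2.
* `chain_of_K`: the chain of length `2n - 2` by induction on `n`, from **K** and the case `n = 2`.
* `gross_of_chain`: the `Fin`-indexed statement.
-/

set_option autoImplicit false
set_option linter.style.haveILetI false
set_option linter.unusedVariables false
set_option linter.unusedSectionVars false

namespace Cfsg.Agent.H66.Gross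

open Cfsg
open scoped commutatorElement

universe u

theorem fittingSubgroup_char (G : Type u) [Group G] : (fittingSubgroup G).Characteristic :=
  H27.rad_characteristic H27.isoInv_nilpotent G

theorem aut_mem_iff_of_char {G : Type*} [Group G] (N : Subgroup G) (hN : N.Characteristic)
    (σ : MulAut G) (x : G) : x ∈ N ↔ σ x ∈ N := by
  have h2 : x ∈ N.comap σ.toMonoidHom ↔ x ∈ N := by rw [hN.fixed σ]
  exact ⟨fun hx => h2.mpr hx, fun hx => h2.mp hx⟩

/-- The automorphism induced on the quotient by a characteristic subgroup. -/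
theorem exists_quot_aut {G : Type*} [Group G] (N : Subgroup G) [N.Normal]
    (σ : MulAut G) (hσN : ∀ x, x ∈ N ↔ σ x ∈ N) :
    ∃ φ : MulAut (G ⧸ N), ∀ g, φ (QuotientGroup.mk' N g) = QuotientGroup.mk' N (σ g) := by
  have hmap : N.map (σ : G →* G) = N := by
    apply le_antisymm
    · rintro _ ⟨x, hx, rfl⟩; exact (hσN x).mp hx
    · intro x hx
      refine ⟨σ.symm x, (hσN _).mpr (by rw [MulEquiv.apply_symm_apply]; exact hx), ?_⟩
      exact MulEquiv.apply_symm_apply σ x
  exact ⟨QuotientGroup.congr N N σ hmap, fun g => rfl⟩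

theorem quot_aut_pow {G : Type*} [Group G] (N : Subgroup G) [N.Normal]
    (σ : MulAut G) (φ : MulAut (G ⧸ N))
    (hφ : ∀ g, φ (QuotientGroup.mk' N g) = QuotientGroup.mk' N (σ g)) (k : ℕ) (g : G) :
    (φ ^ k) (QuotientGroup.mk' N g) = QuotientGroup.mk' N ((σ ^ k) g) := by
  induction k generalizing g with
  | zero => simp
  | succ k ih =>
    rw [pow_succ, pow_succ, MulAut.mul_apply, MulAut.mul_apply, hφ, ih]

theorem quot_aut_fpf {G : Type*} [Group G] [Finite G] (N : Subgroup G) [N.Normal]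
    (σ : MulAut G) (hσN : ∀ x, x ∈ N ↔ σ x ∈ N) (φ : MulAut (G ⧸ N))
    (hφ : ∀ g, φ (QuotientGroup.mk' N g) = QuotientGroup.mk' N (σ g))
    (hfpf : ∀ g : G, σ g = g → g = 1) : ∀ h : G ⧸ N, φ h = h → h = 1 := by
  intro h hh
  obtain ⟨g, rfl⟩ := QuotientGroup.mk'_surjective N h
  rw [hφ] at hh
  have h1 : (σ g)⁻¹ * g ∈ N := QuotientGroup.eq.mp hh
  have h2 : g⁻¹ * σ g ∈ N := by
    have := N.inv_mem h1
    rwa [mul_inv_rev, inv_inv] at this
  have h3 := H66.fpf_quotient σ N (fun x hx => (hσN x).mp hx) hfpf g h2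
  exact (QuotientGroup.eq_one_iff g).mpr h3

/-- **K** from the global pieces. -/
theorem k_holds (hG1 : G1Statement.{u}) (hG2a : G2aStatement.{u}) (hG2b1 : G2b1Statement.{u})
    (hG2b2 : G2b2Statement.{u}) : KStatement.{u} := by
  intro G _ _ hsol σ n hn hσ hfpf N _ hN g
  have hNchar : N.Characteristic := by rw [hN]; exact fittingSubgroup_char G
  have hσN : ∀ x, x ∈ N ↔ σ x ∈ N := aut_mem_iff_of_char N hNchar σ
  obtain ⟨φ, hφ⟩ := exists_quot_aut N σ hσN
  have hφpow := quot_aut_pow N σ φ hφ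
  have hφ1 : φ ^ (2 ^ n) = 1 := by
    ext h
    obtain ⟨g, rfl⟩ := QuotientGroup.mk'_surjective N h
    rw [hφpow, hσ]; rfl
  have hφfpf := quot_aut_fpf N σ hσN φ hφ hfpf
  haveI : Group.IsSolvable G := hsol
  have hsolQ : Group.IsSolvable (G ⧸ N) := inferInstance
  have hsep : ∀ (q : ℕ) [Fact q.Prime], LinSep (G ⧸ N) φ n q := fun q _ =>
    hG2b2 (G ⧸ N) φ n q (hG2b1 G hsol σ n hn hσ hfpf N hN φ hφ q)
  have hKH : ∀ (q s : ℕ) [Fact q.Prime] [Fact s.Prime], q ≠ s → ∀ (S : Subgroup (G ⧸ N)),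
      IsPGroup s S → (∀ x ∈ S, φ x ∈ S) → ∀ y ∈ S, (φ ^ (2 ^ (n - 1))) y = y⁻¹ →
      ∀ x ∈ pCore q (G ⧸ N), y * x = x * y := fun q s _ _ hqs S hS hSσ y hy hyinv x hx =>
    hG1 (G ⧸ N) φ n hn hφ1 hφfpf q s hqs (hsep q) S hS hSσ y hy hyinv x hx
  have key := hG2a (G ⧸ N) hsolQ φ n hn hφ1 hφfpf hKH (QuotientGroup.mk' N g)
  rw [hφpow, ← map_inv, ← map_mul] at key
  exact key

/-- Chains of normal subgroups with nilpotent factors, indexed by `ℕ`. -/
def ChainProp (G : Type u) [Group G] (m : ℕ) : Prop :=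
  ∃ F : ℕ → Subgroup G, F 0 = ⊥ ∧ F m = ⊤ ∧ (∀ i, F i ≤ F (i + 1)) ∧ (∀ i, (F i).Normal) ∧
    ∀ i, i < m → ∃ k : ℕ, (F (i + 1)).lowerCentralSeries k ≤ F i

theorem lcs_comap_le {G G' : Type*} [Group G] [Group G'] (f : G →* G')
    (hf : Function.Surjective f) (A B : Subgroup G') (k : ℕ)
    (h : A.lowerCentralSeries k ≤ B) : (A.comap f).lowerCentralSeries k ≤ B.comap f := by
  rw [← Subgroup.map_le_iff_le_comap, Subgroup.map_lowerCentralSeries,
    Subgroup.map_comap_eq_self_of_surjective hf]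
  exact h

set_option maxHeartbeats 1600000 in
/-- The induction: from **K** and the case `n = 2`. -/
theorem chain_of_K (hK : KStatement.{u})
    (hbase : ∀ (G : Type u) [Group G] [Finite G], Group.IsSolvable G → ∀ σ : MulAut G,
      σ ^ 4 = 1 → (∀ g : G, σ g = g → g = 1) → Group.IsNilpotent (commutator G)) :
    ∀ (n : ℕ), 2 ≤ n → ∀ (G : Type u) [Group G] [Finite G], Group.IsSolvable G →
      ∀ σ : MulAut G, σ ^ (2 ^ n) = 1 → (∀ g : G, σ g = g → g = 1) → ChainProp G (2 * n - 2) := by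
  intro n hn
  induction n, hn using Nat.le_induction with
  | base =>
    intro G _ _ hsol σ hσ hfpf
    have hnil := hbase G hsol σ (by simpa using hσ) hfpf
    obtain ⟨k, hk⟩ := (Subgroup.isNilpotent_iff_lowerCentralSeries _).mp hnil
    obtain ⟨F, hF⟩ : ∃ F : ℕ → Subgroup G,
        ∀ i, F i = if i = 0 then ⊥ else if i = 1 then commutator G else ⊤ := ⟨_, fun i => rfl⟩
    have hF0 : F 0 = ⊥ := by rw [hF]; simp
    have hF1 : F 1 = commutator G := by rw [hF]; simp
    have hF2 : ∀ i, F (i + 2) = ⊤ := by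
      intro i; rw [hF, if_neg (by omega), if_neg (by omega)]
    refine ⟨F, hF0, hF2 0, ?_, ?_, ?_⟩
    · intro i
      rcases i with _ | _ | i
      · rw [hF0]; exact bot_le
      · show F 1 ≤ F 2
        rw [hF2 0]; exact le_top
      · rw [hF2 (i + 1)]; exact le_top
    · intro i
      rcases i with _ | _ | i
      · rw [hF0]; infer_instance
      · show (F 1).Normal
        rw [hF1]; infer_instance
      · rw [hF2 i]; infer_instance
    · intro i hi
      have hi2 : i < 2 := by omega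
      rcases i with _ | _ | i
      · refine ⟨k, ?_⟩
        show (F 1).lowerCentralSeries k ≤ F 0
        rw [hF1, hk]; exact bot_le
      · refine ⟨1, ?_⟩
        show (F 2).lowerCentralSeries 1 ≤ F 1
        rw [hF2 0, hF1, Subgroup.top_lowerCentralSeries_one]
      · omega
  | succ n hn ih =>
    intro G _ _ hsol σ hσ hfpf
    haveI : Group.IsSolvable G := hsol
    obtain ⟨N, hN⟩ : ∃ N : Subgroup G, N = fittingSubgroup G := ⟨_, rfl⟩
    have hNchar : N.Characteristic := by rw [hN]; exact fittingSubgroup_char G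
    haveI hNn : N.Normal := Subgroup.normal_of_characteristic N
    have hσN : ∀ x, x ∈ N ↔ σ x ∈ N := aut_mem_iff_of_char N hNchar σ
    obtain ⟨φ, hφ⟩ := exists_quot_aut N σ hσN
    have hKg := hK G hsol σ (n + 1) (by omega) hσ hfpf N hN
    rw [Nat.add_sub_cancel] at hKg
    -- the second Fitting subgroup
    obtain ⟨F₂, hF₂⟩ : ∃ F₂ : Subgroup G,
        F₂ = (fittingSubgroup (G ⧸ N)).comap (QuotientGroup.mk' N) := ⟨_, rfl⟩
    have hFQchar : (fittingSubgroup (G ⧸ N)).Characteristic := fittingSubgroup_char (G ⧸ N)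
    haveI hFQn : (fittingSubgroup (G ⧸ N)).Normal := Subgroup.normal_of_characteristic _
    haveI hF₂n : F₂.Normal := by rw [hF₂]; infer_instance
    have hNF₂ : N ≤ F₂ := by
      intro x hx
      rw [hF₂, Subgroup.mem_comap]
      have : QuotientGroup.mk' N x = 1 := (QuotientGroup.eq_one_iff x).mpr hx
      rw [this]; exact Subgroup.one_mem _
    have hσF₂ : ∀ x, x ∈ F₂ ↔ σ x ∈ F₂ := by
      intro x
      rw [hF₂, Subgroup.mem_comap, Subgroup.mem_comap, ← hφ]
      exact aut_mem_iff_of_char _ hFQchar φ _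
    obtain ⟨ψ, hψ⟩ := exists_quot_aut F₂ σ hσF₂
    have hψpow := quot_aut_pow F₂ σ ψ hψ
    have hψ1 : ψ ^ (2 ^ n) = 1 := by
      ext h
      obtain ⟨g, rfl⟩ := QuotientGroup.mk'_surjective F₂ h
      rw [hψpow]
      show QuotientGroup.mk' F₂ ((σ ^ 2 ^ n) g) = QuotientGroup.mk' F₂ g
      have h1 : g⁻¹ * (σ ^ 2 ^ n) g ∈ F₂ := by
        rw [hF₂, Subgroup.mem_comap]; exact hKg g
      exact (QuotientGroup.eq.mpr h1).symm
    have hψfpf := quot_aut_fpf F₂ σ hσF₂ ψ hψ hfpf
    have hsolQ : Group.IsSolvable (G ⧸ F₂) := inferInstance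
    obtain ⟨Fb, hFb0, hFbm, hFbmono, hFbn, hFbnil⟩ := ih (G ⧸ F₂) hsolQ ψ hψ1 hψfpf
    have hsurj : Function.Surjective (QuotientGroup.mk' F₂) := QuotientGroup.mk'_surjective F₂
    obtain ⟨F, hF⟩ : ∃ F : ℕ → Subgroup G, ∀ i, F i = if i = 0 then ⊥ else if i = 1 then N
        else (Fb (i - 2)).comap (QuotientGroup.mk' F₂) := ⟨_, fun i => rfl⟩
    have hF0 : F 0 = ⊥ := by rw [hF]; simp
    have hF1 : F 1 = N := by rw [hF]; simp
    have hF2 : ∀ i, F (i + 2) = (Fb i).comap (QuotientGroup.mk' F₂) := by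
      intro i; rw [hF, if_neg (by omega), if_neg (by omega), Nat.add_sub_cancel]
    have hF2' : F 2 = F₂ := by
      rw [hF2 0, hFb0]
      ext x
      rw [Subgroup.mem_comap, Subgroup.mem_bot]
      exact QuotientGroup.eq_one_iff x
    refine ⟨F, hF0, ?_, ?_, ?_, ?_⟩
    · have h3 : 2 * (n + 1) - 2 = (2 * n - 2) + 2 := by omega
      rw [h3, hF2, hFbm, Subgroup.comap_top]
    · intro i
      rcases i with _ | _ | i
      · rw [hF0]; exact bot_le
      · show F 1 ≤ F 2
        rw [hF1, hF2']; exact hNF₂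
      · show F (i + 2) ≤ F (i + 1 + 2)
        rw [hF2, hF2]
        exact Subgroup.comap_mono (hFbmono i)
    · intro i
      rcases i with _ | _ | i
      · rw [hF0]; infer_instance
      · show (F 1).Normal
        rw [hF1]; exact hNn
      · rw [hF2 i]
        haveI := hFbn i
        infer_instance
    · intro i hi
      rcases i with _ | _ | i
      · -- `N` nilpotent
        have hnil : Group.IsNilpotent N := by rw [hN]; exact H27.fitting_nilpotent
        obtain ⟨k, hk⟩ := (Subgroup.isNilpotent_iff_lowerCentralSeries _).mp hnil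
        refine ⟨k, ?_⟩
        show (F 1).lowerCentralSeries k ≤ F 0
        rw [hF1, hk]; exact bot_le
      · -- `F₂ / N` nilpotent
        have hnil : Group.IsNilpotent (fittingSubgroup (G ⧸ N)) := H27.fitting_nilpotent
        obtain ⟨k, hk⟩ := (Subgroup.isNilpotent_iff_lowerCentralSeries _).mp hnil
        refine ⟨k, ?_⟩
        show (F 2).lowerCentralSeries k ≤ F 1
        rw [hF2', hF1]
        have h1 : (F₂.lowerCentralSeries k).map (QuotientGroup.mk' N) = ⊥ := by
          rw [Subgroup.map_lowerCentralSeries, hF₂,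
            Subgroup.map_comap_eq_self_of_surjective (QuotientGroup.mk'_surjective N), hk]
        intro x hx
        have h2 : QuotientGroup.mk' N x ∈ (F₂.lowerCentralSeries k).map (QuotientGroup.mk' N) :=
          ⟨x, hx, rfl⟩
        rw [h1, Subgroup.mem_bot] at h2
        exact (QuotientGroup.eq_one_iff x).mp h2
      · have hi' : i < 2 * n - 2 := by omega
        obtain ⟨k, hk⟩ := hFbnil i hi'
        refine ⟨k, ?_⟩
        show (F (i + 1 + 2)).lowerCentralSeries k ≤ F (i + 2)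
        rw [hF2, hF2]
        exact lcs_comap_le _ hsurj _ _ k hk

/-- From the `ℕ`-indexed chain to the `Fin`-indexed statement. -/
theorem gross_of_chain {G : Type u} [Group G] (m : ℕ) (h : ChainProp G m) :
    ∃ F : Fin (m + 1) → Subgroup G, F 0 = ⊥ ∧ F (Fin.last m) = ⊤ ∧ Monotone F ∧
      (∀ i, (F i).Normal) ∧
      ∀ i : Fin m, ∃ k : ℕ, (F i.succ).lowerCentralSeries k ≤ F i.castSucc := by
  obtain ⟨F, hF0, hFm, hFmono, hFn, hFnil⟩ := h
  refine ⟨fun i => F i.val, hF0, hFm, ?_, fun i => hFn i.val, ?_⟩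
  · intro i j hij
    exact monotone_nat_of_le_succ hFmono hij
  · intro i
    exact hFnil i.val i.isLt

end Cfsg.Agent.H66.Gross
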