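import Mathlib
import Cfsg.Agent.H66.GrossDefs
import Cfsg.Agent.H66.GrossAsm
import Cfsg.Agent.H66.GrossSmall
import Cfsg.Agent.H66.Fpf4
import Cfsg.Agent.H66.ZRep
import Cfsg.Agent.H27.Rad

/-!
# Gross's theorem: piece G2B1 (separation of `O_q(G / F(G))` by the modules `O_r / Φ(O_r)`)
-/

set_option autoImplicit false
set_option linter.style.haveILetI false
set_option linter.unusedVariables false
set_option linter.unusedSectionVars false

namespace Cfsg.Agent.H66.Gross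

open Cfsg
open scoped commutatorElement

universe u

set_option maxHeartbeats 1600000 in
/-- The module `O_p / Φ(O_p)` with the operator induced by a fixed-point-free automorphism. -/
theorem exists_fpf_zmod {Γ : Type u} [Group Γ] [Finite Γ] {p : ℕ} [Fact p.Prime]
    (hsol : IsPSolvable p Γ) (hO : pPrimeCore p Γ = ⊥) (φ : MulAut Γ) (n : ℕ)
    (hφn : φ ^ (2 ^ n) = 1) (hφfix : ∀ g, φ g = g → g = 1) :
    ∃ (V : Type u) (_ : AddCommGroup V) (_ : Module (ZMod p) V) (_ : Finite V)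
      (ρ : Γ →* Module.End (ZMod p) V) (X : Module.End (ZMod p) V),
      IsFpfMod φ n ρ X ∧ ∀ g, ρ g = 1 ↔ g ∈ pCore p Γ := by
  classical
  have hp : p.Prime := Fact.out
  obtain ⟨P₁, hP₁⟩ : ∃ P₁ : Subgroup Γ, P₁ = pCore p Γ := ⟨_, rfl⟩
  rw [← hP₁]
  haveI hP₁n : P₁.Normal := by rw [hP₁]; infer_instance
  have hP₁p : IsPGroup p P₁ := by rw [hP₁]; exact H14.pCore_isPGroup p Γ
  have hP₁char : P₁.Characteristic := by rw [hP₁]; exact H11.pCore_characteristic p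
  have hφP : ∀ x, x ∈ P₁ ↔ φ x ∈ P₁ := aut_mem_iff_of_char P₁ hP₁char φ
  obtain ⟨Φ, hΦ⟩ : ∃ Φ : Subgroup Γ, Φ = (frattini ↥P₁).map P₁.subtype := ⟨_, rfl⟩
  haveI hΦn : Φ.Normal := by
    rw [hΦ]
    apply Subgroup.normalizer_eq_top_iff.mp
    rw [eq_top_iff]
    refine le_trans ?_ (H1.normalizer_le_normalizer_map_of_characteristic P₁ (frattini ↥P₁))
    rw [Subgroup.normalizer_eq_top_iff.mpr hP₁n]
  obtain ⟨ψ, hψ⟩ : ∃ ψ : ↥P₁ ≃* ↥P₁, ∀ y : ↥P₁, ((ψ y : ↥P₁) : Γ) = φ y := by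
    refine ⟨{ toFun := fun y => ⟨φ y, (hφP y).mp y.2⟩
              invFun := fun y => ⟨φ.symm y,
                (hφP _).mpr (by rw [MulEquiv.apply_symm_apply]; exact y.2)⟩
              left_inv := fun y => Subtype.ext (by simp)
              right_inv := fun y => Subtype.ext (by simp)
              map_mul' := fun y z => Subtype.ext (by simp) }, fun y => rfl⟩
  have hΦφ : ∀ x ∈ Φ, φ x ∈ Φ := by
    intro x hx
    rw [hΦ] at hx ⊢
    obtain ⟨y, hy, rfl⟩ := hx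
    refine ⟨ψ y, ?_, hψ y⟩
    have h2 : y ∈ (frattini ↥P₁).comap ψ.toMonoidHom ↔ y ∈ frattini ↥P₁ := by
      rw [(frattini_characteristic (G := ↥P₁)).fixed ψ]
    exact h2.mpr hy
  obtain ⟨V, iV1, iV2, θ, ι, hθinj, hιsurj, hιmul, hιzpow, hιconj, hιeq, hVp⟩ :=
    exists_faithful_zmod_rep hsol hO P₁ hP₁ Φ hΦ
  have hι1 : ι 1 = 0 := by
    have := hιzpow 1 P₁.one_mem 0
    rwa [zpow_zero, zero_smul] at this
  have hιwd : ∀ u ∈ P₁, ∀ u' ∈ P₁, ι u = ι u' → ι (φ u) = ι (φ u') := by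
    intro u hu u' hu' h
    rw [hιeq _ ((hφP u).mp hu) _ ((hφP u').mp hu')]
    have h1 := (hιeq u hu u' hu').mp h
    have h2 : u⁻¹ * u' ∈ Φ := QuotientGroup.eq.mp h1
    have h3 := hΦφ _ h2
    rw [map_mul, map_inv] at h3
    exact QuotientGroup.eq.mpr h3
  obtain ⟨S₀, hS₀⟩ : ∃ S₀ : V → V, ∀ u ∈ P₁, S₀ (ι u) = ι (φ u) := by
    refine ⟨fun v => ι (φ (Classical.choose (hιsurj v))), ?_⟩
    intro u hu
    have h1 := Classical.choose_spec (hιsurj (ι u))
    exact hιwd _ h1.1 _ hu h1.2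
  have hS₀add : ∀ v w, S₀ (v + w) = S₀ v + S₀ w := by
    intro v w
    obtain ⟨u, hu, rfl⟩ := hιsurj v
    obtain ⟨u', hu', rfl⟩ := hιsurj w
    rw [← hιmul u hu u' hu', hS₀ _ (P₁.mul_mem hu hu'), hS₀ u hu, hS₀ u' hu', map_mul,
      hιmul _ ((hφP u).mp hu) _ ((hφP u').mp hu')]
  obtain ⟨S, hS⟩ : ∃ S : Module.End (ZMod p) V, ∀ v, S v = S₀ v :=
    ⟨(AddMonoidHom.mk' S₀ hS₀add).toZModLinearMap p, fun v => rfl⟩
  have hSι : ∀ u ∈ P₁, S (ι u) = ι (φ u) := fun u hu => by rw [hS, hS₀ u hu]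
  have hφPk : ∀ (k : ℕ) (u : Γ), u ∈ P₁ → (φ ^ k) u ∈ P₁ :=
    fun k => pow_mem_of_invariant φ P₁ (fun x hx => (hφP x).mp hx) k
  have hSpow : ∀ (k : ℕ) (u : Γ), u ∈ P₁ → (S ^ k) (ι u) = ι ((φ ^ k) u) := by
    intro k
    induction k with
    | zero => intro u hu; simp
    | succ k ih =>
      intro u hu
      rw [pow_succ, Module.End.mul_apply, hSι u hu, ih _ ((hφP u).mp hu), pow_succ,
        MulAut.mul_apply]
  have hSfix : ∀ v, S v = v → v = 0 := by
    intro v hv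
    obtain ⟨u, hu, rfl⟩ := hιsurj v
    rw [hSι u hu] at hv
    have h1 := (hιeq _ ((hφP u).mp hu) u hu).mp hv
    have h2 : (φ u)⁻¹ * u ∈ Φ := QuotientGroup.eq.mp h1
    have h3 : u⁻¹ * φ u ∈ Φ := by
      have := Φ.inv_mem h2
      rwa [mul_inv_rev, inv_inv] at this
    have h4 := fpf_quotient φ Φ hΦφ hφfix u h3
    rw [← hι1]
    apply (hιeq u hu 1 P₁.one_mem).mpr
    rw [map_one]
    exact (QuotientGroup.eq_one_iff u).mpr h4
  haveI hVfin : Finite V := by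
    have hsurj : Function.Surjective (fun u : ↥P₁ => ι (u : Γ)) := by
      intro v
      obtain ⟨u, hu, rfl⟩ := hιsurj v
      exact ⟨⟨u, hu⟩, rfl⟩
    exact Finite.of_surjective _ hsurj
  refine ⟨V, iV1, iV2, hVfin, θ.comp (QuotientGroup.mk' P₁), S, ⟨hφn, ?_, ?_, hSfix⟩, ?_⟩
  · apply LinearMap.ext
    intro v
    obtain ⟨u, hu, rfl⟩ := hιsurj v
    rw [hSpow _ u hu, hφn]; rfl
  · intro g
    apply LinearMap.ext
    intro v
    obtain ⟨u, hu, rfl⟩ := hιsurj v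
    show S (θ (QuotientGroup.mk' P₁ g) (ι u)) = θ (QuotientGroup.mk' P₁ (φ g)) (S (ι u))
    rw [hιconj g u hu, hSι _ (hP₁n.conj_mem u hu g), hSι u hu,
      hιconj _ _ ((hφP u).mp hu), map_mul, map_mul, map_inv]
  · intro g
    show θ (QuotientGroup.mk' P₁ g) = 1 ↔ g ∈ P₁
    constructor
    · intro h
      have h1 : QuotientGroup.mk' P₁ g = 1 := hθinj (by rw [h, map_one])
      exact (QuotientGroup.eq_one_iff g).mp h1
    · intro h
      have h1 : QuotientGroup.mk' P₁ g = 1 := (QuotientGroup.eq_one_iff g).mpr h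
      rw [h1, map_one]

theorem odd_card_of_fpf {G : Type*} [Group G] [Finite G] (σ : MulAut G) (n : ℕ)
    (hσ : σ ^ (2 ^ n) = 1) (hfpf : ∀ g : G, σ g = g → g = 1) : Odd (Nat.card G) := by
  classical
  have : Fintype G := Fintype.ofFinite G
  rw [← Nat.not_even_iff_odd, even_iff_two_dvd]
  intro h2
  have : Fact (Nat.Prime 2) := ⟨Nat.prime_two⟩
  have h1 : ∀ (k : ℕ) (g : G), ((σ.toEquiv : Equiv.Perm G) ^ k) g = (σ ^ k) g := by
    intro k
    induction k with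
    | zero => intro g; rfl
    | succ k ih =>
      intro g
      rw [pow_succ, pow_succ, Equiv.Perm.mul_apply, MulAut.mul_apply, ih]; rfl
  have hπ : (σ.toEquiv : Equiv.Perm G) ^ 2 ^ n = 1 := by
    ext g
    rw [h1, hσ]; rfl
  obtain ⟨b, hb, hb1⟩ := Equiv.Perm.exists_fixed_point_of_prime'
    (by rw [← Nat.card_eq_fintype_card]; exact h2) hπ (a := (1 : G)) (map_one σ)
  exact hb1 (hfpf b hb)

theorem fitting_le_pCore_of_pPrimeCore_bot {Γ : Type u} [Group Γ] [Finite Γ] (r : ℕ)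
    [Fact r.Prime] (hO : pPrimeCore r Γ = ⊥) : fittingSubgroup Γ ≤ pCore r Γ := by
  rw [H27.fitting_eq_pCoreJoin]
  unfold H27.pCoreJoin
  apply iSup_le
  intro q
  by_cases hq : (q : ℕ) = r
  · rw [hq]
  · have hqp : (q : ℕ).Prime := Nat.prime_of_mem_primeFactors q.2
    haveI : Fact (q : ℕ).Prime := ⟨hqp⟩
    have h1 : pCore (q : ℕ) Γ ≤ pPrimeCore r Γ := by
      apply H14.le_pPrimeCore inferInstance
      obtain ⟨k, hk⟩ := IsPGroup.iff_card.mp (H14.pCore_isPGroup (q : ℕ) Γ)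
      rw [hk]
      exact Nat.Coprime.pow_left k ((Nat.coprime_primes hqp Fact.out).mpr hq)
    rw [hO] at h1
    exact h1.trans bot_le

theorem fitting_le_pPrimePCore (G : Type u) [Group G] [Finite G] (r : ℕ) [Fact r.Prime] :
    fittingSubgroup G ≤ pPrimePCore r G := by
  intro x hx
  show QuotientGroup.mk' (pPrimeCore r G) x ∈ pCore r (G ⧸ pPrimeCore r G)
  apply fitting_le_pCore_of_pPrimeCore_bot r (H14.pPrimeCore_quotient_eq_bot r G)
  haveI hFn : (fittingSubgroup G).Normal :=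
    @Subgroup.normal_of_characteristic _ _ _ (fittingSubgroup_char G)
  have hnormal : ((fittingSubgroup G).map (QuotientGroup.mk' (pPrimeCore r G))).Normal :=
    Subgroup.Normal.map hFn _ (QuotientGroup.mk'_surjective _)
  have hnil : Group.IsNilpotent ((fittingSubgroup G).map (QuotientGroup.mk' (pPrimeCore r G))) := by
    haveI : Group.IsNilpotent (fittingSubgroup G) := H27.fitting_nilpotent
    exact Group.nilpotent_of_surjective
      ((QuotientGroup.mk' (pPrimeCore r G)).subgroupMap (fittingSubgroup G))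
      (MonoidHom.subgroupMap_surjective _ _)
  exact (le_sSup (show _ ∈ {K : Subgroup (G ⧸ pPrimeCore r G) | K.Normal ∧ Group.IsNilpotent K}
    from ⟨hnormal, hnil⟩)) ⟨x, hx, rfl⟩

theorem pPrimePCore_normal (r : ℕ) (G : Type*) [Group G] : (pPrimePCore r G).Normal := by
  show ((pCore r (G ⧸ pPrimeCore r G)).comap (QuotientGroup.mk' (pPrimeCore r G))).Normal
  infer_instance

theorem exists_prime_sep {G : Type u} [Group G] [Finite G] (hodd : Odd (Nat.card G))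
    (N : Subgroup G) [N.Normal] (hN : N = fittingSubgroup G) (q : ℕ) [Fact q.Prime] (x : G)
    (hxN : x ∉ N) (hxq : QuotientGroup.mk' N x ∈ pCore q (G ⧸ N)) :
    ∃ r : ℕ, r.Prime ∧ r ≠ 2 ∧ r ≠ q ∧ x ∉ pPrimePCore r G := by
  by_contra hcon
  push Not at hcon
  apply hxN
  -- `x` lies in `O_{q',q}(G)`
  have hq : x ∈ pPrimePCore q G := by
    show QuotientGroup.mk' (pPrimeCore q G) x ∈ pCore q (G ⧸ pPrimeCore q G)
    obtain ⟨Q₁, hQ₁⟩ : ∃ Q₁ : Subgroup G, Q₁ = (pCore q (G ⧸ N)).comap (QuotientGroup.mk' N) :=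
      ⟨_, rfl⟩
    haveI hQ₁n : Q₁.Normal := by rw [hQ₁]; infer_instance
    have hQn : (Q₁.map (QuotientGroup.mk' (pPrimeCore q G))).Normal :=
      Subgroup.Normal.map hQ₁n _ (QuotientGroup.mk'_surjective _)
    have hQp : IsPGroup q (Q₁.map (QuotientGroup.mk' (pPrimeCore q G))) := by
      rintro ⟨y, g, hg, rfl⟩
      have hg : QuotientGroup.mk' N g ∈ pCore q (G ⧸ N) := by
        rw [hQ₁] at hg; exact hg
      obtain ⟨a, ha⟩ := (H14.pCore_isPGroup q (G ⧸ N)) ⟨_, hg⟩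
      have ha' : (QuotientGroup.mk' N g) ^ q ^ a = 1 := by
        have := congrArg Subtype.val ha
        simpa using this
      rw [← map_pow] at ha'
      have h1 : g ^ q ^ a ∈ N := (QuotientGroup.eq_one_iff _).mp ha'
      have h2 : g ^ q ^ a ∈ pPrimePCore q G := fitting_le_pPrimePCore G q (hN ▸ h1)
      have h3 : QuotientGroup.mk' (pPrimeCore q G) (g ^ q ^ a) ∈
          pCore q (G ⧸ pPrimeCore q G) := h2
      obtain ⟨b, hb⟩ := (H14.pCore_isPGroup q (G ⧸ pPrimeCore q G)) ⟨_, h3⟩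
      have hb' : (QuotientGroup.mk' (pPrimeCore q G) (g ^ q ^ a)) ^ q ^ b = 1 := by
        have := congrArg Subtype.val hb
        simpa using this
      refine ⟨a + b, ?_⟩
      apply Subtype.ext
      rw [Subgroup.coe_pow, Subgroup.coe_one]
      show (QuotientGroup.mk' (pPrimeCore q G) g) ^ q ^ (a + b) = 1
      rw [pow_add, pow_mul, ← map_pow]
      exact hb'
    exact H14.le_pCore hQn hQp ⟨x, by rw [hQ₁]; exact hxq, rfl⟩
  have hall : ∀ r : ℕ, r.Prime → Subgroup.normalClosure ({x} : Set G) ≤ pPrimePCore r G := by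
    intro r hr
    haveI : Fact r.Prime := ⟨hr⟩
    haveI := pPrimePCore_normal r G
    apply Subgroup.normalClosure_le_normal
    rw [Set.singleton_subset_iff]
    by_cases hr2 : r = 2
    · subst hr2
      rw [pPrimePCore_eq_top_of_coprime 2 (Nat.Coprime.symm (Nat.coprime_two_left.mpr hodd))]
      exact Subgroup.mem_top x
    · by_cases hrq : r = q
      · subst hrq; exact hq
      · exact hcon r hr hr2 hrq
  have hnil := isNilpotent_of_le_pPrimePCore _ hall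
  have hle : Subgroup.normalClosure ({x} : Set G) ≤ fittingSubgroup G :=
    le_sSup (show _ ∈ {K : Subgroup G | K.Normal ∧ Group.IsNilpotent K} from
      ⟨Subgroup.normalClosure_normal, hnil⟩)
  rw [hN]
  exact hle (Subgroup.subset_normalClosure (Set.mem_singleton x))

set_option maxHeartbeats 1600000 in
theorem g2b1_holds : G2b1Statement.{u} := by
  intro G _ _ hsol σ n hn hσ hfpf N _ hN φ hφ q _ xbar hxbar hx1
  obtain ⟨x, rfl⟩ := QuotientGroup.mk'_surjective N xbar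
  have hxN : x ∉ N := fun h => hx1 ((QuotientGroup.eq_one_iff x).mpr h)
  have hodd : Odd (Nat.card G) := odd_card_of_fpf σ n hσ hfpf
  obtain ⟨r, hr, hr2, hrq, hxr⟩ := exists_prime_sep hodd N hN q x hxN hxbar
  haveI hrf : Fact r.Prime := ⟨hr⟩
  have hφpow := quot_aut_pow N σ φ hφ
  have hφ1 : φ ^ (2 ^ n) = 1 := by
    ext h
    obtain ⟨g, rfl⟩ := QuotientGroup.mk'_surjective N h
    rw [hφpow, hσ]; rfl
  obtain ⟨O, hOdef⟩ : ∃ O : Subgroup G, O = pPrimeCore r G := ⟨_, rfl⟩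
  haveI hOn : O.Normal := by rw [hOdef]; infer_instance
  have hOchar : O.Characteristic := by rw [hOdef]; exact H11.pPrimeCore_characteristic r
  have hσO := aut_mem_iff_of_char O hOchar σ
  obtain ⟨ψ, hψ⟩ := exists_quot_aut O σ hσO
  have hψpow := quot_aut_pow O σ ψ hψ
  have hψ1 : ψ ^ (2 ^ n) = 1 := by
    ext h
    obtain ⟨g, rfl⟩ := QuotientGroup.mk'_surjective O h
    rw [hψpow, hσ]; rfl
  have hψfpf := quot_aut_fpf O σ hσO ψ hψ hfpf
  haveI : Group.IsSolvable G := hsol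
  have hsolr : IsPSolvable r (G ⧸ O) :=
    H80.isPSolvable_of_isSolvable r (Nat.card (G ⧸ O)) (G ⧸ O) rfl
  have hObot : pPrimeCore r (G ⧸ O) = ⊥ := by
    subst hOdef; exact H14.pPrimeCore_quotient_eq_bot r G
  obtain ⟨V, i1, i2, i3, ρh, X, hmod, hker⟩ := exists_fpf_zmod hsolr hObot ψ n hψ1 hψfpf
  have hmemr : ∀ g : G, QuotientGroup.mk' O g ∈ pCore r (G ⧸ O) ↔ g ∈ pPrimePCore r G := by
    intro g; subst hOdef; exact Iff.rfl
  have hNker : ∀ m ∈ N, (ρh.comp (QuotientGroup.mk' O)) m = 1 := by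
    intro m hm
    show ρh (QuotientGroup.mk' O m) = 1
    rw [hker, hmemr]
    exact fitting_le_pPrimePCore G r (hN ▸ hm)
  obtain ⟨ρ, hρ⟩ : ∃ ρ : G ⧸ N →* Module.End (ZMod r) V,
      ∀ g, ρ (QuotientGroup.mk' N g) = ρh (QuotientGroup.mk' O g) :=
    ⟨QuotientGroup.lift N (ρh.comp (QuotientGroup.mk' O)) hNker, fun g => rfl⟩
  refine ⟨r, hrf, V, i1, i2, i3, ρ, X, hr2, hrq, ⟨hφ1, hmod.2.1, ?_, hmod.2.2.2⟩, ?_⟩
  · intro h
    obtain ⟨g, rfl⟩ := QuotientGroup.mk'_surjective N h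
    rw [hρ, hφ, hρ, ← hψ]
    exact hmod.2.2.1 _
  · rw [hρ, Ne, hker, hmemr]
    exact hxr

end Cfsg.Agent.H66.Gross
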