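import Cfsg.Agent.H66.HHE
import Cfsg.Agent.H66.HHA
import Cfsg.Agent.H76.FrattiniAut
import Cfsg.Agent.H1.Frattini

/-!
# Group-theoretic glue for the Hall–Higman critical case

* `normConj_iterate`: iterates of the conjugation automorphism of a normalised subgroup.
* `frattini_free`: if `x` (of order `p^(n+1)`) acts irreducibly on `Q₁/Φ(Q₁)` for a `q`-group `Q₁`
  and `x^(p^n)` does not centralise `Q₁`, then every nontrivial power of `x` acts freely on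
  `Q₁/Φ(Q₁)`.
-/

set_option autoImplicit false
set_option linter.style.haveILetI false
set_option linter.unusedVariables false
set_option linter.unusedSectionVars false

namespace Cfsg.Agent.H66

variable {G : Type*} [Group G]

theorem normConj_coe (Q₁ : Subgroup G) (c : Subgroup.normalizer (Q₁ : Set G)) (a : Q₁) :
    ((Q₁.normalizerMonoidHom c a : Q₁) : G) = c * a * (c : G)⁻¹ := rfl

theorem normConj_iterate (Q₁ : Subgroup G) (c : Subgroup.normalizer (Q₁ : Set G)) :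
    ∀ (i : ℕ) (a : Q₁), (((⇑(Q₁.normalizerMonoidHom c))^[i] a : Q₁) : G) =
      (c : G) ^ i * a * ((c : G) ^ i)⁻¹
  | 0, a => by simp
  | i + 1, a => by
    rw [Function.iterate_succ_apply', normConj_coe, normConj_iterate Q₁ c i a, pow_succ']
    group

theorem frattini_free [Finite G] {p q : ℕ} [Fact p.Prime] [Fact q.Prime] (hpq : p ≠ q)
    (Q₁ : Subgroup G) (hQ₁ : IsPGroup q Q₁) (x : G) (n : ℕ) (hxn : x ^ p ^ (n + 1) = 1)
    (hxN : x ∈ Subgroup.normalizer (Q₁ : Set G))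
    (hirr : ∀ U : Subgroup G, (frattini ↥Q₁).map Q₁.subtype ≤ U → U ≤ Q₁ →
      Subgroup.zpowers x ≤ Subgroup.normalizer (U : Set G) →
      U = (frattini ↥Q₁).map Q₁.subtype ∨ U = Q₁)
    (hy : ∃ a ∈ Q₁, x ^ p ^ n * a ≠ a * x ^ p ^ n) :
    ∀ i, 0 < i → i < p ^ (n + 1) → ∀ a ∈ Q₁,
      x ^ i * a * (x ^ i)⁻¹ * a⁻¹ ∈ (frattini ↥Q₁).map Q₁.subtype →
      a ∈ (frattini ↥Q₁).map Q₁.subtype := by
  have hp : p.Prime := Fact.out
  have hq : q.Prime := Fact.out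
  intro i hi0 hi
  obtain ⟨Φ₁, hΦ₁⟩ : ∃ Φ₁ : Subgroup G, Φ₁ = (frattini ↥Q₁).map Q₁.subtype := ⟨_, rfl⟩
  rw [← hΦ₁] at hirr ⊢
  have hΦQ : Φ₁ ≤ Q₁ := by rw [hΦ₁]; exact Subgroup.map_subtype_le _
  have hNN : Subgroup.normalizer (Q₁ : Set G) ≤ Subgroup.normalizer (Φ₁ : Set G) := by
    rw [hΦ₁]
    exact Cfsg.Agent.H1.normalizer_le_normalizer_map_of_characteristic Q₁ (frattini ↥Q₁)
  obtain ⟨c, hc⟩ : ∃ c : G, c = x ^ i := ⟨_, rfl⟩
  rw [← hc]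
  have hcN : c ∈ Subgroup.normalizer (Q₁ : Set G) := by
    rw [hc]; exact Subgroup.pow_mem _ hxN i
  have hcx : Commute c x := by rw [hc]; exact (Commute.refl x).pow_left i
  have hnorm : ∀ (N : Subgroup G) (t : G), t ∈ Subgroup.normalizer (N : Set G) → ∀ a ∈ N,
      t * a * t⁻¹ ∈ N := fun N t ht a ha => (Subgroup.mem_normalizer_iff.mp ht a).mp ha
  let U : Subgroup G :=
    { carrier := {a | a ∈ Q₁ ∧ c * a * c⁻¹ * a⁻¹ ∈ Φ₁}
      one_mem' := ⟨Q₁.one_mem, by simp [Φ₁.one_mem]⟩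
      mul_mem' := by
        rintro a b ⟨ha, ha'⟩ ⟨hb, hb'⟩
        refine ⟨Q₁.mul_mem ha hb, ?_⟩
        have h1 : a * (c * b * c⁻¹ * b⁻¹) * a⁻¹ ∈ Φ₁ :=
          hnorm Φ₁ a (hNN (Subgroup.le_normalizer ha)) _ hb'
        have e : c * (a * b) * c⁻¹ * (a * b)⁻¹ =
            (c * a * c⁻¹ * a⁻¹) * (a * (c * b * c⁻¹ * b⁻¹) * a⁻¹) := by group
        show c * (a * b) * c⁻¹ * (a * b)⁻¹ ∈ Φ₁
        rw [e]
        exact Φ₁.mul_mem ha' h1
      inv_mem' := by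
        rintro a ⟨ha, ha'⟩
        refine ⟨Q₁.inv_mem ha, ?_⟩
        have h1 : a⁻¹ * (c * a * c⁻¹ * a⁻¹)⁻¹ * a⁻¹⁻¹ ∈ Φ₁ :=
          hnorm Φ₁ a⁻¹ (hNN (Subgroup.le_normalizer (Q₁.inv_mem ha))) _ (Φ₁.inv_mem ha')
        have e : c * a⁻¹ * c⁻¹ * a⁻¹⁻¹ = a⁻¹ * (c * a * c⁻¹ * a⁻¹)⁻¹ * a⁻¹⁻¹ := by group
        show c * a⁻¹ * c⁻¹ * a⁻¹⁻¹ ∈ Φ₁
        rw [e]
        exact h1 }
  have hUmem : ∀ a, a ∈ U ↔ a ∈ Q₁ ∧ c * a * c⁻¹ * a⁻¹ ∈ Φ₁ := fun a => Iff.rfl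
  have hΦU : Φ₁ ≤ U := by
    intro a ha
    rw [hUmem]
    refine ⟨hΦQ ha, ?_⟩
    exact Φ₁.mul_mem (hnorm Φ₁ c (hNN hcN) a ha) (Φ₁.inv_mem ha)
  have hUQ : U ≤ Q₁ := fun a ha => ((hUmem a).mp ha).1
  have hconjU : ∀ t : G, t ∈ Subgroup.normalizer (Q₁ : Set G) → Commute c t → ∀ a ∈ U,
      t * a * t⁻¹ ∈ U := by
    intro t ht hct a ha
    rw [hUmem] at ha ⊢
    refine ⟨hnorm Q₁ t ht a ha.1, ?_⟩
    have h1 : t * (c * a * c⁻¹ * a⁻¹) * t⁻¹ ∈ Φ₁ := hnorm Φ₁ t (hNN ht) _ ha.2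
    have e1 : c * t = t * c := hct.eq
    have e2 : t⁻¹ * c⁻¹ = c⁻¹ * t⁻¹ := by
      rw [← mul_inv_rev, ← mul_inv_rev, e1]
    have e : c * (t * a * t⁻¹) * c⁻¹ * (t * a * t⁻¹)⁻¹ = t * (c * a * c⁻¹ * a⁻¹) * t⁻¹ := by
      calc c * (t * a * t⁻¹) * c⁻¹ * (t * a * t⁻¹)⁻¹
          = (c * t) * a * (t⁻¹ * c⁻¹) * (t * a⁻¹ * t⁻¹) := by group
        _ = (t * c) * a * (c⁻¹ * t⁻¹) * (t * a⁻¹ * t⁻¹) := by rw [e1, e2]
        _ = t * (c * a * c⁻¹ * a⁻¹) * t⁻¹ := by group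
    rw [e]
    exact h1
  have hxU : Subgroup.zpowers x ≤ Subgroup.normalizer (U : Set G) := by
    rw [Subgroup.zpowers_le, Subgroup.mem_normalizer_iff]
    intro a
    refine ⟨hconjU x hxN hcx a, fun h => ?_⟩
    have h1 := hconjU x⁻¹ (Subgroup.inv_mem _ hxN) hcx.inv_right _ h
    have e : x⁻¹ * (x * a * x⁻¹) * x⁻¹⁻¹ = a := by group
    rwa [e] at h1
  rcases hirr U hΦU hUQ hxU with h | h
  · intro a ha hmem
    rw [← h, hUmem]
    exact ⟨ha, hmem⟩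
  · exfalso
    obtain ⟨α, hα⟩ : ∃ α : MulAut ↥Q₁, α = Q₁.normalizerMonoidHom ⟨c, hcN⟩ := ⟨_, rfl⟩
    have hαfr : ∀ a : ↥Q₁, α a * a⁻¹ ∈ frattini ↥Q₁ := by
      intro a
      have h1 : (a : G) ∈ U := by rw [h]; exact a.2
      have h2 := ((hUmem _).mp h1).2
      rw [hΦ₁] at h2
      obtain ⟨f, hf, hfe⟩ := h2
      have h3 : f = α a * a⁻¹ := by
        apply Subtype.ext
        rw [hα]
        exact hfe
      rw [← h3]; exact hf
    have hαord : (orderOf α).Coprime q := by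
      have h1 : α ^ p ^ (n + 1) = 1 := by
        rw [hα, ← map_pow]
        have h2 : (⟨c, hcN⟩ : Subgroup.normalizer (Q₁ : Set G)) ^ p ^ (n + 1) = 1 := by
          apply Subtype.ext
          show c ^ p ^ (n + 1) = 1
          rw [hc, ← pow_mul, mul_comm, pow_mul, hxn, one_pow]
        rw [h2, map_one]
      have h2 := orderOf_dvd_of_pow_eq_one h1
      exact Nat.Coprime.coprime_dvd_left h2
        (Nat.Coprime.pow_left _ ((Nat.coprime_primes hp hq).mpr hpq))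
    have hα1 := Cfsg.Agent.H76.eq_one_of_trivial_on_frattini_of_coprime hQ₁ α hαfr hαord
    obtain ⟨a, ha, hya⟩ := hy
    apply hya
    have h1 : c * a * c⁻¹ = a := by
      have h2 : α ⟨a, ha⟩ = ⟨a, ha⟩ := by rw [hα1]; rfl
      have h3 := congrArg Subtype.val h2
      rw [hα] at h3
      exact h3
    have h4 : Commute (x ^ i) a := by
      rw [← hc]
      show c * a = a * c
      calc c * a = c * a * c⁻¹ * c := by group
        _ = a * c := by rw [h1]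
    exact (commute_pow_prime_pow hp x a n i hxn hi0 hi h4).eq

end Cfsg.Agent.H66
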