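import Mathlib

/-!
# Linear algebra for the Hall–Higman critical case

* `orbit_sum`: a sum over a finite set on which `σ` acts freely with period `n` is a "norm"
  `∑_{i<n} τ^i m`.
* `geom_sum_eq_sub_one_pow`: in characteristic `p`, `∑_{i<p^m} a^i = (a-1)^(p^m-1)`.
* `sandwich_kill`: if `(g-1)^s = 0` then every relative trace `∑_i g^i B g^{-i}` kills
  `ker (g-1)^(p^m-s)`.
* `nil_cyclic`: if every operator commuting with `g` is a scalar plus a relative trace and the
  norm `∑_i g^i` vanishes, then `V` is a single Jordan block of size `p^m - 1` (or `dim V ≤ 1`).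
-/

set_option autoImplicit false
set_option linter.style.haveILetI false
set_option linter.unusedVariables false
set_option linter.unusedSectionVars false

namespace Cfsg.Agent.H66

open Module

section Orbit

theorem orbit_sum {α : Type*} [DecidableEq α] {M : Type*} [AddCommMonoid M] (σ : α → α)
    (τ : M →+ M) (n : ℕ) (hn : 0 < n) :
    ∀ (Ω : Finset α), (∀ a ∈ Ω, σ a ∈ Ω) → (∀ a ∈ Ω, σ^[n] a = a) →
      (∀ a ∈ Ω, ∀ i, 0 < i → i < n → σ^[i] a ≠ a) →
      ∀ F : α → M, (∀ a ∈ Ω, F (σ a) = τ (F a)) →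
        ∃ m : M, ∑ a ∈ Ω, F a = ∑ i ∈ Finset.range n, τ^[i] m := by
  intro Ω
  induction Ω using Finset.strongInduction with
  | H Ω ih =>
    intro hσ hper hfree F hF
    by_cases hΩ : Ω = ∅
    · refine ⟨0, ?_⟩
      rw [hΩ, Finset.sum_empty]
      symm
      apply Finset.sum_eq_zero
      intro i _
      exact iterate_map_zero τ i
    obtain ⟨a₀, ha₀⟩ := Finset.nonempty_iff_ne_empty.mpr hΩ
    have hiter : ∀ i, σ^[i] a₀ ∈ Ω := by
      intro i
      induction i with
      | zero => exact ha₀
      | succ i ih' => rw [Function.iterate_succ_apply']; exact hσ _ ih'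
    have hinjσ : ∀ a ∈ Ω, ∀ b ∈ Ω, σ a = σ b → a = b := by
      intro a ha b hb hab
      obtain ⟨n', rfl⟩ : ∃ n', n = n' + 1 := ⟨n - 1, by omega⟩
      have h1 := hper a ha
      have h2 := hper b hb
      rw [Function.iterate_succ_apply] at h1 h2
      rw [← h1, ← h2, hab]
    have hinj : ∀ i, i < n → ∀ j, j < n → σ^[i] a₀ = σ^[j] a₀ → i = j := by
      have key : ∀ i j, i < j → j < n → σ^[i] a₀ ≠ σ^[j] a₀ := by
        intro i j hij hj h
        have h1 : σ^[j - i] (σ^[i] a₀) = σ^[i] a₀ := by
          rw [← Function.iterate_add_apply, Nat.sub_add_cancel hij.le]; exact h.symm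
        exact hfree _ (hiter i) (j - i) (by omega) (by omega) h1
      intro i hi j hj h
      rcases Nat.lt_trichotomy i j with h' | h' | h'
      · exact absurd h (key i j h' hj)
      · exact h'
      · exact absurd h.symm (key j i h' hi)
    set O : Finset α := (Finset.range n).image (fun i => σ^[i] a₀) with hO
    have hOΩ : O ⊆ Ω := by
      intro a ha
      rw [hO, Finset.mem_image] at ha
      obtain ⟨i, _, rfl⟩ := ha
      exact hiter i
    have ha₀O : a₀ ∈ O := by
      rw [hO, Finset.mem_image]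
      exact ⟨0, Finset.mem_range.mpr hn, rfl⟩
    have hlt : Ω \ O ⊂ Ω := by
      refine ⟨Finset.sdiff_subset, ?_⟩
      intro h
      have := h ha₀
      rw [Finset.mem_sdiff] at this
      exact this.2 ha₀O
    have hσ' : ∀ a ∈ Ω \ O, σ a ∈ Ω \ O := by
      intro a ha
      rw [Finset.mem_sdiff] at ha ⊢
      refine ⟨hσ a ha.1, ?_⟩
      intro h
      rw [hO, Finset.mem_image] at h
      obtain ⟨i, hi, hia⟩ := h
      apply ha.2
      rw [hO, Finset.mem_image]
      rcases Nat.eq_zero_or_pos i with hi0 | hi0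
      · refine ⟨n - 1, Finset.mem_range.mpr (by omega), ?_⟩
        apply hinjσ _ (hiter _) _ ha.1
        have h1 : σ (σ^[n - 1] a₀) = a₀ := by
          rw [← Function.iterate_succ_apply' σ (n - 1) a₀]
          have : (n - 1).succ = n := by omega
          rw [this]; exact hper a₀ ha₀
        rw [h1]
        rw [hi0] at hia
        exact hia
      · refine ⟨i - 1, Finset.mem_range.mpr (by have := Finset.mem_range.mp hi; omega), ?_⟩
        apply hinjσ _ (hiter _) _ ha.1
        rw [← Function.iterate_succ_apply' σ (i - 1) a₀]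
        have : (i - 1).succ = i := by omega
        rw [this]; exact hia
    obtain ⟨m', hm'⟩ := ih (Ω \ O) hlt hσ'
      (fun a ha => hper a (Finset.mem_sdiff.mp ha).1)
      (fun a ha => hfree a (Finset.mem_sdiff.mp ha).1) F
      (fun a ha => hF a (Finset.mem_sdiff.mp ha).1)
    have hFi : ∀ i, F (σ^[i] a₀) = τ^[i] (F a₀) := by
      intro i
      induction i with
      | zero => rfl
      | succ i ih' =>
        rw [Function.iterate_succ_apply', Function.iterate_succ_apply', hF _ (hiter i), ih']
    refine ⟨F a₀ + m', ?_⟩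
    rw [← Finset.sum_sdiff hOΩ, hm', hO, Finset.sum_image
      (fun i hi j hj h => hinj i (Finset.mem_range.mp hi) j (Finset.mem_range.mp hj) h),
      ← Finset.sum_add_distrib]
    apply Finset.sum_congr rfl
    intro i _
    rw [hFi, iterate_map_add, add_comm]

end Orbit

section Geom

theorem geom_sum_eq_sub_one_pow {K : Type*} [Field K] (p : ℕ) [Fact p.Prime] [CharP K p] (m : ℕ)
    {A : Type*} [Ring A] [Algebra K A] (a : A) :
    ∑ i ∈ Finset.range (p ^ m), a ^ i = (a - 1) ^ (p ^ m - 1) := by
  have hpoly : ∑ i ∈ Finset.range (p ^ m), (Polynomial.X : Polynomial K) ^ i =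
      (Polynomial.X - 1) ^ (p ^ m - 1) := by
    have h1 : (Polynomial.X - 1 : Polynomial K) ≠ 0 := by
      have := Polynomial.X_sub_C_ne_zero (1 : K)
      simpa using this
    apply mul_right_cancel₀ h1
    rw [geom_sum_mul, ← pow_succ]
    have h2 : p ^ m - 1 + 1 = p ^ m := Nat.sub_add_cancel (Nat.one_le_pow _ _ (Fact.out : p.Prime).pos)
    rw [h2, sub_pow_char_pow, one_pow]
  have := congrArg (Polynomial.aeval a) hpoly
  simpa using this

end Geom

section Sandwich

variable {K V : Type*} [Field K] [AddCommGroup V] [Module K V]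

/-- The conjugation operator `B ↦ g B g'` on `End V`. -/
noncomputable def conjL (g g' : Module.End K V) : Module.End K (Module.End K V) :=
  LinearMap.mulLeft K g ∘ₗ LinearMap.mulRight K g'

theorem conjL_apply (g g' B : Module.End K V) : conjL g g' B = g * (B * g') := rfl

theorem conjL_pow_apply (g g' B : Module.End K V) :
    ∀ i : ℕ, (conjL g g' ^ i) B = g ^ i * (B * g' ^ i)
  | 0 => by simp
  | i + 1 => by
    rw [pow_succ', Module.End.mul_apply, conjL_pow_apply g g' B i, conjL_apply, pow_succ', pow_succ]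
    simp only [mul_assoc]

theorem sandwich_kill (p : ℕ) [Fact p.Prime] [CharP K p] (m : ℕ)
    (g g' : Module.End K V) (hgg' : g * g' = 1) (hg'g : g' * g = 1)
    (s : ℕ) (hs : (g - 1) ^ s = 0) (hsn : s ≤ p ^ m - 1) (B : Module.End K V) (v : V)
    (hv : ((g - 1) ^ (p ^ m - s)) v = 0) :
    (∑ i ∈ Finset.range (p ^ m), g ^ i * B * g' ^ i) v = 0 := by
  set u := g - 1 with hu
  set w := g' - 1 with hw
  have hgu : g = u + 1 := by rw [hu]; abel
  have hg'w : g' = w + 1 := by rw [hw]; abel
  have hwg' : w * g' = g' * w := by rw [hg'w]; noncomm_ring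
  have hug' : g' * u = u * g' := by
    rw [hu, mul_sub, sub_mul, hg'g, hgg', mul_one, one_mul]
  have hwu : w = -(g' * u) := by
    rw [hu, hw, mul_sub, hg'g, mul_one]; abel
  -- the filtration
  let 𝓢 : ℕ → Submodule K (Module.End K V) := fun k =>
    Submodule.span K {T | ∃ (i j : ℕ) (B' : Module.End K V), i + j = k ∧ T = u ^ i * B' * w ^ j}
  have hwjg' : ∀ j : ℕ, w ^ j * g' = g' * w ^ j := by
    intro j
    induction j with
    | zero => simp
    | succ j ih => rw [pow_succ, mul_assoc, hwg', ← mul_assoc, ih, mul_assoc]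
  have hstep : ∀ k, ∀ T ∈ 𝓢 k, (conjL g g' - 1) T ∈ 𝓢 (k + 1) := by
    intro k T hT
    refine Submodule.span_induction ?_ ?_ ?_ ?_ hT
    · rintro _ ⟨i, j, B', hij, rfl⟩
      have e : (conjL g g' - 1) (u ^ i * B' * w ^ j) =
          u ^ (i + 1) * (B' * g') * w ^ j + u ^ i * B' * w ^ (j + 1) := by
        rw [LinearMap.sub_apply, conjL_apply, Module.End.one_apply]
        have e1 : u ^ (i + 1) * (B' * g') * w ^ j = u * (u ^ i * B' * w ^ j) * g' := by
          rw [pow_succ']
          simp only [mul_assoc]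
          rw [hwjg']
        rw [e1, pow_succ, hgu, hg'w]
        noncomm_ring
      rw [e]
      apply Submodule.add_mem
      · exact Submodule.subset_span ⟨i + 1, j, B' * g', by omega, rfl⟩
      · exact Submodule.subset_span ⟨i, j + 1, B', by omega, rfl⟩
    · rw [map_zero]; exact Submodule.zero_mem _
    · intro x y _ _ hx hy
      rw [map_add]; exact Submodule.add_mem _ hx hy
    · intro c x _ hx
      rw [map_smul]; exact Submodule.smul_mem _ c hx
  have hpow : ∀ k, ((conjL g g' - 1) ^ k) B ∈ 𝓢 k := by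
    intro k
    induction k with
    | zero =>
      rw [pow_zero, Module.End.one_apply]
      exact Submodule.subset_span ⟨0, 0, B, rfl, by simp⟩
    | succ k ih =>
      rw [pow_succ', Module.End.mul_apply]
      exact hstep k _ ih
  have hkill : ∀ T ∈ 𝓢 (p ^ m - 1), T v = 0 := by
    intro T hT
    refine Submodule.span_induction ?_ ?_ ?_ ?_ hT
    · rintro _ ⟨i, j, B', hij, rfl⟩
      by_cases hsi : s ≤ i
      · have : u ^ i = 0 := by
          obtain ⟨e, rfl⟩ := Nat.exists_eq_add_of_le hsi
          rw [pow_add, hs, zero_mul]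
        rw [this, zero_mul, zero_mul, LinearMap.zero_apply]
      · have hj : p ^ m - s ≤ j := by omega
        have h0 : (u ^ j) v = 0 := by
          obtain ⟨e, he⟩ := Nat.exists_eq_add_of_le hj
          have hj' : j = e + (p ^ m - s) := by omega
          rw [hj', pow_add, Module.End.mul_apply, hv, map_zero]
        have h1 : (w ^ j) v = 0 := by
          have hcomm : Commute g' u := hug'
          rw [hwu, neg_pow, hcomm.mul_pow]
          simp only [Module.End.mul_apply]
          rw [h0]
          simp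
        rw [Module.End.mul_apply, h1, map_zero]
    · rfl
    · intro x y _ _ hx hy
      rw [LinearMap.add_apply, hx, hy, add_zero]
    · intro c x _ hx
      rw [LinearMap.smul_apply, hx, smul_zero]
  have hsum : ∑ i ∈ Finset.range (p ^ m), g ^ i * B * g' ^ i =
      ((conjL g g' - 1) ^ (p ^ m - 1)) B := by
    rw [← geom_sum_eq_sub_one_pow (K := K) p m (conjL g g'), LinearMap.sum_apply]
    apply Finset.sum_congr rfl
    intro i _
    rw [conjL_pow_apply, mul_assoc]
  rw [hsum]
  exact hkill _ (hpow _)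

end Sandwich

section NilCyclic

variable {K V : Type*} [Field K] [AddCommGroup V] [Module K V] [FiniteDimensional K V]

/-- The "projection onto a maximal cyclic submodule". -/
noncomputable def cycProj (u : Module.End K V) (φ : Module.Dual K V) (v₀ : V) (s : ℕ) :
    Module.End K V :=
  ∑ i ∈ Finset.range s, LinearMap.smulRight (φ.comp (u ^ (s - 1 - i))) ((u ^ i) v₀)

theorem cycProj_apply (u : Module.End K V) (φ : Module.Dual K V) (v₀ : V) (s : ℕ) (z : V) :
    cycProj u φ v₀ s z = ∑ i ∈ Finset.range s, φ ((u ^ (s - 1 - i)) z) • (u ^ i) v₀ := by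
  rw [cycProj, LinearMap.sum_apply]
  rfl

theorem cycProj_comm (u : Module.End K V) (φ : Module.Dual K V) (v₀ : V) (s : ℕ)
    (hs : u ^ s = 0) : cycProj u φ v₀ s * u = u * cycProj u φ v₀ s := by
  ext z
  rw [Module.End.mul_apply, Module.End.mul_apply, cycProj_apply, cycProj_apply, map_sum]
  have h1 : ∑ i ∈ Finset.range s, φ ((u ^ (s - 1 - i)) (u z)) • (u ^ i) v₀ =
      ∑ i ∈ Finset.range s, φ ((u ^ (s - i)) z) • (u ^ i) v₀ := by
    apply Finset.sum_congr rfl
    intro i hi
    have hi' := Finset.mem_range.mp hi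
    have e : s - i = (s - 1 - i) + 1 := by omega
    rw [e, pow_succ, Module.End.mul_apply]
  have h2 : ∑ i ∈ Finset.range s, u (φ ((u ^ (s - 1 - i)) z) • (u ^ i) v₀) =
      ∑ i ∈ Finset.range s, φ ((u ^ (s - (i + 1))) z) • (u ^ (i + 1)) v₀ := by
    apply Finset.sum_congr rfl
    intro i hi
    have e : s - (i + 1) = s - 1 - i := by omega
    rw [map_smul, e, pow_succ', Module.End.mul_apply]
  rw [h1, h2]
  have h3 := Finset.sum_range_succ (fun i => φ ((u ^ (s - i)) z) • (u ^ i) v₀) s
  have h4 := Finset.sum_range_succ' (fun i => φ ((u ^ (s - i)) z) • (u ^ i) v₀) s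
  simp only [Nat.sub_self, Nat.sub_zero, hs, LinearMap.zero_apply, map_zero, zero_smul, smul_zero,
    add_zero] at h3 h4
  rw [← h3, h4]

/-- On `ker u`, the projection is `z ↦ φ z • u^(s-1) v₀`. -/
theorem cycProj_ker (u : Module.End K V) (φ : Module.Dual K V) (v₀ : V) (s : ℕ) (hs : 1 ≤ s)
    (z : V) (hz : u z = 0) : cycProj u φ v₀ s z = φ z • (u ^ (s - 1)) v₀ := by
  rw [cycProj_apply, Finset.sum_eq_single (s - 1)]
  · have : s - 1 - (s - 1) = 0 := by omega
    rw [this, pow_zero, Module.End.one_apply]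
  · intro i hi hne
    have hi' := Finset.mem_range.mp hi
    have e : s - 1 - i = (s - 2 - i) + 1 := by omega
    rw [e, pow_succ, Module.End.mul_apply, hz, map_zero, map_zero, zero_smul]
  · intro h
    exact absurd (Finset.mem_range.mpr (by omega)) h

theorem nil_cyclic (p : ℕ) [Fact p.Prime] [CharP K p] (m : ℕ) (hm : 1 ≤ m)
    (g g' : Module.End K V) (hgg' : g * g' = 1) (hg'g : g' * g = 1)
    (hF1 : ∀ B : Module.End K V, B * g = g * B →
      ∃ (c : K) (B' : Module.End K V),
        B = c • 1 + ∑ i ∈ Finset.range (p ^ m), g ^ i * B' * g' ^ i)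
    (hN : ∑ i ∈ Finset.range (p ^ m), g ^ i = 0) :
    Module.finrank K V ≤ 1 ∨ (Module.finrank K V = p ^ m - 1 ∧ (g - 1) ^ (p ^ m - 2) ≠ 0) := by
  classical
  have hp : p.Prime := Fact.out
  by_cases hfin : Module.finrank K V ≤ 1
  · left; exact hfin
  right
  have hfin2 : 2 ≤ Module.finrank K V := by omega
  haveI : Nontrivial V := Module.nontrivial_of_finrank_pos (R := K) (by omega)
  have hn2 : 2 ≤ p ^ m := by
    calc 2 ≤ p := hp.two_le
      _ = p ^ 1 := (pow_one p).symm
      _ ≤ p ^ m := Nat.pow_le_pow_right hp.pos hm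
  set u := g - 1 with hu
  have hgu : g = u + 1 := by rw [hu]; abel
  have hun : u ^ (p ^ m - 1) = 0 := by
    rw [hu, ← geom_sum_eq_sub_one_pow (K := K) p m g]; exact hN
  have hex : ∃ s, u ^ s = 0 := ⟨_, hun⟩
  set s := Nat.find hex with hsdef
  have hs : u ^ s = 0 := Nat.find_spec hex
  have hsmin : ∀ k, k < s → u ^ k ≠ 0 := fun k hk => Nat.find_min hex hk
  have hsn : s ≤ p ^ m - 1 := Nat.find_min' hex hun
  have hs1 : 1 ≤ s := by
    by_contra hcon
    have hs0 : s = 0 := by omega
    rw [hs0, pow_zero] at hs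
    exact one_ne_zero hs
  obtain ⟨v₀, hv₀⟩ : ∃ v₀, (u ^ (s - 1)) v₀ ≠ 0 := by
    by_contra hcon
    push Not at hcon
    exact hsmin (s - 1) (by omega) (LinearMap.ext hcon)
  set w₀ := (u ^ (s - 1)) v₀ with hw₀
  have huw₀ : u w₀ = 0 := by
    rw [hw₀, ← Module.End.mul_apply, ← pow_succ']
    have : s - 1 + 1 = s := by omega
    rw [this, hs, LinearMap.zero_apply]
  -- K1: commuting operators are scalar on ker u^(p^m - s)
  have hK1 : ∀ B : Module.End K V, B * g = g * B →
      ∃ c : K, ∀ v, (u ^ (p ^ m - s)) v = 0 → B v = c • v := by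
    intro B hB
    obtain ⟨c, B', hB'⟩ := hF1 B hB
    refine ⟨c, fun v hv => ?_⟩
    have := sandwich_kill p m g g' hgg' hg'g s hs hsn B' v hv
    rw [hB', LinearMap.add_apply, this, add_zero, LinearMap.smul_apply, Module.End.one_apply]
  have hker_le : ∀ v, u v = 0 → (u ^ (p ^ m - s)) v = 0 := by
    intro v hv
    have e : p ^ m - s = (p ^ m - s - 1) + 1 := by omega
    rw [e, pow_succ, Module.End.mul_apply, hv, map_zero]
  -- Claim A: ker u is spanned by w₀
  have hA : ∀ w, u w = 0 → ∃ c : K, w = c • w₀ := by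
    intro w hw
    by_contra hcon
    push Not at hcon
    have hw0 : w ≠ 0 := by
      intro h
      exact hcon 0 (by rw [h, zero_smul])
    have hnotmem : w₀ ∉ Submodule.span K {w} := by
      intro h
      obtain ⟨c, hc⟩ := Submodule.mem_span_singleton.mp h
      have hc0 : c ≠ 0 := by
        intro h0
        rw [h0, zero_smul] at hc
        exact hv₀ hc.symm
      apply hcon c⁻¹
      rw [← hc, smul_smul, inv_mul_cancel₀ hc0, one_smul]
    obtain ⟨φ, hφ1, hφ2⟩ := Submodule.exists_dual_map_eq_bot_of_notMem hnotmem inferInstance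
    have hφw : φ w = 0 := by
      have : φ w ∈ (Submodule.span K {w}).map φ :=
        Submodule.mem_map_of_mem (Submodule.mem_span_singleton_self w)
      rw [hφ2, Submodule.mem_bot] at this
      exact this
    have hPg : cycProj u φ v₀ s * g = g * cycProj u φ v₀ s := by
      rw [hgu, mul_add, add_mul, cycProj_comm u φ v₀ s hs, mul_one, one_mul]
    obtain ⟨c, hc⟩ := hK1 _ hPg
    have h1 := hc w (hker_le w hw)
    rw [cycProj_ker u φ v₀ s hs1 w hw, hφw, zero_smul] at h1
    have hc0 : c = 0 := by
      by_contra hne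
      exact hw0 ((smul_eq_zero.mp h1.symm).resolve_left hne)
    have h2 := hc w₀ (hker_le w₀ huw₀)
    rw [cycProj_ker u φ v₀ s hs1 w₀ huw₀, hc0, zero_smul] at h2
    rcases smul_eq_zero.mp h2 with h3 | h3
    · exact hφ1 h3
    · exact hv₀ h3
  -- Claim B: V is spanned by the u^i v₀
  have hB : ∀ k, k ≤ s → ∀ z, (u ^ k) z = 0 →
      z ∈ Submodule.span K (Set.range (fun i : Fin s => (u ^ (i : ℕ)) v₀)) := by
    intro k
    induction k with
    | zero =>
      intro _ z hz
      rw [pow_zero, Module.End.one_apply] at hz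
      rw [hz]; exact Submodule.zero_mem _
    | succ k ih =>
      intro hk z hz
      have h1 : u ((u ^ k) z) = 0 := by
        rw [← Module.End.mul_apply, ← pow_succ']; exact hz
      obtain ⟨c, hc⟩ := hA _ h1
      have h2 : (u ^ k) (z - c • (u ^ (s - 1 - k)) v₀) = 0 := by
        rw [map_sub, map_smul, ← Module.End.mul_apply, ← pow_add, hc, hw₀]
        have : k + (s - 1 - k) = s - 1 := by omega
        rw [this, sub_self]
      have h3 := ih (by omega) _ h2
      have h4 : (u ^ (s - 1 - k)) v₀ ∈
          Submodule.span K (Set.range (fun i : Fin s => (u ^ (i : ℕ)) v₀)) :=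
        Submodule.subset_span ⟨⟨s - 1 - k, by omega⟩, rfl⟩
      have h5 := Submodule.add_mem _ h3 (Submodule.smul_mem _ c h4)
      rwa [sub_add_cancel] at h5
  have hfin_le : Module.finrank K V ≤ s := by
    have htop : Submodule.span K (Set.range (fun i : Fin s => (u ^ (i : ℕ)) v₀)) = ⊤ := by
      rw [eq_top_iff]
      intro z _
      exact hB s le_rfl z (by rw [hs, LinearMap.zero_apply])
    have h1 := finrank_range_le_card (R := K) (fun i : Fin s => (u ^ (i : ℕ)) v₀)
    rw [Set.finrank, htop, finrank_top, Fintype.card_fin] at h1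
    exact h1
  have hs2 : 2 ≤ s := by omega
  -- step 4 : p^m - s ≤ 1
  have hj : p ^ m - s ≤ 1 := by
    by_contra hcon
    have hug : u * g = g * u := by rw [hgu]; noncomm_ring
    obtain ⟨c, hc⟩ := hK1 u hug
    have h1 := hc w₀ (hker_le w₀ huw₀)
    rw [huw₀] at h1
    have hc0 : c = 0 := by
      by_contra hne
      exact hv₀ ((smul_eq_zero.mp h1.symm).resolve_left hne)
    have h2 : (u ^ (p ^ m - s)) ((u ^ (s - 2)) v₀) = 0 := by
      have e : p ^ m - s = (p ^ m - s - 2) + 2 := by omega
      rw [e, ← Module.End.mul_apply, ← pow_add]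
      have e2 : p ^ m - s - 2 + 2 + (s - 2) = (p ^ m - s - 2) + s := by omega
      rw [e2, pow_add, hs, mul_zero, LinearMap.zero_apply]
    have h3 := hc _ h2
    rw [hc0, zero_smul, ← Module.End.mul_apply, ← pow_succ'] at h3
    have e3 : s - 2 + 1 = s - 1 := by omega
    rw [e3] at h3
    exact hv₀ h3
  have hseq : s = p ^ m - 1 := by omega
  have hfin_ge : s ≤ Module.finrank K V := by
    by_contra hcon
    push Not at hcon
    have h1 := Module.End.ker_pow_eq_ker_pow_finrank_of_le (f := u) hcon.le
    have h2 : LinearMap.ker (u ^ s) = ⊤ := by rw [hs]; exact LinearMap.ker_zero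
    rw [h2] at h1
    have h3 : u ^ Module.finrank K V = 0 := LinearMap.ker_eq_top.mp h1.symm
    exact hsmin _ hcon h3
  refine ⟨by omega, ?_⟩
  have e : p ^ m - 2 = s - 1 := by omega
  rw [e]
  exact hsmin (s - 1) (by omega)

end NilCyclic

end Cfsg.Agent.H66
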