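import Cfsg.Agent.H66.Burnside
import Cfsg.Agent.H66.NilCyc

/-!
# The Hall–Higman critical (extraspecial) case

`Γ` a finite `p'`-group, `Z ≤ Γ` central with `Γ/Z` abelian, acting by scalars, with nondegenerate
commutator pairing; `σ` an automorphism of `p`-power order `p^m` acting freely on `(Γ/Z)^#` and
trivially on `Z`.  For a module `V` (over an algebraically closed field of characteristic `p`)
with a compatible operator `X` of order `p^m` whose norm `∑ X^i` vanishes, we get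
`|Γ : Z| = (p^m - 1)^2` and `(X - 1)^(p^m - 2) ≠ 0`.
-/

set_option autoImplicit false
set_option linter.style.haveILetI false
set_option linter.unusedVariables false
set_option linter.unusedSectionVars false

namespace Cfsg.Agent.H66

open Module

section Irr

variable {K : Type*} [Field K] {Γ : Type*} [Group Γ] {V₁ : Type*} [AddCommGroup V₁] [Module K V₁]
  (ρ₁ : Γ →* Module.End K V₁) (Z : Subgroup Γ)

theorem rho_mul_inv (a : Γ) : ρ₁ a * ρ₁ a⁻¹ = 1 := by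
  rw [← map_mul, mul_inv_cancel, map_one]

theorem rho_inv_mul (a : Γ) : ρ₁ a⁻¹ * ρ₁ a = 1 := by
  rw [← map_mul, inv_mul_cancel, map_one]

theorem rho_ne_zero [Nontrivial V₁] (a : Γ) : ρ₁ a ≠ 0 := by
  intro h
  have := rho_mul_inv ρ₁ a
  rw [h, zero_mul] at this
  exact zero_ne_one this

theorem rho_conj (hcomm : ∀ a b : Γ, a * b * a⁻¹ * b⁻¹ ∈ Z)
    (hZs : ∀ z ∈ Z, ∃ c : K, ρ₁ z = c • 1) (b a : Γ) :
    ∃ c : K, ρ₁ (b * a * b⁻¹) = c • ρ₁ a := by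
  obtain ⟨c, hc⟩ := hZs _ (hcomm b a)
  refine ⟨c, ?_⟩
  have : b * a * b⁻¹ = (b * a * b⁻¹ * a⁻¹) * a := by group
  rw [this, map_mul, hc, smul_mul_assoc, one_mul]

theorem rho_conj_ne (hcomm : ∀ a b : Γ, a * b * a⁻¹ * b⁻¹ ∈ Z)
    (hZs : ∀ z ∈ Z, ∃ c : K, ρ₁ z = c • 1)
    (hnd : ∀ a : Γ, (∀ b : Γ, ρ₁ (b * a * b⁻¹ * a⁻¹) = 1) → a ∈ Z) (a : Γ) (ha : a ∉ Z) :
    ∃ (b : Γ) (c : K), c ≠ 1 ∧ ρ₁ (b * a * b⁻¹) = c • ρ₁ a := by
  by_contra hcon
  push Not at hcon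
  apply ha
  apply hnd
  intro b
  obtain ⟨c, hc⟩ := hZs _ (hcomm b a)
  have h1 : ρ₁ (b * a * b⁻¹) = c • ρ₁ a := by
    have : b * a * b⁻¹ = (b * a * b⁻¹ * a⁻¹) * a := by group
    rw [this, map_mul, hc, smul_mul_assoc, one_mul]
  have h2 : c = 1 := by
    by_contra hne
    exact hcon b c hne h1
  rw [hc, h2, one_smul]

theorem trace_rho_eq_zero [FiniteDimensional K V₁] (hcomm : ∀ a b : Γ, a * b * a⁻¹ * b⁻¹ ∈ Z)
    (hZs : ∀ z ∈ Z, ∃ c : K, ρ₁ z = c • 1)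
    (hnd : ∀ a : Γ, (∀ b : Γ, ρ₁ (b * a * b⁻¹ * a⁻¹) = 1) → a ∈ Z) (a : Γ) (ha : a ∉ Z) :
    LinearMap.trace K V₁ (ρ₁ a) = 0 := by
  obtain ⟨b, c, hc1, hc⟩ := rho_conj_ne ρ₁ Z hcomm hZs hnd a ha
  have h1 : LinearMap.trace K V₁ (ρ₁ (b * a * b⁻¹)) = LinearMap.trace K V₁ (ρ₁ a) := by
    rw [map_mul ρ₁, map_mul ρ₁, mul_assoc, LinearMap.trace_mul_comm, mul_assoc, rho_inv_mul,
      mul_one]
  rw [hc, map_smul, smul_eq_mul] at h1
  have h2 : (c - 1) * LinearMap.trace K V₁ (ρ₁ a) = 0 := by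
    rw [sub_mul, one_mul, h1, sub_self]
  rcases mul_eq_zero.mp h2 with h3 | h3
  · exact absurd (sub_eq_zero.mp h3) hc1
  · exact h3

theorem rho_indep_aux [Nontrivial V₁] (hcomm : ∀ a b : Γ, a * b * a⁻¹ * b⁻¹ ∈ Z)
    (hZs : ∀ z ∈ Z, ∃ c : K, ρ₁ z = c • 1)
    (hnd : ∀ a : Γ, (∀ b : Γ, ρ₁ (b * a * b⁻¹ * a⁻¹) = 1) → a ∈ Z) [DecidableEq Γ] :
    ∀ (s : Finset Γ), (∀ a ∈ s, ∀ b ∈ s, a ≠ b → a⁻¹ * b ∉ Z) → ∀ c : Γ → K,
      ∑ a ∈ s, c a • ρ₁ a = 0 → ∀ a ∈ s, c a = 0 := by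
  intro s
  induction s using Finset.induction_on with
  | empty => intro _ _ _ a ha; simp at ha
  | insert b s hb ih =>
    intro hs c hsum
    choose χ hχ using fun g a => rho_conj ρ₁ Z hcomm hZs g a
    have hχ0 : ∀ g a, χ g a ≠ 0 := by
      intro g a h0
      have := hχ g a
      rw [h0, zero_smul] at this
      exact rho_ne_zero ρ₁ _ this
    -- conjugate the relation
    have hconj : ∀ g, ∑ a ∈ insert b s, (c a * χ g a) • ρ₁ a = 0 := by
      intro g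
      have h1 : ρ₁ g * (∑ a ∈ insert b s, c a • ρ₁ a) * ρ₁ g⁻¹ = 0 := by
        rw [hsum, mul_zero, zero_mul]
      rw [Finset.mul_sum, Finset.sum_mul] at h1
      rw [← h1]
      apply Finset.sum_congr rfl
      intro a _
      rw [mul_smul_comm, smul_mul_assoc, ← map_mul, ← map_mul, hχ g a, smul_smul]
    have hs' : ∀ g, ∑ a ∈ s, (c a * (χ g a - χ g b)) • ρ₁ a = 0 := by
      intro g
      have h1 := hconj g
      rw [Finset.sum_insert hb] at h1 hsum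
      have h2 : ∑ a ∈ s, (c a * (χ g a - χ g b)) • ρ₁ a =
          (∑ a ∈ s, (c a * χ g a) • ρ₁ a) - χ g b • ∑ a ∈ s, c a • ρ₁ a := by
        rw [Finset.smul_sum, ← Finset.sum_sub_distrib]
        apply Finset.sum_congr rfl
        intro a _
        rw [smul_smul, ← sub_smul]
        congr 1; ring
      rw [h2]
      have h3 : ∑ a ∈ s, (c a * χ g a) • ρ₁ a = -((c b * χ g b) • ρ₁ b) :=
        eq_neg_of_add_eq_zero_right h1
      have h4 : ∑ a ∈ s, c a • ρ₁ a = -(c b • ρ₁ b) := eq_neg_of_add_eq_zero_right hsum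
      rw [h3, h4, smul_neg, smul_smul, mul_comm (χ g b) (c b)]
      abel
    have hsub : ∀ a ∈ s, ∀ a' ∈ s, a ≠ a' → a⁻¹ * a' ∉ Z := fun a ha a' ha' =>
      hs a (Finset.mem_insert_of_mem ha) a' (Finset.mem_insert_of_mem ha')
    have hzero : ∀ a ∈ s, c a = 0 := by
      intro a ha
      have hab : a ≠ b := fun h => hb (h ▸ ha)
      have hnotZ : a⁻¹ * b ∉ Z :=
        hs a (Finset.mem_insert_of_mem ha) b (Finset.mem_insert_self b s) hab
      -- there is g with χ g a ≠ χ g b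
      have hex : ∃ g, χ g a ≠ χ g b := by
        by_contra hcon
        push Not at hcon
        apply hnotZ
        apply hnd
        intro g
        have e : g * (a⁻¹ * b) * g⁻¹ * (a⁻¹ * b)⁻¹ =
            (g * a⁻¹ * g⁻¹) * (g * b * g⁻¹) * b⁻¹ * a := by group
        have h1 : ρ₁ (g * a⁻¹ * g⁻¹) = (χ g a)⁻¹ • ρ₁ a⁻¹ := by
          have h2 : ρ₁ (g * a⁻¹ * g⁻¹) * ρ₁ (g * a * g⁻¹) = 1 := by
            rw [← map_mul]
            have : g * a⁻¹ * g⁻¹ * (g * a * g⁻¹) = 1 := by group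
            rw [this, map_one]
          rw [hχ g a, mul_smul_comm] at h2
          have h3 : ρ₁ (g * a⁻¹ * g⁻¹) * ρ₁ a = (χ g a)⁻¹ • 1 := by
            rw [← h2, smul_smul, inv_mul_cancel₀ (hχ0 g a), one_smul]
          have h4 : ρ₁ (g * a⁻¹ * g⁻¹) = ρ₁ (g * a⁻¹ * g⁻¹) * ρ₁ a * ρ₁ a⁻¹ := by
            rw [mul_assoc (ρ₁ (g * a⁻¹ * g⁻¹)), rho_mul_inv, mul_one]
          rw [h4, h3, smul_mul_assoc, one_mul]
        rw [e, map_mul, map_mul, map_mul, h1, hχ g b, ← hcon g]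
        rw [smul_mul_assoc, smul_mul_assoc, smul_mul_assoc, mul_smul_comm, smul_mul_assoc,
          smul_mul_assoc, smul_smul, inv_mul_cancel₀ (hχ0 g a), one_smul]
        rw [mul_assoc, mul_assoc, ← mul_assoc (ρ₁ b), rho_mul_inv, one_mul, rho_inv_mul]
      obtain ⟨g, hg⟩ := hex
      have h1 := ih hsub (fun a => c a * (χ g a - χ g b)) (hs' g) a ha
      rcases mul_eq_zero.mp h1 with h2 | h2
      · exact h2
      · exact absurd (sub_eq_zero.mp h2) hg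
    intro a ha
    rw [Finset.mem_insert] at ha
    rcases ha with rfl | ha
    · rw [Finset.sum_insert hb] at hsum
      have h1 : ∑ a ∈ s, c a • ρ₁ a = 0 := by
        apply Finset.sum_eq_zero
        intro a' ha'
        rw [hzero a' ha', zero_smul]
      rw [h1, add_zero] at hsum
      exact (smul_eq_zero.mp hsum).resolve_right (rho_ne_zero ρ₁ a)
    · exact hzero a ha

end Irr

section Irr2

variable {K : Type*} [Field K] {Γ : Type*} [Group Γ] [Finite Γ] {V₁ : Type*} [AddCommGroup V₁]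
  [Module K V₁] [FiniteDimensional K V₁] [Nontrivial V₁]
  (ρ₁ : Γ →* Module.End K V₁) (Z : Subgroup Γ)

theorem rho_span_top [IsAlgClosed K]
    (hirr : ∀ W : Submodule K V₁, (∀ a : Γ, ∀ w ∈ W, ρ₁ a w ∈ W) → W = ⊥ ∨ W = ⊤) :
    Submodule.span K (Set.range ρ₁) = ⊤ := by
  have h1 : Algebra.adjoin K (Set.range ρ₁) = ⊤ := by
    apply burnside_span
    intro W hW
    apply hirr
    intro a w hw
    exact hW (ρ₁ a) (Algebra.subset_adjoin ⟨a, rfl⟩) w hw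
  have h2 := Algebra.adjoin_eq_span K (Set.range ρ₁)
  rw [h1] at h2
  have h3 : (Submonoid.closure (Set.range ρ₁) : Set (Module.End K V₁)) = Set.range ρ₁ := by
    rw [← MonoidHom.coe_mrange, Submonoid.closure_eq]
  rw [h3] at h2
  rw [← h2]; rfl

theorem finrank_sq_eq_index [IsAlgClosed K]
    (hirr : ∀ W : Submodule K V₁, (∀ a : Γ, ∀ w ∈ W, ρ₁ a w ∈ W) → W = ⊥ ∨ W = ⊤)
    (hcomm : ∀ a b : Γ, a * b * a⁻¹ * b⁻¹ ∈ Z)
    (hZs : ∀ z ∈ Z, ∃ c : K, ρ₁ z = c • 1)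
    (hnd : ∀ a : Γ, (∀ b : Γ, ρ₁ (b * a * b⁻¹ * a⁻¹) = 1) → a ∈ Z) :
    (Module.finrank K V₁) ^ 2 = Z.index := by
  classical
  haveI : Fintype (Γ ⧸ Z) := Fintype.ofFinite _
  let v : Γ ⧸ Z → Module.End K V₁ := fun w => ρ₁ (Quotient.out w)
  have hinj : Function.Injective (fun w : Γ ⧸ Z => (Quotient.out w : Γ)) := by
    intro w w' h
    have := congrArg (fun a : Γ => (QuotientGroup.mk a : Γ ⧸ Z)) h
    simpa using this
  have hli : LinearIndependent K v := by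
    rw [linearIndependent_iff']
    intro s c hsum w hw
    have h1 := rho_indep_aux ρ₁ Z hcomm hZs hnd (s.image (fun w => (Quotient.out w : Γ))) ?_
      (fun a => c (QuotientGroup.mk a)) ?_ (Quotient.out w) (Finset.mem_image_of_mem _ hw)
    · simpa using h1
    · intro a ha b hb hab hmem
      rw [Finset.mem_image] at ha hb
      obtain ⟨wa, _, rfl⟩ := ha
      obtain ⟨wb, _, rfl⟩ := hb
      apply hab
      have h2 : (QuotientGroup.mk (Quotient.out wa) : Γ ⧸ Z) = QuotientGroup.mk (Quotient.out wb) :=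
        QuotientGroup.eq.mpr hmem
      rw [QuotientGroup.out_eq', QuotientGroup.out_eq'] at h2
      rw [h2]
    · have h5 := Finset.sum_image (f := fun a : Γ => c (QuotientGroup.mk a : Γ ⧸ Z) • ρ₁ a)
        (s := s) (g := fun w : Γ ⧸ Z => (Quotient.out w : Γ)) (fun a _ b _ h => hinj h)
      refine h5.trans ?_
      simp only [QuotientGroup.out_eq']
      exact hsum
  have hspan : ⊤ ≤ Submodule.span K (Set.range v) := by
    rw [← rho_span_top ρ₁ hirr]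
    apply Submodule.span_le.mpr
    rintro _ ⟨a, rfl⟩
    obtain ⟨t, ht⟩ : ∃ t : Γ, t = Quotient.out (QuotientGroup.mk a : Γ ⧸ Z) := ⟨_, rfl⟩
    have hz : t⁻¹ * a ∈ Z := by
      apply QuotientGroup.eq.mp
      rw [ht, QuotientGroup.out_eq']
    obtain ⟨c, hc⟩ := hZs _ hz
    have h1 : ρ₁ a = c • v (QuotientGroup.mk a) := by
      have e : ρ₁ a = ρ₁ t * ρ₁ (t⁻¹ * a) := by
        rw [← map_mul, mul_inv_cancel_left]
      rw [e, hc, mul_smul_comm, mul_one, ht]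
    rw [SetLike.mem_coe, h1]
    exact Submodule.smul_mem _ c (Submodule.subset_span ⟨_, rfl⟩)
  let bs := Module.Basis.mk hli hspan
  have h1 := Module.finrank_eq_card_basis bs
  rw [Module.finrank_linearMap] at h1
  rw [sq, h1, Subgroup.index_eq_card, Nat.card_eq_fintype_card]

theorem sum_trace_smul_rho_inv [Fintype Γ]
    (hcomm : ∀ a b : Γ, a * b * a⁻¹ * b⁻¹ ∈ Z)
    (hZs : ∀ z ∈ Z, ∃ c : K, ρ₁ z = c • 1)
    (hnd : ∀ a : Γ, (∀ b : Γ, ρ₁ (b * a * b⁻¹ * a⁻¹) = 1) → a ∈ Z) :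
    ∑ c : Γ, LinearMap.trace K V₁ (ρ₁ c) • ρ₁ c⁻¹ =
      ((Nat.card Z : K) * (Module.finrank K V₁ : K)) • (1 : Module.End K V₁) := by
  classical
  have hterm : ∀ c : Γ, LinearMap.trace K V₁ (ρ₁ c) • ρ₁ c⁻¹ =
      if c ∈ Z then (Module.finrank K V₁ : K) • (1 : Module.End K V₁) else 0 := by
    intro c
    split_ifs with hc
    · obtain ⟨κ, hκ⟩ := hZs c hc
      have hκ0 : κ ≠ 0 := by
        intro h
        rw [h, zero_smul] at hκ
        exact rho_ne_zero ρ₁ c hκ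
      have h1 : ρ₁ c⁻¹ = κ⁻¹ • 1 := by
        have h2 := rho_mul_inv ρ₁ c
        rw [hκ, smul_mul_assoc, one_mul] at h2
        rw [← h2, smul_smul, inv_mul_cancel₀ hκ0, one_smul]
      rw [h1, hκ, map_smul, LinearMap.trace_one, smul_eq_mul, smul_smul, mul_comm κ, mul_assoc,
        mul_inv_cancel₀ hκ0, mul_one]
    · rw [trace_rho_eq_zero ρ₁ Z hcomm hZs hnd c hc, zero_smul]
  rw [Finset.sum_congr rfl (fun c _ => hterm c), Finset.sum_ite, Finset.sum_const_zero, add_zero,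
    Finset.sum_const, ← Nat.cast_smul_eq_nsmul K, smul_smul]
  congr 2
  rw [Nat.card_eq_fintype_card, Fintype.card_subtype]

theorem psi_eq [IsAlgClosed K] [Fintype Γ]
    (hirr : ∀ W : Submodule K V₁, (∀ a : Γ, ∀ w ∈ W, ρ₁ a w ∈ W) → W = ⊥ ∨ W = ⊤)
    (hcomm : ∀ a b : Γ, a * b * a⁻¹ * b⁻¹ ∈ Z)
    (hZs : ∀ z ∈ Z, ∃ c : K, ρ₁ z = c • 1)
    (hnd : ∀ a : Γ, (∀ b : Γ, ρ₁ (b * a * b⁻¹ * a⁻¹) = 1) → a ∈ Z) (B : Module.End K V₁) :
    ∑ a : Γ, LinearMap.trace K V₁ (B * ρ₁ a⁻¹) • ρ₁ a =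
      ((Nat.card Z : K) * (Module.finrank K V₁ : K)) • B := by
  classical
  let Ψ : Module.End K V₁ →ₗ[K] Module.End K V₁ :=
    ∑ a : Γ, LinearMap.smulRight
      ((LinearMap.trace K V₁).comp (LinearMap.mulRight K (ρ₁ a⁻¹))) (ρ₁ a)
  let Φ : Module.End K V₁ →ₗ[K] Module.End K V₁ :=
    ((Nat.card Z : K) * (Module.finrank K V₁ : K)) • LinearMap.id
  have hΨ : ∀ B, Ψ B = ∑ a : Γ, LinearMap.trace K V₁ (B * ρ₁ a⁻¹) • ρ₁ a := by
    intro B
    simp only [Ψ, LinearMap.sum_apply]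
    rfl
  have heq : Ψ = Φ := by
    apply LinearMap.ext_on (rho_span_top ρ₁ hirr)
    rintro _ ⟨b, rfl⟩
    rw [hΨ]
    show _ = ((Nat.card Z : K) * (Module.finrank K V₁ : K)) • ρ₁ b
    have h1 := Equiv.sum_comp ((Equiv.inv Γ).trans (Equiv.mulRight b))
      (fun a : Γ => LinearMap.trace K V₁ (ρ₁ b * ρ₁ a⁻¹) • ρ₁ a)
    rw [← h1]
    have h2 : ∀ c : Γ, LinearMap.trace K V₁ (ρ₁ b * ρ₁ (((Equiv.inv Γ).trans (Equiv.mulRight b)) c)⁻¹) •
        ρ₁ (((Equiv.inv Γ).trans (Equiv.mulRight b)) c) =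
        (LinearMap.trace K V₁ (ρ₁ c) • ρ₁ c⁻¹) * ρ₁ b := by
      intro c
      have e1 : ((Equiv.inv Γ).trans (Equiv.mulRight b)) c = c⁻¹ * b := rfl
      rw [e1, ← map_mul, smul_mul_assoc, ← map_mul]
      congr 3
      group
    rw [Finset.sum_congr rfl (fun c _ => h2 c), ← Finset.sum_mul,
      sum_trace_smul_rho_inv ρ₁ Z hcomm hZs hnd, smul_mul_assoc, one_mul]
  rw [← hΨ, heq]
  rfl

end Irr2

section Crit

variable {K : Type*} [Field K] {Γ : Type*} [Group Γ] [Finite Γ] {V₁ : Type*} [AddCommGroup V₁]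
  [Module K V₁] [FiniteDimensional K V₁] [Nontrivial V₁]
  (ρ₁ : Γ →* Module.End K V₁) (Z : Subgroup Γ)

theorem sub_one_pow_char_pow_alg (p : ℕ) [Fact p.Prime] [CharP K p] (m : ℕ)
    {A : Type*} [Ring A] [Algebra K A] (a : A) : (a - 1) ^ (p ^ m) = a ^ (p ^ m) - 1 := by
  have hpoly : ((Polynomial.X : Polynomial K) - 1) ^ (p ^ m) = Polynomial.X ^ (p ^ m) - 1 := by
    rw [sub_pow_char_pow, one_pow]
  have := congrArg (Polynomial.aeval a) hpoly
  simpa using this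

theorem schur_scalar [IsAlgClosed K]
    (hirr : ∀ W : Submodule K V₁, (∀ a : Γ, ∀ w ∈ W, ρ₁ a w ∈ W) → W = ⊥ ∨ W = ⊤)
    (B : Module.End K V₁) (hB : ∀ a, B * ρ₁ a = ρ₁ a * B) : ∃ μ : K, B = μ • 1 := by
  obtain ⟨μ, hμ⟩ := Module.End.exists_eigenvalue B
  refine ⟨μ, ?_⟩
  have hinv : ∀ a : Γ, ∀ w ∈ Module.End.eigenspace B μ, ρ₁ a w ∈ Module.End.eigenspace B μ := by
    intro a w hw
    rw [Module.End.mem_eigenspace_iff] at hw ⊢
    have h1 : B (ρ₁ a w) = ρ₁ a (B w) := by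
      have := congrArg (fun f : Module.End K V₁ => f w) (hB a)
      simpa [Module.End.mul_apply] using this
    rw [h1, hw, map_smul]
  rcases hirr _ hinv with h | h
  · exact absurd h hμ
  · ext v
    have hv : v ∈ Module.End.eigenspace B μ := by rw [h]; trivial
    rw [Module.End.mem_eigenspace_iff] at hv
    rw [hv]; rfl

theorem intertwine_pow (g : Module.End K V₁) (σ : Γ ≃* Γ)
    (h : ∀ a, g * ρ₁ a = ρ₁ (σ a) * g) :
    ∀ (k : ℕ) (a : Γ), g ^ k * ρ₁ a = ρ₁ (σ^[k] a) * g ^ k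
  | 0, a => by simp
  | k + 1, a => by
    rw [pow_succ, mul_assoc, h a, ← mul_assoc, intertwine_pow g σ h k (σ a), mul_assoc,
      Function.iterate_succ_apply]

theorem hhe_irr (p : ℕ) [Fact p.Prime] [CharP K p] [IsAlgClosed K] (m : ℕ) (hm : 1 ≤ m)
    (hcop : (Nat.card Γ).Coprime p)
    (hirr : ∀ W : Submodule K V₁, (∀ a : Γ, ∀ w ∈ W, ρ₁ a w ∈ W) → W = ⊥ ∨ W = ⊤)
    (hcomm : ∀ a b : Γ, a * b * a⁻¹ * b⁻¹ ∈ Z)
    (hZs : ∀ z ∈ Z, ∃ c : K, ρ₁ z = c • 1)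
    (hnd : ∀ a : Γ, (∀ b : Γ, ρ₁ (b * a * b⁻¹ * a⁻¹) = 1) → a ∈ Z)
    (hZtop : Z ≠ ⊤)
    (σ : Γ ≃* Γ) (hσZ : ∀ z ∈ Z, σ z = z) (hσm : ∀ a, σ^[p ^ m] a = a)
    (hfree : ∀ a, a ∉ Z → ∀ i, 0 < i → i < p ^ m → σ^[i] a * a⁻¹ ∉ Z) :
    ∃ g : Module.End K V₁, g ^ (p ^ m) = 1 ∧ (∀ a, g * ρ₁ a = ρ₁ (σ a) * g) ∧
      (∑ i ∈ Finset.range (p ^ m), g ^ i = 0 →
        Module.finrank K V₁ = p ^ m - 1 ∧ (g - 1) ^ (p ^ m - 2) ≠ 0) := by
  classical
  haveI : Fintype Γ := Fintype.ofFinite Γ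
  have hp : p.Prime := Fact.out
  have hpm1 : 1 < p ^ m := Nat.one_lt_pow (by omega) hp.one_lt
  have hpm0 : 0 < p ^ m := by omega
  obtain ⟨d, hd⟩ : ∃ d, d = Module.finrank K V₁ := ⟨_, rfl⟩
  have hd2 : d ^ 2 = Z.index := by
    rw [hd]; exact finrank_sq_eq_index ρ₁ Z hirr hcomm hZs hnd
  have hidx : Z.index ∣ Nat.card Γ := Subgroup.index_dvd_card Z
  have hcardZ : Nat.card Z ∣ Nat.card Γ := Subgroup.card_subgroup_dvd_card Z
  have hcast : ∀ k : ℕ, k ∣ Nat.card Γ → (k : K) ≠ 0 := by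
    intro k hk h
    rw [CharP.cast_eq_zero_iff K p] at h
    have h1 : p ∣ Nat.card Γ := h.trans hk
    have h2 : p ∣ Nat.gcd (Nat.card Γ) p := Nat.dvd_gcd h1 dvd_rfl
    rw [hcop] at h2
    exact hp.one_lt.ne' (Nat.dvd_one.mp h2)
  have hdK : (d : K) ≠ 0 :=
    hcast d ((dvd_pow_self d two_ne_zero).trans (hd2 ▸ hidx))
  have hZK : (Nat.card Z : K) ≠ 0 := hcast _ hcardZ
  -- the intertwiner
  obtain ⟨g₀, hg₀⟩ : ∃ g₀ : Module.End K V₁, g₀ = ∑ a : Γ, ρ₁ (σ a) * ρ₁ a⁻¹ := ⟨_, rfl⟩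
  have hint₀ : ∀ b, g₀ * ρ₁ b = ρ₁ (σ b) * g₀ := by
    intro b
    rw [hg₀, Finset.sum_mul, Finset.mul_sum]
    rw [← Equiv.sum_comp (Equiv.mulLeft b⁻¹) (fun a => ρ₁ (σ b) * (ρ₁ (σ a) * ρ₁ a⁻¹))]
    apply Finset.sum_congr rfl
    intro a _
    show _ = ρ₁ (σ b) * (ρ₁ (σ (b⁻¹ * a)) * ρ₁ (b⁻¹ * a)⁻¹)
    have e : σ b * (σ (b⁻¹ * a) * (b⁻¹ * a)⁻¹) = σ a * a⁻¹ * b := by
      rw [map_mul σ, map_inv σ]; group
    rw [← map_mul ρ₁, ← map_mul ρ₁, ← map_mul ρ₁, ← map_mul ρ₁, e]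
  have htr : LinearMap.trace K V₁ g₀ = (Nat.card Z : K) * d := by
    rw [hg₀, map_sum]
    have hterm : ∀ a : Γ, LinearMap.trace K V₁ (ρ₁ (σ a) * ρ₁ a⁻¹) =
        if a ∈ Z then (d : K) else 0 := by
      intro a
      rw [← map_mul ρ₁]
      split_ifs with ha
      · rw [hσZ a ha, mul_inv_cancel, map_one, LinearMap.trace_one, hd]
      · exact trace_rho_eq_zero ρ₁ Z hcomm hZs hnd _
          (by simpa using hfree a ha 1 Nat.one_pos hpm1)
    rw [Finset.sum_congr rfl (fun a _ => hterm a), Finset.sum_ite, Finset.sum_const_zero,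
      add_zero, Finset.sum_const, nsmul_eq_mul]
    congr 2
    rw [Nat.card_eq_fintype_card, Fintype.card_subtype]
  have hcommute : ∀ b, g₀ ^ (p ^ m) * ρ₁ b = ρ₁ b * g₀ ^ (p ^ m) := by
    intro b
    have := intertwine_pow ρ₁ g₀ σ hint₀ (p ^ m) b
    rw [hσm] at this
    exact this
  obtain ⟨μ, hμ⟩ := schur_scalar ρ₁ hirr _ hcommute
  have hμ0 : μ ≠ 0 := by
    intro h
    rw [h, zero_smul] at hμ
    have hnil : IsNilpotent g₀ := ⟨p ^ m, hμ⟩
    have h1 := LinearMap.isNilpotent_trace_of_isNilpotent hnil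
    rw [htr] at h1
    exact mul_ne_zero hZK hdK (IsNilpotent.eq_zero h1)
  obtain ⟨κ, hκ⟩ := IsAlgClosed.exists_pow_nat_eq μ⁻¹ hpm0
  obtain ⟨g, hgdef⟩ : ∃ g : Module.End K V₁, g = κ • g₀ := ⟨_, rfl⟩
  have hg1 : g ^ (p ^ m) = 1 := by
    rw [hgdef, smul_pow, hκ, hμ, smul_smul, inv_mul_cancel₀ hμ0, one_smul]
  have hint : ∀ a, g * ρ₁ a = ρ₁ (σ a) * g := by
    intro a
    rw [hgdef, smul_mul_assoc, hint₀, mul_smul_comm]
  refine ⟨g, hg1, hint, ?_⟩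
  intro hN
  obtain ⟨g', hg'def⟩ : ∃ g' : Module.End K V₁, g' = g ^ (p ^ m - 1) := ⟨_, rfl⟩
  have hgg' : g * g' = 1 := by
    rw [hg'def, ← pow_succ', Nat.sub_add_cancel hpm0, hg1]
  have hg'g : g' * g = 1 := by
    rw [hg'def, ← pow_succ, Nat.sub_add_cancel hpm0, hg1]
  have hconj : ∀ a, ρ₁ (σ a) = g * ρ₁ a * g' := by
    intro a
    rw [hint a, mul_assoc, hgg', mul_one]
  have hF1 : ∀ B : Module.End K V₁, B * g = g * B →
      ∃ (c : K) (B' : Module.End K V₁),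
        B = c • 1 + ∑ i ∈ Finset.range (p ^ m), g ^ i * B' * g' ^ i := by
    intro B hB
    have hpsi := psi_eq ρ₁ Z hirr hcomm hZs hnd B
    rw [← Finset.sum_filter_add_sum_filter_not Finset.univ (· ∈ Z)] at hpsi
    have hZpart : ∑ a ∈ Finset.univ.filter (· ∈ Z), LinearMap.trace K V₁ (B * ρ₁ a⁻¹) • ρ₁ a =
        ((Nat.card Z : K) * LinearMap.trace K V₁ B) • (1 : Module.End K V₁) := by
      have h1 : ∀ a ∈ Finset.univ.filter (· ∈ Z), LinearMap.trace K V₁ (B * ρ₁ a⁻¹) • ρ₁ a =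
          LinearMap.trace K V₁ B • (1 : Module.End K V₁) := by
        intro a ha
        rw [Finset.mem_filter] at ha
        obtain ⟨κ', hκ'⟩ := hZs a ha.2
        have hκ0 : κ' ≠ 0 := by
          intro h
          rw [h, zero_smul] at hκ'
          exact rho_ne_zero ρ₁ a hκ'
        have h2 : ρ₁ a⁻¹ = κ'⁻¹ • 1 := by
          have h3 := rho_mul_inv ρ₁ a
          rw [hκ', smul_mul_assoc, one_mul] at h3
          rw [← h3, smul_smul, inv_mul_cancel₀ hκ0, one_smul]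
        rw [h2, hκ', mul_smul_comm, mul_one, map_smul, smul_eq_mul, smul_smul, mul_assoc,
          mul_comm _ κ', ← mul_assoc, inv_mul_cancel₀ hκ0, one_mul]
      rw [Finset.sum_congr rfl h1, Finset.sum_const, ← Nat.cast_smul_eq_nsmul K, smul_smul]
      congr 2
      rw [Nat.card_eq_fintype_card, Fintype.card_subtype]
    obtain ⟨M₀, hM₀⟩ := orbit_sum (⇑σ) (conjL g g').toAddMonoidHom (p ^ m) hpm0
      (Finset.univ.filter (· ∉ Z)) (by
        intro a ha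
        rw [Finset.mem_filter] at ha ⊢
        refine ⟨Finset.mem_univ _, fun h => ha.2 ?_⟩
        have h1 := hσZ _ h
        have h2 : σ a = a := σ.injective h1
        rw [← h2]; exact h) (fun a _ => hσm a) (by
        intro a ha i hi0 hi h
        rw [Finset.mem_filter] at ha
        apply hfree a ha.2 i hi0 hi
        rw [h, mul_inv_cancel]
        exact Z.one_mem)
      (fun a => LinearMap.trace K V₁ (B * ρ₁ a⁻¹) • ρ₁ a) (by
        intro a _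
        show LinearMap.trace K V₁ (B * ρ₁ (σ a)⁻¹) • ρ₁ (σ a) =
          conjL g g' (LinearMap.trace K V₁ (B * ρ₁ a⁻¹) • ρ₁ a)
        rw [map_smul, conjL_apply, ← map_inv σ, hconj a, hconj a⁻¹, ← mul_assoc g]
        congr 1
        rw [← mul_assoc, ← mul_assoc, hB, mul_assoc, mul_assoc, LinearMap.trace_mul_comm,
          mul_assoc, mul_assoc, hg'g, mul_one])
    rw [hZpart, hM₀] at hpsi
    have hiter : ∀ i : ℕ, (⇑(conjL g g').toAddMonoidHom)^[i] M₀ = g ^ i * M₀ * g' ^ i := by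
      intro i
      have h1 : (⇑(conjL g g').toAddMonoidHom)^[i] M₀ = ((conjL g g') ^ i) M₀ := by
        rw [Module.End.pow_apply]; rfl
      rw [h1, conjL_pow_apply, mul_assoc]
    rw [Finset.sum_congr rfl (fun i _ => hiter i)] at hpsi
    have hne : (Nat.card Z : K) * (Module.finrank K V₁ : K) ≠ 0 := by
      rw [← hd]; exact mul_ne_zero hZK hdK
    refine ⟨((Nat.card Z : K) * (Module.finrank K V₁ : K))⁻¹ *
      ((Nat.card Z : K) * LinearMap.trace K V₁ B),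
      ((Nat.card Z : K) * (Module.finrank K V₁ : K))⁻¹ • M₀, ?_⟩
    calc B = ((Nat.card Z : K) * (Module.finrank K V₁ : K))⁻¹ •
        (((Nat.card Z : K) * (Module.finrank K V₁ : K)) • B) := by
          rw [smul_smul, inv_mul_cancel₀ hne, one_smul]
      _ = ((Nat.card Z : K) * (Module.finrank K V₁ : K))⁻¹ •
          (((Nat.card Z : K) * LinearMap.trace K V₁ B) • (1 : Module.End K V₁) +
            ∑ i ∈ Finset.range (p ^ m), g ^ i * M₀ * g' ^ i) := by rw [hpsi]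
      _ = _ := by
          rw [smul_add, smul_smul, Finset.smul_sum]
          congr 1
          apply Finset.sum_congr rfl
          intro i _
          rw [mul_smul_comm, smul_mul_assoc]
  rcases nil_cyclic p m hm g g' hgg' hg'g hF1 hN with h | h
  · exfalso
    rw [← hd] at h
    have h1 : Z.index ≤ 1 := by
      rw [← hd2]
      interval_cases d <;> simp
    have h2 : Z.index ≠ 0 := Subgroup.index_ne_zero_of_finite
    have h3 : Z.index = 1 := by omega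
    exact hZtop (Subgroup.index_eq_one.mp h3)
  · exact h

end Crit

section Main

variable {K : Type*} [Field K] {Γ : Type*} [Group Γ] [Finite Γ] {V : Type*} [AddCommGroup V]
  [Module K V] [FiniteDimensional K V] [Nontrivial V]

theorem exists_min_invariant (ρ : Γ →* Module.End K V) :
    ∃ W : Submodule K V, W ≠ ⊥ ∧ (∀ a : Γ, ∀ w ∈ W, ρ a w ∈ W) ∧
      ∀ U : Submodule K V, U ≤ W → (∀ a : Γ, ∀ w ∈ U, ρ a w ∈ U) → U = ⊥ ∨ U = W := by
  have hwf : WellFounded ((· < ·) : Submodule K V → Submodule K V → Prop) := wellFounded_lt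
  obtain ⟨W, hW, hmin⟩ := hwf.has_min
    {W : Submodule K V | W ≠ ⊥ ∧ ∀ a : Γ, ∀ w ∈ W, ρ a w ∈ W}
    ⟨⊤, top_ne_bot, fun _ _ _ => trivial⟩
  refine ⟨W, hW.1, hW.2, ?_⟩
  intro U hUW hU
  by_contra hcon
  push Not at hcon
  exact hmin U ⟨hcon.1, hU⟩ (lt_of_le_of_ne hUW hcon.2)

/-- Restriction of a representation to an invariant submodule. -/
noncomputable def resRep (ρ : Γ →* Module.End K V) (W : Submodule K V)
    (hW : ∀ a : Γ, ∀ w ∈ W, ρ a w ∈ W) : Γ →* Module.End K W where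
  toFun a := (ρ a).restrict (hW a)
  map_one' := by
    ext w
    simp
  map_mul' a b := by
    ext w
    simp

theorem resRep_apply (ρ : Γ →* Module.End K V) (W : Submodule K V)
    (hW : ∀ a : Γ, ∀ w ∈ W, ρ a w ∈ W) (a : Γ) (w : W) :
    ((resRep ρ W hW a) w : V) = ρ a w := rfl

theorem comp_pow_intertwine {W : Type*} [AddCommGroup W] [Module K W]
    (A : Module.End K V) (B : Module.End K W) (f : W →ₗ[K] V) (h : A ∘ₗ f = f ∘ₗ B) :
    ∀ k : ℕ, (A ^ k) ∘ₗ f = f ∘ₗ (B ^ k)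
  | 0 => by simp [Module.End.one_eq_id]
  | k + 1 => by
    rw [pow_succ, pow_succ, Module.End.mul_eq_comp, Module.End.mul_eq_comp, LinearMap.comp_assoc,
      h, ← LinearMap.comp_assoc, comp_pow_intertwine A B f h k, LinearMap.comp_assoc]

theorem hhe_main (p : ℕ) [Fact p.Prime] [CharP K p] [IsAlgClosed K] (m : ℕ) (hm : 1 ≤ m)
    (ρ : Γ →* Module.End K V) (Z : Subgroup Γ)
    (hcop : (Nat.card Γ).Coprime p)
    (hcomm : ∀ a b : Γ, a * b * a⁻¹ * b⁻¹ ∈ Z)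
    (hZs : ∀ z ∈ Z, ∃ c : K, ρ z = c • 1)
    (hnd : ∀ a : Γ, (∀ b : Γ, ρ (b * a * b⁻¹ * a⁻¹) = 1) → a ∈ Z)
    (hZtop : Z ≠ ⊤)
    (σ : Γ ≃* Γ) (hσZ : ∀ z ∈ Z, σ z = z) (hσm : ∀ a, σ^[p ^ m] a = a)
    (hfree : ∀ a, a ∉ Z → ∀ i, 0 < i → i < p ^ m → σ^[i] a * a⁻¹ ∉ Z)
    (X : Module.End K V) (hX : X ^ (p ^ m) = 1) (hXρ : ∀ a, X * ρ a = ρ (σ a) * X)
    (hN : ∑ i ∈ Finset.range (p ^ m), X ^ i = 0) :
    Z.index = (p ^ m - 1) ^ 2 ∧ (X - 1) ^ (p ^ m - 2) ≠ 0 := by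
  classical
  have hp : p.Prime := Fact.out
  have hpm0 : 0 < p ^ m := pow_pos hp.pos m
  obtain ⟨W, hWne, hWinv, hWmin⟩ := exists_min_invariant ρ
  haveI : Nontrivial W := Submodule.nontrivial_iff_ne_bot.mpr hWne
  obtain ⟨ρ₁, hρ₁⟩ : ∃ ρ₁ : Γ →* Module.End K W, ρ₁ = resRep ρ W hWinv := ⟨_, rfl⟩
  have hρ₁apply : ∀ (a : Γ) (w : W), ((ρ₁ a) w : V) = ρ a w := by
    intro a w; rw [hρ₁]; rfl
  have hirr₁ : ∀ U : Submodule K W, (∀ a : Γ, ∀ w ∈ U, ρ₁ a w ∈ U) → U = ⊥ ∨ U = ⊤ := by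
    intro U hU
    rcases hWmin (U.map W.subtype) (Submodule.map_subtype_le W U) (by
      rintro a _ ⟨w, hw, rfl⟩
      exact ⟨ρ₁ a w, hU a w hw, hρ₁apply a w⟩) with h | h
    · left
      rw [eq_bot_iff]
      intro w hw
      have h1 : (w : V) ∈ U.map W.subtype := ⟨w, hw, rfl⟩
      rw [h, Submodule.mem_bot] at h1
      rw [Submodule.mem_bot]
      exact Subtype.ext h1
    · right
      rw [eq_top_iff]
      intro w _
      have h1 : (w : V) ∈ U.map W.subtype := by rw [h]; exact w.2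
      obtain ⟨w', hw', e⟩ := h1
      have h2 : w' = w := Subtype.ext e
      rwa [← h2]
  have hZs₁ : ∀ z ∈ Z, ∃ c : K, ρ₁ z = c • 1 := by
    intro z hz
    obtain ⟨c, hc⟩ := hZs z hz
    refine ⟨c, ?_⟩
    ext w
    rw [hρ₁apply, hc]; rfl
  have hnd₁ : ∀ a : Γ, (∀ b : Γ, ρ₁ (b * a * b⁻¹ * a⁻¹) = 1) → a ∈ Z := by
    intro a ha
    apply hnd
    intro b
    obtain ⟨c, hc⟩ := hZs _ (hcomm b a)
    have h1 := ha b
    obtain ⟨w, hw⟩ := exists_ne (0 : W)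
    have h2 : ((ρ₁ (b * a * b⁻¹ * a⁻¹)) w : V) = c • (w : V) := by rw [hρ₁apply, hc]; rfl
    rw [h1] at h2
    have h3 : (1 - c) • (w : V) = 0 := by
      rw [sub_smul, one_smul]; exact sub_eq_zero.mpr h2
    rcases smul_eq_zero.mp h3 with h4 | h4
    · rw [hc, ← sub_eq_zero.mp h4, one_smul]
    · exact absurd (Subtype.ext h4) hw
  obtain ⟨g, hg1, hgint, hgN⟩ :=
    hhe_irr ρ₁ Z p m hm hcop hirr₁ hcomm hZs₁ hnd₁ hZtop σ hσZ hσm hfree
  have hd2 := finrank_sq_eq_index ρ₁ Z hirr₁ hcomm hZs₁ hnd₁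
  obtain ⟨g', hg'def⟩ : ∃ g' : Module.End K W, g' = g ^ (p ^ m - 1) := ⟨_, rfl⟩
  have hgg' : g * g' = 1 := by
    rw [hg'def, ← pow_succ', Nat.sub_add_cancel hpm0, hg1]
  have hg'g : g' * g = 1 := by
    rw [hg'def, ← pow_succ, Nat.sub_add_cancel hpm0, hg1]
  have hg'1 : g' ^ (p ^ m) = 1 := by
    rw [hg'def, ← pow_mul, mul_comm, pow_mul, hg1, one_pow]
  -- the operator `f ↦ X ∘ f ∘ g'`
  let T : Module.End K (W →ₗ[K] V) :=
    { toFun := fun f => X ∘ₗ f ∘ₗ g'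
      map_add' := by
        intro f₁ f₂
        ext w
        simp
      map_smul' := by
        intro c f
        ext w
        simp }
  have hTapply : ∀ f : W →ₗ[K] V, T f = X ∘ₗ f ∘ₗ g' := fun f => rfl
  have hTpow : ∀ (k : ℕ) (f : W →ₗ[K] V), (T ^ k) f = (X ^ k) ∘ₗ f ∘ₗ (g' ^ k) := by
    intro k
    induction k with
    | zero => intro f; simp [Module.End.one_eq_id]
    | succ k ih =>
      intro f
      rw [pow_succ, Module.End.mul_apply, ih, hTapply, pow_succ, pow_succ']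
      rfl
  have hT1 : T ^ (p ^ m) = 1 := by
    ext f w
    rw [hTpow, hX, hg'1]
    rfl
  have hTnil : (T - 1) ^ (p ^ m) = 0 := by
    rw [sub_one_pow_char_pow_alg (K := K) p m T, hT1, sub_self]
  -- equivariant maps
  have hTH : ∀ f : W →ₗ[K] V, (∀ a, f ∘ₗ ρ₁ a = ρ a ∘ₗ f) →
      ∀ a, (T f) ∘ₗ ρ₁ a = ρ a ∘ₗ (T f) := by
    intro f hf a
    -- g' ρ₁(σ a) = ρ₁ a g'
    have h1 : ∀ b, g' * ρ₁ (σ b) = ρ₁ b * g' := by
      intro b
      calc g' * ρ₁ (σ b) = g' * (ρ₁ (σ b) * g) * g' := by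
            rw [mul_assoc, mul_assoc, hgg', mul_one]
        _ = g' * (g * ρ₁ b) * g' := by rw [hgint b]
        _ = ρ₁ b * g' := by rw [← mul_assoc, hg'g, one_mul]
    have h2 : g' * ρ₁ a = ρ₁ (σ.symm a) * g' := by
      have := h1 (σ.symm a)
      rwa [MulEquiv.apply_symm_apply] at this
    have h3 : X * ρ (σ.symm a) = ρ a * X := by
      have := hXρ (σ.symm a)
      rwa [MulEquiv.apply_symm_apply] at this
    rw [hTapply]
    calc (X ∘ₗ f ∘ₗ g') ∘ₗ ρ₁ a = X ∘ₗ f ∘ₗ (g' * ρ₁ a) := rfl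
      _ = X ∘ₗ f ∘ₗ (ρ₁ (σ.symm a) * g') := by rw [h2]
      _ = X ∘ₗ (f ∘ₗ ρ₁ (σ.symm a)) ∘ₗ g' := rfl
      _ = X ∘ₗ (ρ (σ.symm a) ∘ₗ f) ∘ₗ g' := by rw [hf]
      _ = (X * ρ (σ.symm a)) ∘ₗ f ∘ₗ g' := rfl
      _ = (ρ a * X) ∘ₗ f ∘ₗ g' := by rw [h3]
      _ = ρ a ∘ₗ (X ∘ₗ f ∘ₗ g') := rfl
  have hTk : ∀ k : ℕ, ∀ a, (((T - 1) ^ k) W.subtype) ∘ₗ ρ₁ a = ρ a ∘ₗ (((T - 1) ^ k) W.subtype) := by
    intro k
    induction k with
    | zero =>
      intro a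
      ext w
      simp only [pow_zero, Module.End.one_apply, LinearMap.comp_apply, Submodule.subtype_apply]
      exact hρ₁apply a w
    | succ k ih =>
      intro a
      rw [pow_succ', Module.End.mul_apply, LinearMap.sub_apply, Module.End.one_apply,
        LinearMap.sub_comp, LinearMap.comp_sub, hTH _ ih a, ih a]
  have hex : ∃ k : ℕ, ((T - 1) ^ k) W.subtype = 0 := ⟨p ^ m, by rw [hTnil]; rfl⟩
  have hι : W.subtype ≠ 0 := by
    intro h
    obtain ⟨w, hw⟩ := exists_ne (0 : W)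
    apply hw
    have := congrArg (fun f : W →ₗ[K] V => f w) h
    exact Subtype.ext this
  have hk₀ : Nat.find hex ≠ 0 := by
    intro h
    have h1 := Nat.find_spec hex
    rw [h, pow_zero] at h1
    exact hι h1
  obtain ⟨k, hk⟩ : ∃ k, Nat.find hex = k + 1 := ⟨Nat.find hex - 1, by omega⟩
  obtain ⟨f, hfdef⟩ : ∃ f : W →ₗ[K] V, f = ((T - 1) ^ k) W.subtype := ⟨_, rfl⟩
  have hf0 : f ≠ 0 := by
    rw [hfdef]
    exact Nat.find_min hex (by omega : k < Nat.find hex)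
  have hTf : T f = f := by
    have h1 := Nat.find_spec hex
    rw [hk, pow_succ', Module.End.mul_apply, ← hfdef, LinearMap.sub_apply, Module.End.one_apply] at h1
    exact sub_eq_zero.mp h1
  have hfH : ∀ a, f ∘ₗ ρ₁ a = ρ a ∘ₗ f := by
    rw [hfdef]; exact hTk k
  have hfinj : ∀ w : W, f w = 0 → w = 0 := by
    have hker : LinearMap.ker f = ⊥ := by
      rcases hirr₁ (LinearMap.ker f) (by
        intro a w hw
        rw [LinearMap.mem_ker] at hw ⊢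
        have h1 := congrArg (fun F : W →ₗ[K] V => F w) (hfH a)
        simp only [LinearMap.comp_apply] at h1
        rw [h1, hw, map_zero]) with h | h
      · exact h
      · exact absurd (LinearMap.ker_eq_top.mp h) hf0
    intro w hw
    have : w ∈ LinearMap.ker f := hw
    rwa [hker, Submodule.mem_bot] at this
  have hXf : X ∘ₗ f = f ∘ₗ g := by
    calc X ∘ₗ f = X ∘ₗ f ∘ₗ (g' * g) := by rw [hg'g]; rfl
      _ = (X ∘ₗ f ∘ₗ g') ∘ₗ g := rfl
      _ = f ∘ₗ g := by rw [← hTapply, hTf]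
  have hcancel : ∀ B : Module.End K W, f ∘ₗ B = 0 → B = 0 := by
    intro B hB
    refine LinearMap.ext fun w => ?_
    rw [LinearMap.zero_apply]
    apply hfinj
    have := congrArg (fun F : W →ₗ[K] V => F w) hB
    simpa using this
  have hNg : ∑ i ∈ Finset.range (p ^ m), g ^ i = 0 := by
    apply hcancel
    refine LinearMap.ext fun w => ?_
    rw [LinearMap.comp_apply, LinearMap.sum_apply, map_sum, LinearMap.zero_apply]
    have h1 : ∀ i ∈ Finset.range (p ^ m), f ((g ^ i) w) = (X ^ i) (f w) := by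
      intro i _
      have := congrArg (fun F : W →ₗ[K] V => F w) (comp_pow_intertwine X g f hXf i)
      simp only [LinearMap.comp_apply] at this
      exact this.symm
    rw [Finset.sum_congr rfl h1, ← LinearMap.sum_apply, hN, LinearMap.zero_apply]
  obtain ⟨hfr, hgne⟩ := hgN hNg
  refine ⟨?_, ?_⟩
  · rw [← hd2, hfr]
  · intro h0
    apply hgne
    apply hcancel
    have hXf1 : (X - 1) ∘ₗ f = f ∘ₗ (g - 1) := by
      rw [LinearMap.sub_comp, LinearMap.comp_sub, hXf]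
      rfl
    rw [← comp_pow_intertwine (X - 1) (g - 1) f hXf1, h0, LinearMap.zero_comp]

end Main

end Cfsg.Agent.H66
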