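import Cfsg.Agent.H66.HHFDefs
import Cfsg.Agent.H66.HHQ

/-!
# Theorem B of Hall–Higman over `𝔽_p` (pieces ZB and ZBG of the S3786 project)
-/

set_option autoImplicit false
set_option linter.style.haveILetI false
set_option linter.unusedVariables false
set_option linter.unusedSectionVars false

namespace Cfsg.Agent.H66.HHF

open Cfsg TensorProduct

universe u

/-- base change of a faithful `𝔽_p`-representation to the algebraic closure -/
theorem exists_baseChange {H : Type u} [Group H] (p : ℕ) [Fact p.Prime]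
    (V : Type u) [AddCommGroup V] [Module (ZMod p) V]
    (θ : H →* Module.End (ZMod p) V) (hθ : Function.Injective θ) :
    ∃ ρ : H →* Module.End (AlgebraicClosure (ZMod p)) (AlgebraicClosure (ZMod p) ⊗[ZMod p] V),
      Function.Injective ρ ∧ ∀ (a : H) (k : ℕ), (ρ a - 1) ^ k = 0 ↔ (θ a - 1) ^ k = 0 := by
  obtain ⟨ρ, hρ⟩ : ∃ ρ : H →* Module.End (AlgebraicClosure (ZMod p))
        (AlgebraicClosure (ZMod p) ⊗[ZMod p] V),
      ρ = ((Module.End.baseChangeHom (ZMod p) (AlgebraicClosure (ZMod p)) V :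
        Module.End (ZMod p) V →ₐ[ZMod p] Module.End (AlgebraicClosure (ZMod p))
          (AlgebraicClosure (ZMod p) ⊗[ZMod p] V)) :
        Module.End (ZMod p) V →* Module.End (AlgebraicClosure (ZMod p))
          (AlgebraicClosure (ZMod p) ⊗[ZMod p] V)).comp θ := ⟨_, rfl⟩
  have hρapply : ∀ a : H, ρ a =
      Module.End.baseChangeHom (ZMod p) (AlgebraicClosure (ZMod p)) V (θ a) := by
    intro a; rw [hρ]; rfl
  refine ⟨ρ, ?_, ?_⟩
  · intro a b hab
    rw [hρapply, hρapply] at hab
    exact hθ (LinearMap.baseChangeHom_injective (ZMod p) V (AlgebraicClosure (ZMod p)) hab)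
  · intro a k
    have h1 : (ρ a - 1) ^ k =
        Module.End.baseChangeHom (ZMod p) (AlgebraicClosure (ZMod p)) V ((θ a - 1) ^ k) := by
      rw [map_pow, map_sub, map_one, hρapply]
    constructor
    · intro h
      rw [h1] at h
      have h2 : Module.End.baseChangeHom (ZMod p) (AlgebraicClosure (ZMod p)) V ((θ a - 1) ^ k) =
          Module.End.baseChangeHom (ZMod p) (AlgebraicClosure (ZMod p)) V 0 := by
        rw [h, map_zero]
      exact LinearMap.baseChangeHom_injective (ZMod p) V (AlgebraicClosure (ZMod p)) h2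
    · intro h
      rw [h1, h, map_zero]

theorem zb_holds : ZBStatement.{u} := by
  intro H _ _ p q _ _ hpq V _ _ _ θ hθ Q hQ g n hg hgQ hh
  obtain ⟨ρ, hρinj, hρ0⟩ := exists_baseChange p V θ hθ
  obtain ⟨N, hN, hcases⟩ := H66.hhB_aux p q hpq
    (Module.finrank (AlgebraicClosure (ZMod p)) (AlgebraicClosure (ZMod p) ⊗[ZMod p] V)) H
    (AlgebraicClosure (ZMod p) ⊗[ZMod p] V) rfl ρ hρinj Q hQ g n hg hgQ hh
  exact ⟨N, fun h => hN ((hρ0 g (N - 1)).mpr h), hcases⟩

theorem zbg_holds : ZBGStatement.{u} := by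
  intro H _ _ p _ hsol hOp V _ _ _ θ hθ x m hx1 hx2
  obtain ⟨ρ, hρinj, hρ0⟩ := exists_baseChange p V θ hθ
  obtain ⟨N, hN, hcases⟩ := H66.hhB_group hsol hOp ρ hρinj x m hx1 hx2
  exact ⟨N, fun h => hN ((hρ0 x (N - 1)).mpr h), hcases⟩

end Cfsg.Agent.H66.HHF
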