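import Cfsg.Agent.H66.HHFKeyB
import Cfsg.Agent.H66.HHFZ

/-!
# Assembly of the S3786 project: `l_p ≤ e` (non-exceptional) and `l_p ≤ 2e` (`p` odd)
-/

set_option autoImplicit false
set_option linter.style.haveILetI false
set_option linter.unusedVariables false
set_option linter.unusedSectionVars false

namespace Cfsg.Agent.H66.HHF

open Cfsg

universe u

theorem relSeries_zero_step {G : Type u} [Group G] [Finite G] (p : ℕ) [Fact p.Prime]
    (M : {H : Subgroup G // H.Normal})
    (hM : ∀ g : G, (∃ j, g ^ p ^ j = 1) → g ^ p ^ 0 ∈ M.1) :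
    (H14.relSeries p G M 1).1 = ⊤ := by
  haveI : M.1.Normal := M.2
  rw [H14.relSeries_one]
  obtain ⟨S⟩ : Nonempty (Sylow p G) := inferInstance
  have hS : (S : Subgroup G) ≤ M.1 := by
    intro s hs
    obtain ⟨k, hk⟩ := S.isPGroup' ⟨s, hs⟩
    have := hM s ⟨k, congrArg Subtype.val hk⟩
    simpa using this
  have hcop : (Nat.card (G ⧸ M.1)).Coprime p := by
    rw [← Subgroup.index_eq_card]
    have h1 : M.1.index ∣ (S : Subgroup G).index := Subgroup.index_dvd_of_le hS
    have h2 : ¬ p ∣ (S : Subgroup G).index := S.not_dvd_index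
    have h3 : ¬ p ∣ M.1.index := fun h => h2 (h.trans h1)
    exact ((Nat.Prime.coprime_iff_not_dvd Fact.out).mpr h3).symm
  have htop : pPrimeCore p (G ⧸ M.1) = ⊤ := by
    rw [eq_top_iff]
    apply H14.le_pPrimeCore inferInstance
    rw [Subgroup.card_top]; exact hcop
  rw [htop, Subgroup.comap_top]

/-- the induction for the non-exceptional case -/
theorem relSeries_eq_top_of_keyA (hA : KeyAStatement.{u}) {G : Type u} [Group G] [Finite G]
    (p : ℕ) [Fact p.Prime] (hp2 : p ≠ 2) (hsol : IsPSolvable p G)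
    (hcase : (¬ ∃ k : ℕ, p = 2 ^ k + 1) ∨ ∀ S : Sylow 2 G, IsMulCommutative (S : Subgroup G)) :
    ∀ (n : ℕ) (M : {H : Subgroup G // H.Normal}),
      (∀ g : G, (∃ j, g ^ p ^ j = 1) → g ^ p ^ n ∈ M.1) →
      (H14.relSeries p G M (2 * n + 1)).1 = ⊤ := by
  intro n
  induction n with
  | zero =>
    intro M hM
    exact relSeries_zero_step p M hM
  | succ n ih =>
    intro M hM
    haveI : M.1.Normal := M.2
    haveI : (H14.relSeries p G M 1).1.Normal := (H14.relSeries p G M 1).2
    have hN := H14.relSeries_one p G M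
    have hQ := H14.relSeries_two p G M
    have hMN : M.1 ≤ (H14.relSeries p G M 1).1 := by rw [hN]; exact H14.le_comap_mk' _ _
    have hO := H14.pPrimeCore_quotient_eq_bot_of_comap p M.1 (H14.relSeries p G M 1).1 hN
    have hsolq := H80.isPSolvable_quotient p (H14.relSeries p G M 1).1 hsol
    have hcaseq : (¬ ∃ k : ℕ, p = 2 ^ k + 1) ∨
        ∀ S : Sylow 2 (G ⧸ (H14.relSeries p G M 1).1),
          IsMulCommutative (S : Subgroup (G ⧸ (H14.relSeries p G M 1).1)) := by
      rcases hcase with h | h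
      · exact Or.inl h
      · right
        intro S
        haveI : Fact (Nat.Prime 2) := ⟨Nat.prime_two⟩
        exact H66.sylow_comm_of_surjective (QuotientGroup.mk' _) (QuotientGroup.mk'_surjective _) 2
          h S
    have key : ∀ g : G, (∃ j, g ^ p ^ j = 1) → g ^ p ^ n ∈ (H14.relSeries p G M 2).1 := by
      intro g hg
      rw [hQ, Subgroup.mem_comap]
      by_contra hcon
      rw [map_pow] at hcon
      have hgq : ∃ j, (QuotientGroup.mk' (H14.relSeries p G M 1).1 g) ^ p ^ j = 1 := by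
        obtain ⟨j, hj⟩ := hg
        exact ⟨j, by rw [← map_pow, hj, map_one]⟩
      obtain ⟨g', hg'p, hg'⟩ := hA (G ⧸ (H14.relSeries p G M 1).1) p hp2 hsolq hO hcaseq _ hgq n
        hcon
      obtain ⟨g₀, hg₀p, rfl⟩ := H66.exists_pelement_lift
        (QuotientGroup.mk' (H14.relSeries p G M 1).1) (QuotientGroup.mk'_surjective _) p g' hg'p
      apply hg'
      rw [← map_pow]
      exact (QuotientGroup.eq_one_iff _).mpr (hMN (hM g₀ hg₀p))
    have h2 := ih (H14.relSeries p G M 2) key
    have h3 : 2 * (n + 1) + 1 = (2 * n + 1) + 2 := by ring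
    rw [h3, H14.relSeries_add_two]
    exact h2

/-- the induction for the general odd case -/
theorem relSeries_eq_top_of_keyB (hB : KeyBStatement.{u}) {G : Type u} [Group G] [Finite G]
    (p : ℕ) [Fact p.Prime] (hp2 : p ≠ 2) (hsol : IsPSolvable p G) :
    ∀ (n : ℕ) (M : {H : Subgroup G // H.Normal}),
      (∀ g : G, (∃ j, g ^ p ^ j = 1) → g ^ p ^ n ∈ M.1) →
      (H14.relSeries p G M (4 * n + 1)).1 = ⊤ := by
  intro n
  induction n with
  | zero =>
    intro M hM
    exact relSeries_zero_step p M hM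
  | succ n ih =>
    intro M hM
    have key := hB G p hp2 hsol n M hM
    have h2 := ih (H14.relSeries p G M 4) key
    have h3 : 4 * (n + 1) + 1 = ((4 * n + 1) + 2) + 2 := by ring
    have h4 : H14.relSeries p G M 4 = H14.relSeries p G (H14.relSeries p G M 2) 2 :=
      H14.relSeries_add_two p G M 2
    rw [h3, H14.relSeries_add_two, H14.relSeries_add_two, ← h4]
    exact h2

/-- S3786 from `KeyA` and `KeyB`. -/
theorem hh_main (hA : KeyAStatement.{u}) (hB : KeyBStatement.{u}) {G : Type u} [Group G]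
    [Finite G] {p : ℕ} [Fact p.Prime] (hp : p ≠ 2) (hG : Cfsg.IsPSolvable p G) (e : ℕ)
    (hexp : ∀ (P : Sylow p G), ∀ x ∈ (P : Subgroup G), x ^ p ^ e = 1) :
    (((¬ ∃ k : ℕ, p = 2 ^ k + 1) ∨ ∀ S : Sylow 2 G, IsMulCommutative (S : Subgroup G)) →
      Cfsg.PLengthLE p e G) ∧ Cfsg.PLengthLE p (2 * e) G := by
  have hel : ∀ g : G, (∃ j, g ^ p ^ j = 1) →
      g ^ p ^ e ∈ (⟨⊥, inferInstance⟩ : {H : Subgroup G // H.Normal}).1 := by
    intro g ⟨j, hj⟩
    have hZ : IsPGroup p (Subgroup.zpowers g) := by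
      obtain ⟨k, _, hk⟩ := (Nat.dvd_prime_pow (Fact.out : p.Prime)).mp
        (orderOf_dvd_of_pow_eq_one hj)
      apply IsPGroup.of_card (n := k)
      rw [Nat.card_zpowers]; exact hk
    obtain ⟨T, hT⟩ := hZ.exists_le_sylow
    rw [Subgroup.mem_bot]
    exact hexp T g (hT (Subgroup.mem_zpowers g))
  constructor
  · intro hcase
    unfold Cfsg.PLengthLE
    rw [← H14.relSeries_bot]
    exact relSeries_eq_top_of_keyA hA p hp hG hcase e _ hel
  · unfold Cfsg.PLengthLE
    rw [← H14.relSeries_bot]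
    have h := relSeries_eq_top_of_keyB hB p hp hG e _ hel
    have h3 : 2 * (2 * e) + 1 = 4 * e + 1 := by ring
    rw [h3]
    exact h

/-- `KeyA` and `KeyB` from the pieces. -/
theorem keyB_of_pieces (hFrob : FrobStatement.{u}) (hLin : LinStatement.{u})
    (hP1 : P1Statement.{u}) (hCore : CoreHStatement.{u}) : KeyBStatement.{u} :=
  keyB_holds hCore hP1 hLin

end Cfsg.Agent.H66.HHF
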