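import Cfsg.Agent.H66.HHFDefs
import Cfsg.Agent.H66.ZRep
import Cfsg.Agent.H66.HHA

/-!
# KeyB of the S3786 project: the two-layer step from `CoreH`, `P1` and `Lin`
-/

set_option autoImplicit false
set_option linter.style.haveILetI false
set_option linter.unusedVariables false
set_option linter.unusedSectionVars false

namespace Cfsg.Agent.H66.HHF

open Cfsg

universe u

/-- `O_p(G/N₂) = 1` for `N₂` the preimage of `O_p(G/N₁)`. -/
theorem pCore_quot_bot_of_comap {G : Type*} [Group G] [Finite G] (p : ℕ) [Fact p.Prime]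
    (N₁ N₂ : Subgroup G) [N₁.Normal] [N₂.Normal]
    (hN : N₂ = (pCore p (G ⧸ N₁)).comap (QuotientGroup.mk' N₁)) :
    pCore p (G ⧸ N₂) = ⊥ := by
  obtain ⟨L, hL⟩ : ∃ L : Subgroup G, L = (pCore p (G ⧸ N₂)).comap (QuotientGroup.mk' N₂) :=
    ⟨_, rfl⟩
  haveI hLn : L.Normal := by rw [hL]; infer_instance
  have hLp : IsPGroup p (L.map (QuotientGroup.mk' N₁)) := by
    rintro ⟨_, x, hx, rfl⟩
    rw [hL] at hx
    have hx : QuotientGroup.mk' N₂ x ∈ pCore p (G ⧸ N₂) := hx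
    obtain ⟨a, ha⟩ := (H14.pCore_isPGroup p (G ⧸ N₂)) ⟨_, hx⟩
    have ha' : (QuotientGroup.mk' N₂ x) ^ p ^ a = 1 := congrArg Subtype.val ha
    rw [← map_pow] at ha'
    have h1 : x ^ p ^ a ∈ N₂ := (QuotientGroup.eq_one_iff _).mp ha'
    rw [hN, Subgroup.mem_comap] at h1
    obtain ⟨b, hb⟩ := (H14.pCore_isPGroup p (G ⧸ N₁)) ⟨_, h1⟩
    have hb' : (QuotientGroup.mk' N₁ (x ^ p ^ a)) ^ p ^ b = 1 := congrArg Subtype.val hb
    refine ⟨a + b, Subtype.ext ?_⟩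
    show (QuotientGroup.mk' N₁ x) ^ p ^ (a + b) = 1
    rw [pow_add, pow_mul, ← map_pow]
    exact hb'
  have hLn' : (L.map (QuotientGroup.mk' N₁)).Normal :=
    hLn.map _ (QuotientGroup.mk'_surjective N₁)
  have hle : L.map (QuotientGroup.mk' N₁) ≤ pCore p (G ⧸ N₁) := H14.le_pCore hLn' hLp
  have hLN : L ≤ N₂ := by
    intro x hx
    rw [hN, Subgroup.mem_comap]
    exact hle (Subgroup.mem_map_of_mem _ hx)
  rw [eq_bot_iff]
  intro y hy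
  obtain ⟨x, rfl⟩ := QuotientGroup.mk'_surjective N₂ y
  have hx : x ∈ L := by rw [hL, Subgroup.mem_comap]; exact hy
  rw [Subgroup.mem_bot]
  exact (QuotientGroup.eq_one_iff x).mpr (hLN hx)

/-- transfer of membership in `O_{p',p}` along the double quotient -/
theorem mem_pCore_of_double {G : Type*} [Group G] [Finite G] (p : ℕ) [Fact p.Prime]
    (M₂ N₃ : Subgroup G) [M₂.Normal] [N₃.Normal]
    (hN : N₃ = (pPrimeCore p (G ⧸ M₂)).comap (QuotientGroup.mk' M₂)) (g₀ : G)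
    (h : QuotientGroup.mk' (pPrimeCore p (G ⧸ M₂)) (QuotientGroup.mk' M₂ g₀) ∈
      pCore p ((G ⧸ M₂) ⧸ pPrimeCore p (G ⧸ M₂))) :
    QuotientGroup.mk' N₃ g₀ ∈ pCore p (G ⧸ N₃) := by
  obtain ⟨T, hT⟩ : ∃ T : Subgroup G, T = ((pCore p ((G ⧸ M₂) ⧸ pPrimeCore p (G ⧸ M₂))).comap
      (QuotientGroup.mk' (pPrimeCore p (G ⧸ M₂)))).comap (QuotientGroup.mk' M₂) := ⟨_, rfl⟩
  haveI hTn : T.Normal := by rw [hT]; infer_instance
  have hTp : IsPGroup p (T.map (QuotientGroup.mk' N₃)) := by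
    rintro ⟨_, x, hx, rfl⟩
    rw [hT] at hx
    have hx : QuotientGroup.mk' (pPrimeCore p (G ⧸ M₂)) (QuotientGroup.mk' M₂ x) ∈
        pCore p ((G ⧸ M₂) ⧸ pPrimeCore p (G ⧸ M₂)) := hx
    obtain ⟨a, ha⟩ := (H14.pCore_isPGroup p ((G ⧸ M₂) ⧸ pPrimeCore p (G ⧸ M₂))) ⟨_, hx⟩
    have ha' : (QuotientGroup.mk' (pPrimeCore p (G ⧸ M₂)) (QuotientGroup.mk' M₂ x)) ^ p ^ a = 1 :=
      congrArg Subtype.val ha
    rw [← map_pow, ← map_pow] at ha'
    have h1 : QuotientGroup.mk' M₂ (x ^ p ^ a) ∈ pPrimeCore p (G ⧸ M₂) :=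
      (QuotientGroup.eq_one_iff _).mp ha'
    have h2 : x ^ p ^ a ∈ N₃ := by rw [hN, Subgroup.mem_comap]; exact h1
    refine ⟨a, Subtype.ext ?_⟩
    show (QuotientGroup.mk' N₃ x) ^ p ^ a = 1
    rw [← map_pow]
    exact (QuotientGroup.eq_one_iff _).mpr h2
  have hTn' : (T.map (QuotientGroup.mk' N₃)).Normal :=
    hTn.map _ (QuotientGroup.mk'_surjective N₃)
  have hle : T.map (QuotientGroup.mk' N₃) ≤ pCore p (G ⧸ N₃) := H14.le_pCore hTn' hTp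
  apply hle
  apply Subgroup.mem_map_of_mem
  rw [hT, Subgroup.mem_comap, Subgroup.mem_comap]
  exact h

set_option maxHeartbeats 1600000 in
theorem keyB_holds (hCore : CoreHStatement.{u}) (hP1 : P1Statement.{u})
    (hLin : LinStatement.{u}) : KeyBStatement.{u} := by
  intro G _ _ p _ hp2 hsol n M hM g hg
  classical
  have hp : p.Prime := Fact.out
  haveI hMn : M.1.Normal := M.2
  obtain ⟨N₁, hN₁def⟩ : ∃ N₁ : Subgroup G, N₁ = (H14.relSeries p G M 1).1 := ⟨_, rfl⟩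
  haveI hN₁n : N₁.Normal := by rw [hN₁def]; exact (H14.relSeries p G M 1).2
  have hN₁ : N₁ = (pPrimeCore p (G ⧸ M.1)).comap (QuotientGroup.mk' M.1) := by
    rw [hN₁def]; exact H14.relSeries_one p G M
  obtain ⟨M₂, hM₂def⟩ : ∃ M₂ : {H : Subgroup G // H.Normal}, M₂ = H14.relSeries p G M 2 :=
    ⟨_, rfl⟩
  haveI hM₂n : M₂.1.Normal := M₂.2
  have hM₂ : M₂.1 = (pCore p (G ⧸ N₁)).comap (QuotientGroup.mk' N₁) := by
    rw [hM₂def]
    have := H14.relSeries_two p G M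
    subst hN₁def
    exact this
  have h4 : H14.relSeries p G M 4 = H14.relSeries p G M₂ 2 := by
    rw [hM₂def]; exact H14.relSeries_add_two p G M 2
  obtain ⟨N₃, hN₃def⟩ : ∃ N₃ : Subgroup G, N₃ = (H14.relSeries p G M₂ 1).1 := ⟨_, rfl⟩
  haveI hN₃n : N₃.Normal := by rw [hN₃def]; exact (H14.relSeries p G M₂ 1).2
  have hN₃ : N₃ = (pPrimeCore p (G ⧸ M₂.1)).comap (QuotientGroup.mk' M₂.1) := by
    rw [hN₃def]; exact H14.relSeries_one p G M₂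
  have hN₄ : (H14.relSeries p G M₂ 2).1 = (pCore p (G ⧸ N₃)).comap (QuotientGroup.mk' N₃) := by
    have := H14.relSeries_two p G M₂
    subst hN₃def
    exact this
  rw [h4, hN₄, Subgroup.mem_comap]
  apply mem_pCore_of_double p M₂.1 N₃ hN₃
  have hMN₁ : M.1 ≤ N₁ := by rw [hN₁]; exact H14.le_comap_mk' _ _
  have hN₁M₂ : N₁ ≤ M₂.1 := by rw [hM₂]; exact H14.le_comap_mk' _ _
  -- the quotient Γ = G / N₁
  have hOΓ : pPrimeCore p (G ⧸ N₁) = ⊥ := H14.pPrimeCore_quotient_eq_bot_of_comap p M.1 N₁ hN₁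
  have hsolΓ : IsPSolvable p (G ⧸ N₁) := H80.isPSolvable_quotient p N₁ hsol
  have hexpΓ : ∀ γ : G ⧸ N₁, (∃ j, γ ^ p ^ j = 1) → γ ^ p ^ (n + 1) = 1 := by
    intro γ hγ
    obtain ⟨g', hg'p, rfl⟩ := H66.exists_pelement_lift (QuotientGroup.mk' N₁)
      (QuotientGroup.mk'_surjective _) p γ hγ
    rw [← map_pow]
    exact (QuotientGroup.eq_one_iff _).mpr (hMN₁ (hM g' hg'p))
  obtain ⟨P₁, hP₁⟩ : ∃ P₁ : Subgroup (G ⧸ N₁), P₁ = pCore p (G ⧸ N₁) := ⟨_, rfl⟩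
  haveI hP₁n : P₁.Normal := by rw [hP₁]; infer_instance
  have hP₁p : IsPGroup p P₁ := by rw [hP₁]; exact H14.pCore_isPGroup p _
  obtain ⟨Φ, hΦ⟩ : ∃ Φ : Subgroup (G ⧸ N₁), Φ = (frattini ↥P₁).map P₁.subtype := ⟨_, rfl⟩
  haveI hΦn : Φ.Normal := by
    rw [hΦ]
    apply Subgroup.normalizer_eq_top_iff.mp
    rw [eq_top_iff]
    refine le_trans ?_ (H1.normalizer_le_normalizer_map_of_characteristic P₁ (frattini ↥P₁))
    rw [Subgroup.normalizer_eq_top_iff.mpr hP₁n]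
  obtain ⟨V, iV1, iV2, θ, ι, hθinj, hιsurj, hιmul, hιzpow, hιconj, hιeq, hVp⟩ :=
    H66.exists_faithful_zmod_rep hsolΓ hOΓ P₁ hP₁ Φ hΦ
  have hι1 : ι 1 = 0 := by
    have := hιzpow 1 P₁.one_mem 0
    rwa [zpow_zero, zero_smul] at this
  haveI hVfin : Finite V :=
    Finite.of_surjective ι (fun v => by obtain ⟨u, _, h⟩ := hιsurj v; exact ⟨u, h⟩)
  -- the quotient H = G / M₂ and its embedding into Γ / P₁
  have hker : ∀ x ∈ M₂.1, ((QuotientGroup.mk' P₁).comp (QuotientGroup.mk' N₁)) x = 1 := by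
    intro x hx
    rw [hM₂, Subgroup.mem_comap, ← hP₁] at hx
    exact (QuotientGroup.eq_one_iff _).mpr hx
  obtain ⟨φ, hφ⟩ : ∃ φ : (G ⧸ M₂.1) →* ((G ⧸ N₁) ⧸ P₁),
      φ = QuotientGroup.lift M₂.1 ((QuotientGroup.mk' P₁).comp (QuotientGroup.mk' N₁)) hker :=
    ⟨_, rfl⟩
  have hφmk : ∀ x : G, φ (QuotientGroup.mk' M₂.1 x) =
      QuotientGroup.mk' P₁ (QuotientGroup.mk' N₁ x) := by
    intro x; rw [hφ]; rfl
  have hφinj : Function.Injective φ := by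
    rw [injective_iff_map_eq_one]
    intro y hy
    obtain ⟨x, rfl⟩ := QuotientGroup.mk'_surjective M₂.1 y
    rw [hφmk] at hy
    have h1 : QuotientGroup.mk' N₁ x ∈ P₁ := (QuotientGroup.eq_one_iff _).mp hy
    apply (QuotientGroup.eq_one_iff x).mpr
    rw [hM₂, Subgroup.mem_comap, ← hP₁]
    exact h1
  have hexpH : ∀ y : G ⧸ M₂.1, (∃ j, y ^ p ^ j = 1) → y ^ p ^ (n + 1) = 1 := by
    intro y hy
    obtain ⟨g', hg'p, rfl⟩ := H66.exists_pelement_lift (QuotientGroup.mk' M₂.1)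
      (QuotientGroup.mk'_surjective _) p y hy
    rw [← map_pow]
    exact (QuotientGroup.eq_one_iff _).mpr (hN₁M₂ (hMN₁ (hM g' hg'p)))
  have hnil : ∀ y : G ⧸ M₂.1, y ^ p ^ (n + 1) = 1 →
      ((θ.comp φ) y - 1) ^ (p ^ (n + 1) - 1) = 0 := by
    intro y hy
    obtain ⟨g', hg'p, rfl⟩ := H66.exists_pelement_lift (QuotientGroup.mk' M₂.1)
      (QuotientGroup.mk'_surjective _) p y ⟨n + 1, hy⟩
    rw [MonoidHom.comp_apply, hφmk]
    obtain ⟨γ, hγ⟩ : ∃ γ : G ⧸ N₁, γ = QuotientGroup.mk' N₁ g' := ⟨_, rfl⟩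
    rw [← hγ]
    have hγp : ∃ j, γ ^ p ^ j = 1 := by
      obtain ⟨j, hj⟩ := hg'p
      exact ⟨j, by rw [hγ, ← map_pow, hj, map_one]⟩
    have hγ1 : γ ^ p ^ (n + 1) = 1 := hexpΓ γ hγp
    apply LinearMap.ext
    intro v
    obtain ⟨u, hu, rfl⟩ := hιsurj v
    obtain ⟨-, h2⟩ := hLin (G ⧸ N₁) p P₁ V θ ι hιmul hιconj γ (n + 1) u hu
    rw [h2, LinearMap.zero_apply]
    have hcoset : (u * γ) ^ p ^ (n + 1) = 1 := by
      apply hexpΓ
      obtain ⟨j, hj⟩ := hγp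
      have h1 : (u * γ) ^ p ^ j ∈ P₁ := by
        rw [← QuotientGroup.eq_one_iff, QuotientGroup.mk_pow, QuotientGroup.mk_mul,
          (QuotientGroup.eq_one_iff u).mpr hu, one_mul, ← QuotientGroup.mk_pow, hj]
        rfl
      obtain ⟨l, hl⟩ := hP₁p ⟨_, h1⟩
      refine ⟨j + l, ?_⟩
      rw [pow_add, pow_mul]
      exact congrArg Subtype.val hl
    rw [hcoset, hγ1, inv_one, mul_one, hι1]
  have hAb : AbCent p n (G ⧸ M₂.1) :=
    hP1 (G ⧸ M₂.1) p V (θ.comp φ) (hθinj.comp hφinj) n hnil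
  have hsolH : IsPSolvable p (G ⧸ M₂.1) := H80.isPSolvable_quotient p M₂.1 hsol
  have hOpH : pCore p (G ⧸ M₂.1) = ⊥ := pCore_quot_bot_of_comap p N₁ M₂.1 hM₂
  have hxp : ∃ j, (QuotientGroup.mk' M₂.1 g) ^ p ^ j = 1 := by
    obtain ⟨j, hj⟩ := hg
    exact ⟨j, by rw [← map_pow, hj, map_one]⟩
  have := hCore (G ⧸ M₂.1) p hp2 hsolH hOpH n hAb hexpH (QuotientGroup.mk' M₂.1 g) hxp
  rw [← map_pow] at this
  exact this

end Cfsg.Agent.H66.HHF
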