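import Mathlib
import Cfsg.Agent.H66.HKKDefs
import Cfsg.Agent.H66.Fpf4
import Cfsg.Agent.H60.Fg3
import Cfsg.Agent.S0033
import Cfsg.Agent.H40.HkkL1a

/-!
# Higman–Kreknin–Kostrikin: assembly (group side)
-/

set_option linter.style.haveILetI false
set_option linter.unusedVariables false
set_option linter.unusedSectionVars false

open scoped commutatorElement

namespace Cfsg.Agent.H66.HKK

universe u

/-- left-normed group commutator -/
def gfold {G : Type*} [Group G] (a : G) (l : List G) : G :=
  l.foldl (fun acc y => ⁅acc, y⁆) a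

theorem gfold_nil {G : Type*} [Group G] (a : G) : gfold a [] = a := rfl

theorem gfold_cons {G : Type*} [Group G] (a y : G) (l : List G) :
    gfold a (y :: l) = gfold ⁅a, y⁆ l := rfl

theorem gfold_append_singleton {G : Type*} [Group G] (a h : G) (l : List G) :
    gfold a (l ++ [h]) = ⁅gfold a l, h⁆ := by
  unfold gfold
  rw [List.foldl_append]
  rfl

/-- If all left-normed commutators of length `m + 1` lie in a normal subgroup `N`, then
the `m`-th term of the lower central series lies in `N`. -/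
theorem lcs_le_of_gfold {G : Type*} [Group G] :
    ∀ (m : ℕ) (N : Subgroup G) [N.Normal],
      (∀ (a : G) (l : List G), l.length = m → gfold a l ∈ N) →
      (⊤ : Subgroup G).lowerCentralSeries m ≤ N := by
  intro m
  induction m with
  | zero =>
    intro N _ h g _
    exact h g [] rfl
  | succ m ih =>
    intro N _ h
    rw [Subgroup.lowerCentralSeries_succ, Subgroup.commutator_le]
    set N₁ : Subgroup G := (Subgroup.center (G ⧸ N)).comap (QuotientGroup.mk' N) with hN₁
    have hmem : ∀ g : G, g ∈ N₁ ↔ ∀ k : G, ⁅g, k⁆ ∈ N := by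
      intro g
      rw [hN₁, Subgroup.mem_comap, Subgroup.mem_center_iff]
      constructor
      · intro hg k
        have h1 := hg (QuotientGroup.mk' N k)
        have h2 : (QuotientGroup.mk' N) ⁅g, k⁆ = 1 := by
          rw [commutatorElement_def, map_mul, map_mul, map_mul, map_inv, map_inv, ← h1]
          group
        exact (QuotientGroup.eq_one_iff _).mp h2
      · intro hg q
        obtain ⟨k, rfl⟩ := QuotientGroup.mk'_surjective N q
        have h2 : (QuotientGroup.mk' N) ⁅g, k⁆ = 1 := (QuotientGroup.eq_one_iff _).mpr (hg k)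
        rw [commutatorElement_def, map_mul, map_mul, map_mul, map_inv, map_inv] at h2
        have h3 : (QuotientGroup.mk' N) g * (QuotientGroup.mk' N) k =
            (QuotientGroup.mk' N) k * (QuotientGroup.mk' N) g := by
          have := congrArg (fun t => t * ((QuotientGroup.mk' N) k * (QuotientGroup.mk' N) g)) h2
          simpa [mul_assoc] using this
        exact h3.symm
    have hle : (⊤ : Subgroup G).lowerCentralSeries m ≤ N₁ := by
      apply ih N₁
      intro a l hl
      rw [hmem]
      intro k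
      rw [← gfold_append_singleton]
      apply h
      simp [hl]
    intro g hg k _
    exact (hmem g).mp (hle hg) k

/-- the partial "norm" products `x * α x * ⋯ * α^(k-1) x` -/
def npr {G : Type*} [Group G] (α : MulAut G) (x : G) : ℕ → G
  | 0 => 1
  | k + 1 => npr α x k * (α ^ k) x

theorem npr_eq_one {G : Type*} [Group G] [Finite G] (α : MulAut G) (n : ℕ) (hα : α ^ n = 1)
    (hfpf : ∀ g : G, α g = g → g = 1) (x : G) : npr α x n = 1 := by
  obtain ⟨y, -, rfl⟩ := exists_inv_mul_map α (⊤ : Subgroup G) (fun _ _ => Subgroup.mem_top _)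
    (fun g _ => hfpf g) x (Subgroup.mem_top _)
  have key : ∀ k : ℕ, npr α (y⁻¹ * α y) k = y⁻¹ * (α ^ k) y := by
    intro k
    induction k with
    | zero => simp [npr]
    | succ k ih =>
      have h1 : (α ^ k) (y⁻¹ * α y) = ((α ^ k) y)⁻¹ * (α ^ (k + 1)) y := by
        rw [map_mul, map_inv, pow_succ, MulAut.mul_apply]
      rw [npr, ih, h1]
      group
  rw [key, hα]
  simp


/-- `n = 3`: a `ZMod 3`-graded family with trivial zero component is nilpotent of class `≤ 2`. -/
theorem flcs_three {M : Type*} [LieRing M] (X : ZMod 3 → AddSubgroup M) (hX : IsGr X)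
    (h0 : X 0 = ⊥) : ∀ i, flcs X 2 i = ⊥ := by
  have hz : ∀ y ∈ X 0, y = 0 := fun y hy => by rw [h0] at hy; exact (AddSubgroup.mem_bot).1 hy
  have harith : ∀ a₁ a₂ b : ZMod 3, a₁ ≠ 0 → a₂ ≠ 0 → b ≠ 0 → a₁ + a₂ ≠ 0 → a₁ + a₂ + b ≠ 0 →
      a₂ + b = 0 ∧ a₁ + b = 0 := by decide
  -- triple brackets of homogeneous elements vanish
  have h3 : ∀ (a₁ a₂ b : ZMod 3) (s t v : M), s ∈ X a₁ → t ∈ X a₂ → v ∈ X b → ⁅⁅s, t⁆, v⁆ = 0 := by
    intro a₁ a₂ b s t v hs ht hv
    by_cases ha₁ : a₁ = 0
    · subst ha₁; rw [hz s hs]; simp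
    by_cases ha₂ : a₂ = 0
    · subst ha₂; rw [hz t ht]; simp
    by_cases hb : b = 0
    · subst hb; rw [hz v hv]; simp
    by_cases h12 : a₁ + a₂ = 0
    · have := hX a₁ a₂ s hs t ht
      rw [h12] at this
      rw [hz _ this]; simp
    by_cases h123 : a₁ + a₂ + b = 0
    · have := hX (a₁ + a₂) b _ (hX a₁ a₂ s hs t ht) v hv
      rw [h123] at this
      exact hz _ this
    obtain ⟨h2b, h1b⟩ := harith a₁ a₂ b ha₁ ha₂ hb h12 h123
    have htv : ⁅t, v⁆ = 0 := by
      have := hX a₂ b t ht v hv
      rw [h2b] at this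
      exact hz _ this
    have hsv : ⁅s, v⁆ = 0 := by
      have := hX a₁ b s hs v hv
      rw [h1b] at this
      exact hz _ this
    rw [lie_lie, htv, hsv]
    simp
  intro i
  rw [eq_bot_iff]
  change fbr (flcs X 1) X i ≤ ⊥
  unfold fbr
  rw [AddSubgroup.closure_le]
  rintro z ⟨a, b, -, u, hu, v, hv, rfl⟩
  change ⁅u, v⁆ ∈ (⊥ : AddSubgroup M)
  rw [AddSubgroup.mem_bot]
  -- u ∈ fbr X X a
  change u ∈ fbr (flcs X 0) X a at hu
  unfold fbr at hu
  induction hu using AddSubgroup.closure_induction with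
  | mem w hw =>
    obtain ⟨a₁, a₂, -, s, hs, t, ht, rfl⟩ := hw
    exact h3 a₁ a₂ b s t v hs ht hv
  | zero => simp
  | add w w' _ _ hw hw' => rw [add_lie, hw, hw']; simp
  | neg w _ hw => rw [neg_lie, hw]; simp

/-- The group-side core: from nilpotency of class `≤ c` of all `ZMod p`-graded Lie rings with
trivial zero component (packaged, after base change, as `hE`) and the associated Lie ring of the
lower central series (`hLie`), the class of `G` is at most `c`. -/
theorem hkk_core {G : Type u} [Group G] [Finite G] {p : ℕ} [Fact p.Prime] (α : MulAut G)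
    (hα : orderOf α = p) (hfpf : ∀ g : G, α g = g → g = 1) (c : ℕ)
    (hLie : ∃ (L : Type u) (_ : LieRing L) (e : ℕ → G → L) (φ : L →+ L),
      (∀ i x y, x ∈ (⊤ : Subgroup G).lowerCentralSeries i →
        y ∈ (⊤ : Subgroup G).lowerCentralSeries i → e i (x * y) = e i x + e i y) ∧
      (∀ i x, x ∈ (⊤ : Subgroup G).lowerCentralSeries i →
        (e i x = 0 ↔ x ∈ (⊤ : Subgroup G).lowerCentralSeries (i + 1))) ∧
      (∀ i j x y, x ∈ (⊤ : Subgroup G).lowerCentralSeries i →
        y ∈ (⊤ : Subgroup G).lowerCentralSeries j → ⁅e i x, e j y⁆ = e (i + j + 1) ⁅x, y⁆) ∧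
      (∀ z : L, z ∈ AddSubgroup.closure
        {w | ∃ i x, x ∈ (⊤ : Subgroup G).lowerCentralSeries i ∧ w = e i x}) ∧
      (∀ a b, φ ⁅a, b⁆ = ⁅φ a, φ b⁆) ∧
      (∀ i x, x ∈ (⊤ : Subgroup G).lowerCentralSeries i → φ (e i x) = e i (α.toMonoidHom x)))
    (hE : ∀ (L : Type u) [LieRing L] (φ : L →+ L), (∀ a b : L, φ ⁅a, b⁆ = ⁅φ a, φ b⁆) →
      (∀ x : L, ∑ k ∈ Finset.range p, (⇑φ)^[k] x = 0) →
      ∀ m : ℕ, m.Coprime p → (∀ x : L, m • x = 0) →
      ∀ (a : L) (l : List L), l.length = c → l.foldl (fun acc y => ⁅acc, y⁆) a = 0) :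
    (⊤ : Subgroup G).lowerCentralSeries c = ⊥ := by
  have hp : p.Prime := Fact.out
  have hαp : α ^ p = 1 := by rw [← hα]; exact pow_orderOf_eq_one α
  set γ : ℕ → Subgroup G := (⊤ : Subgroup G).lowerCentralSeries with hγ
  have hanti : Antitone γ := Subgroup.lowerCentralSeries_antitone ⊤
  have hchar : ∀ i, (γ i).Characteristic := fun i => inferInstance
  have hαγ : ∀ (k i : ℕ) (x : G), x ∈ γ i → (α ^ k) x ∈ γ i := by
    intro k i x hx
    have h1 : (γ i).map (α ^ k).toMonoidHom = γ i :=
      (Subgroup.characteristic_iff_map_eq.mp (hchar i)) (α ^ k)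
    rw [← h1]
    exact Subgroup.mem_map_of_mem _ hx
  -- nilpotency
  have hnil : Group.IsNilpotent G :=
    Cfsg.Agent.S0033.result α (fun g hg => hfpf g hg) p hp hα
  obtain ⟨L, instL, e, φ, he_add, he_zero, he_br, hspan, hφ_lie, hφ_e⟩ := hLie
  letI := instL
  have he_one : ∀ i, e i 1 = 0 := by
    intro i
    have := he_add i 1 1 (one_mem _) (one_mem _)
    rw [mul_one] at this
    have h2 : e i 1 + e i 1 = e i 1 + 0 := by rw [add_zero]; exact this.symm
    exact add_left_cancel h2
  -- iterates of φ on generators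
  have hφ_iter : ∀ (k i : ℕ) (x : G), x ∈ γ i → (⇑φ)^[k] (e i x) = e i ((α ^ k) x) := by
    intro k
    induction k with
    | zero => intro i x hx; simp
    | succ k ih =>
      intro i x hx
      rw [Function.iterate_succ_apply, hφ_e i x hx]
      have hx' : α.toMonoidHom x ∈ γ i := by
        have := hαγ 1 i x hx
        simpa using this
      rw [ih i _ hx', pow_succ, MulAut.mul_apply]
      rfl
  have hnpr_mem : ∀ (k i : ℕ) (x : G), x ∈ γ i → npr α x k ∈ γ i := by
    intro k
    induction k with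
    | zero => intro i x hx; exact one_mem _
    | succ k ih => intro i x hx; exact mul_mem (ih i x hx) (hαγ k i x hx)
  have hsum_gen : ∀ (k i : ℕ) (x : G), x ∈ γ i →
      ∑ j ∈ Finset.range k, (⇑φ)^[j] (e i x) = e i (npr α x k) := by
    intro k
    induction k with
    | zero => intro i x hx; simp [npr, he_one]
    | succ k ih =>
      intro i x hx
      rw [Finset.sum_range_succ, ih i x hx, hφ_iter k i x hx, npr,
        he_add i _ _ (hnpr_mem k i x hx) (hαγ k i x hx)]
  have hN : ∀ z : L, ∑ k ∈ Finset.range p, (⇑φ)^[k] z = 0 := by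
    intro z
    induction hspan z using AddSubgroup.closure_induction with
    | mem w hw =>
      obtain ⟨i, x, hx, rfl⟩ := hw
      rw [hsum_gen p i x hx, npr_eq_one α p hαp hfpf x, he_one]
    | zero => simp
    | add w w' _ _ hw hw' =>
      have : ∀ k, (⇑φ)^[k] (w + w') = (⇑φ)^[k] w + (⇑φ)^[k] w' := fun k =>
        iterate_map_add φ k w w'
      simp only [this, Finset.sum_add_distrib, hw, hw', add_zero]
    | neg w _ hw =>
      have : ∀ k, (⇑φ)^[k] (-w) = -(⇑φ)^[k] w := fun k =>
        iterate_map_neg φ k w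
      simp only [this, Finset.sum_neg_distrib, hw, neg_zero]
  have hpow_gen : ∀ (k i : ℕ) (x : G), x ∈ γ i → k • e i x = e i (x ^ k) := by
    intro k
    induction k with
    | zero => intro i x hx; simp [he_one]
    | succ k ih =>
      intro i x hx
      rw [succ_nsmul, ih i x hx, pow_succ, he_add i _ _ (pow_mem hx k) hx]
  have hexp : ∀ z : L, (Nat.card G) • z = 0 := by
    intro z
    induction hspan z using AddSubgroup.closure_induction with
    | mem w hw =>
      obtain ⟨i, x, hx, rfl⟩ := hw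
      rw [hpow_gen _ i x hx, pow_card_eq_one', he_one]
    | zero => simp
    | add w w' _ _ hw hw' => rw [nsmul_add, hw, hw', add_zero]
    | neg w _ hw => rw [smul_neg, hw, neg_zero]
  have hcop : (Nat.card G).Coprime p := by
    have h1 : ¬ p ∣ Nat.card G :=
      Cfsg.Agent.H60.fg_card_coprime hp 1 α (by rw [pow_one]; exact hαp) hfpf
    exact (Nat.Coprime.symm ((Nat.Prime.coprime_iff_not_dvd hp).mpr h1))
  have hfold0 := hE L φ hφ_lie hN (Nat.card G) hcop hexp
  -- transfer to the group
  have htrans : ∀ (l : List G) (i : ℕ) (a : G), a ∈ γ i →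
      gfold a l ∈ γ (i + l.length) ∧
      e (i + l.length) (gfold a l) = (l.map (e 0)).foldl (fun acc y => ⁅acc, y⁆) (e i a) := by
    intro l
    induction l with
    | nil => intro i a ha; exact ⟨ha, rfl⟩
    | cons y l ih =>
      intro i a ha
      have hy : y ∈ γ 0 := Subgroup.mem_top y
      have h1 : ⁅a, y⁆ ∈ γ (i + 0 + 1) :=
        Cfsg.Agent.H40.HKK.lcs_comm_mem i 0 a y ha hy
      have h2 := ih (i + 0 + 1) ⁅a, y⁆ h1
      have hidx : i + (y :: l).length = i + 0 + 1 + l.length := by
        simp only [List.length_cons]; omega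
      rw [hidx, gfold_cons]
      refine ⟨h2.1, ?_⟩
      rw [h2.2, List.map_cons, List.foldl_cons, he_br i 0 a y ha hy]
  have hmem : ∀ (a : G) (l : List G), l.length = c → gfold a l ∈ γ (c + 1) := by
    intro a l hl
    have h1 := htrans l 0 a (Subgroup.mem_top a)
    rw [zero_add, hl] at h1
    have h2 : e c (gfold a l) = 0 := by
      rw [h1.2]
      exact hfold0 (e 0 a) (l.map (e 0)) (by simp [hl])
    exact (he_zero c _ h1.1).mp h2
  have hle : γ c ≤ γ (c + 1) := lcs_le_of_gfold c (γ (c + 1)) hmem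
  have heq : γ (c + 1) = γ c := le_antisymm (hanti (Nat.le_succ c)) hle
  have hstab : ∀ k, γ (c + k) = γ c := by
    intro k
    induction k with
    | zero => rfl
    | succ k ih =>
      have h1 : γ (c + (k + 1)) = ⁅γ (c + k), (⊤ : Subgroup G)⁆ := rfl
      rw [h1, ih]
      exact heq
  obtain ⟨n, hn⟩ := Subgroup.nilpotent_iff_lowerCentralSeries.mp hnil
  rw [eq_bot_iff, ← hstab n, ← hn]
  exact hanti (Nat.le_add_left n c)

end Cfsg.Agent.H66.HKK
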