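import Cfsg.Agent.H5.JxKA
import Cfsg.Agent.H66.JxPSide
import Cfsg.Agent.H40.JxPF

/-! JX-KA (project JY-KILL2 = S2953, helper52): the case `V ≤ Q₁` of the kill, closed.
helper5's `ka_of_pside` (via helper82's `caseA`) fed with the two P-side facts `PInv`, `PDidx`
from `H66.Jx.pside_explicit` and helper40's `pf`. -/

set_option autoImplicit false
open Cfsg

namespace Cfsg.Agent.H66.Jx

open Cfsg.Agent.H64.Jz

universe u

/-- `T ∖ O₂(K ⊔ T)` inverts `K` modulo `O₂(K ⊔ T)` -/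
theorem pInv : Cfsg.Agent.H5.Jx.PInv.{u} := by
  intro G _ _ S M T K L hB
  exact (pside_explicit S M T K L hB).2.1

/-- `O₂(K ⊔ T)` has index at most 2 in `T` -/
theorem pDidx : Cfsg.Agent.H5.Jx.PDidx.{u} := by
  intro G _ _ S M T K L hB
  exact (pside_explicit S M T K L hB).1

/-- JX-KA: the case `V ≤ Q₁` is impossible -/
theorem ka : Cfsg.Agent.H52.Jx.StKA.{u} :=
  Cfsg.Agent.H5.Jx.ka_of_pside Cfsg.Agent.H40.Jx.pf pInv pDidx

example : Cfsg.Agent.H52.Jx.StKA.{u} := ka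

end Cfsg.Agent.H66.Jx
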