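import Mathlib
import Cfsg.Agent.H64.JzDefs
import Cfsg.Agent.H66.J46.S2946c
import Cfsg.Agent.S2950
import Cfsg.Agent.Helper55.UqBase
import Cfsg.Agent.H26.JzAEq

/-! JZ-Z2 (project JZ = S2951 / S2952, helper64): for `T < S`, `Ω₁Z(S)` has order 2. -/

set_option autoImplicit false
open Cfsg

namespace Cfsg.Agent.H66.Jz

open Cfsg.Agent.H64.Jz Cfsg.Agent.Helper55 Cfsg.Agent.Helper55.ThJ Cfsg.Agent.Helper55.J48
  Cfsg.Agent.Helper55.Uq

universe u

variable {G : Type u} [Group G]

theorem omegaCenterOf_le_inf66 (X : Subgroup G) :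
    omegaCenterOf X ≤ X ⊓ Subgroup.centralizer (X : Set G) := by
  unfold omegaCenterOf omegaOne
  rw [Subgroup.closure_le]
  intro x hx
  exact hx.1

theorem mem_omegaCenterOf66 {X : Subgroup G} {x : G} (hx : x ∈ X)
    (hc : x ∈ Subgroup.centralizer (X : Set G)) (h2 : x ^ 2 = 1) : x ∈ omegaCenterOf X := by
  unfold omegaCenterOf omegaOne
  exact Subgroup.subset_closure ⟨⟨hx, hc⟩, h2⟩

theorem omegaCenterOf_sq66 (X : Subgroup G) : ∀ y ∈ omegaCenterOf X, y ^ 2 = 1 := by
  intro y hy
  have key : y ∈ X ⊓ Subgroup.centralizer (X : Set G) ∧ y ^ 2 = 1 := by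
    unfold omegaCenterOf omegaOne at hy
    induction hy using Subgroup.closure_induction with
    | mem x hx => exact hx
    | one => exact ⟨Subgroup.one_mem _, one_pow 2⟩
    | mul a b _ _ iha ihb =>
      refine ⟨Subgroup.mul_mem _ iha.1 ihb.1, ?_⟩
      have hcomm : b * a = a * b := (Subgroup.mem_centralizer_iff.mp iha.1.2) b ihb.1.1
      have : (a * b) ^ 2 = a ^ 2 * b ^ 2 := by
        rw [pow_two, pow_two, pow_two]
        calc a * b * (a * b) = a * (b * a) * b := by group
          _ = a * (a * b) * b := by rw [hcomm]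
          _ = a * a * (b * b) := by group
      rw [this, iha.2, ihb.2, one_mul]
    | inv a _ iha =>
      refine ⟨Subgroup.inv_mem _ iha.1, ?_⟩
      rw [inv_pow, iha.2, inv_one]
  exact key.2

/-- a Sylow 2-subgroup of `L` contained in a 2-subgroup of `L` equals it -/
theorem sylowIn_eq66 [Finite G] {T L S : Subgroup G} (h : IsSylowTwoIn T L) (hTS : T ≤ S)
    (hSL : S ≤ L) (hS : IsPGroup 2 ↥S) : T = S := by
  have : Fact (Nat.Prime 2) := ⟨Nat.prime_two⟩
  obtain ⟨-, -, hodd⟩ := h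
  have hmul : T.relIndex S * S.relIndex L = T.relIndex L := Subgroup.relIndex_mul_relIndex T S L hTS hSL
  obtain ⟨n, hn⟩ := hS.index (T.subgroupOf S)
  have hn' : T.relIndex S = 2 ^ n := hn
  have h1 : T.relIndex S = 1 := by
    rcases Nat.eq_zero_or_pos n with h0 | hpos
    · rw [hn', h0, pow_zero]
    · exfalso
      have hd : 2 ∣ T.relIndex L := by
        rw [← hmul, hn']
        exact Dvd.dvd.mul_right (dvd_pow_self 2 (Nat.pos_iff_ne_zero.mp hpos)) _
      exact (Nat.not_even_iff_odd.mpr hodd) (even_iff_two_dvd.mpr hd)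
  exact le_antisymm hTS (Subgroup.relIndex_eq_one.mp h1)

theorem z2 : StZ2.{u} := by
  intro G _ _ S M T K L hB hTS
  obtain ⟨⟨hL, hN, hZ⟩, hO, hM, hMJ, hT, hTSle, hK, hLmax, hKL⟩ := hB
  have : Fact (Nat.Prime 2) := ⟨Nat.prime_two⟩
  obtain ⟨L₀, hL₀max, hKL₀, huniq, -, hsyl₀⟩ :=
    Cfsg.Agent.S2950.result hL hN hZ hO S M hM hMJ T hT K hK
  have hLL₀ : L = L₀ := huniq L hLmax hKL
  rw [← hLL₀] at hsyl₀ huniq
  have hsyl : IsSylowTwoIn T L := hsyl₀
  have hT2 : IsPGroup 2 ↥T := hT.1.1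
  have hT1 : T ≠ ⊥ := hT.1.2.1
  have hKJ : IsJComponent T K := hK.1.1
  have hS2 : IsPGroup 2 ↥(S : Subgroup G) := S.2
  have hCQ : Subgroup.centralizer (pCoreOf 2 L : Set G) ≤ pCoreOf 2 L :=
    centralizer_pCoreOf_le hL hLmax.1
  have hQT : pCoreOf 2 L ≤ T := pCoreOf_le_of_sylowIn hsyl
  have hJT : thompsonSubgroupOf 2 T ≤ T := J_le T
  -- centralizer of S lies in T
  have hCS : Subgroup.centralizer ((S : Subgroup G) : Set G) ≤ T := by
    refine le_trans ?_ (hCQ.trans hQT)
    exact Subgroup.centralizer_le (hQT.trans hTSle)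
  set Z := omegaCenterOf (S : Subgroup G) with hZdef
  set Z₀ := omegaCenterOf (thompsonSubgroupOf 2 T) with hZ₀def
  have hZle : Z ≤ (S : Subgroup G) ⊓ Subgroup.centralizer ((S : Subgroup G) : Set G) :=
    omegaCenterOf_le_inf66 _
  -- Z ≤ Z₀
  have hZZ₀ : Z ≤ Z₀ := by
    intro x hx
    have hxS := hZle hx
    have hx2 : x ^ 2 = 1 := omegaCenterOf_sq66 _ x hx
    have hxT : x ∈ T := hCS hxS.2
    obtain ⟨A, hA⟩ := gens_nonempty T
    have hxA : x ∈ A := by
      refine Cfsg.Agent.H26.Jz.mem_gen_of_commute hA hxT ?_ hx2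
      intro a ha
      exact (Subgroup.mem_centralizer_iff.mp hxS.2) a (hTSle (hA.1 ha))
    have hxJ : x ∈ thompsonSubgroupOf 2 T := gen_le_J hA hxA
    have hxC : x ∈ Subgroup.centralizer (thompsonSubgroupOf 2 T : Set G) :=
      Subgroup.centralizer_le (hJT.trans hTSle) hxS.2
    exact mem_omegaCenterOf66 hxJ hxC hx2
  -- S2946
  obtain ⟨hw2, hsup⟩ := Cfsg.Agent.H66.J46.s2946 hL hN hZ T hT2 hT1 K hKJ Z₀ rfl
  set Z₁ := Z₀ ⊓ ((K ⊔ thompsonSubgroupOf 2 T) ⊓
    Subgroup.centralizer ((K ⊔ thompsonSubgroupOf 2 T) : Set G)) with hZ₁def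
  set Zw := Z₀ ⊓ wOf K with hZwdef
  -- Z ⊓ Z₁ = ⊥
  have hdisj : ∀ y : G, y ∈ Z → y ∈ Z₁ → y = 1 := by
    intro y hyZ hyZ₁
    by_contra hy1
    have hyS := hZle hyZ
    have hyC : y ∈ Subgroup.centralizer ((K ⊔ thompsonSubgroupOf 2 T) : Set G) :=
      hyZ₁.2.2
    have hyC' : ∀ g ∈ ((K ⊔ thompsonSubgroupOf 2 T) : Set G), g * y = y * g :=
      Subgroup.mem_centralizer_iff.mp hyC
    have hP2 : IsPGroup 2 ↥(Subgroup.zpowers y) :=
      hS2.to_le (by rw [Subgroup.zpowers_le]; exact hyS.1)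
    have hP1 : Subgroup.zpowers y ≠ ⊥ := by
      intro h
      exact hy1 (Subgroup.zpowers_eq_bot.mp h)
    have hX : IsTwoLocal (Subgroup.normalizer (Subgroup.zpowers y : Set G)) :=
      ⟨Subgroup.zpowers y, hP2, hP1, rfl⟩
    have hSX : (S : Subgroup G) ≤ Subgroup.normalizer (Subgroup.zpowers y : Set G) := by
      refine le_trans ?_ (Subgroup.centralizer_le_normalizer _)
      rw [Subgroup.le_centralizer_iff, Subgroup.zpowers_le]
      exact hyS.2
    have hKX : K ⊔ thompsonSubgroupOf 2 T ≤ Subgroup.normalizer (Subgroup.zpowers y : Set G) := by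
      refine le_trans ?_ (Subgroup.centralizer_le_normalizer _)
      refine sup_le ?_ ?_
      · rw [Subgroup.le_centralizer_iff, Subgroup.zpowers_le, Subgroup.mem_centralizer_iff]
        intro k hk
        exact hyC' k (Or.inl hk)
      · rw [Subgroup.le_centralizer_iff, Subgroup.zpowers_le, Subgroup.mem_centralizer_iff]
        intro k hk
        exact hyC' k (Or.inr hk)
    obtain ⟨L₁, hL₁max, hXL₁⟩ := exists_maximalTwoLocal hX
    have hL₁ : L₁ = L := huniq L₁ hL₁max (hKX.trans hXL₁)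
    have hSL : (S : Subgroup G) ≤ L := hL₁ ▸ (hSX.trans hXL₁)
    exact hTS (sylowIn_eq66 hsyl hTSle hSL hS2)
  -- Z ≠ ⊥
  have hZne : ∃ z : G, z ∈ Z ∧ z ≠ 1 := by
    by_contra hcon
    have hZbot : Z = ⊥ := by
      rw [Subgroup.eq_bot_iff_forall]
      intro x hx
      by_contra hx1
      exact hcon ⟨x, hx, hx1⟩
    have htop : Subgroup.normalizer (((S : Subgroup G)) : Set G) = ⊤ := by
      rw [eq_top_iff]
      intro g _
      apply hZ S
      rw [Subgroup.mem_centralizer_iff]
      intro h hh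
      have hh' : h ∈ Z := hh
      rw [hZbot, Subgroup.mem_bot] at hh'
      rw [hh', one_mul, mul_one]
    have hnorm : (S : Subgroup G).Normal := Subgroup.normalizer_eq_top_iff.mp htop
    have hSle : (S : Subgroup G) ≤ pCore 2 G := le_sSup ⟨hnorm, hS2⟩
    rw [hO] at hSle
    exact hT1 (le_bot_iff.mp (hTSle.trans hSle))
  obtain ⟨z, hzZ, hz1⟩ := hZne
  -- the generator of Zw
  have hZ₀comm : ∀ a ∈ Z₀, ∀ b ∈ Z₀, a * b = b * a := by
    intro a ha b hb
    have ha' := (omegaCenterOf_le_inf66 _ ha)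
    have hb' := (omegaCenterOf_le_inf66 _ hb)
    exact (Subgroup.mem_centralizer_iff.mp hb'.2) a ha'.1
  have hZ₀sq : ∀ a ∈ Z₀, a ^ 2 = 1 := omegaCenterOf_sq66 _
  obtain ⟨w', hw'1, hw'uniq⟩ := (Nat.card_eq_two_iff' (1 : ↥Zw)).mp hw2
  obtain ⟨w, hwZw⟩ := w'
  have hw1 : w ≠ 1 := fun h => hw'1 (Subtype.ext h)
  have hZw_all : ∀ x ∈ Zw, x = 1 ∨ x = w := by
    intro x hx
    by_cases h : x = 1
    · exact Or.inl h
    · right
      have h2 := hw'uniq ⟨x, hx⟩ (fun h' => h (congrArg Subtype.val h'))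
      exact congrArg Subtype.val h2
  have hww : w * w = 1 := by
    have := hZ₀sq w hwZw.1
    rwa [pow_two] at this
  -- every element of Z₀ is in Z₁ or is w times an element of Z₁
  have hcover' : ∀ x ∈ Z₁ ⊔ Zw, x ∈ Z₀ ∧ (x ∈ Z₁ ∨ x * w ∈ Z₁) := by
    intro x hx'
    have key : x ∈ Z₀ ∧ (x ∈ Z₁ ∨ x * w ∈ Z₁) := by
      rw [Subgroup.sup_eq_closure] at hx'
      induction hx' using Subgroup.closure_induction with
      | mem u hu =>
        rcases hu with hu | hu
        · exact ⟨hu.1, Or.inl hu⟩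
        · refine ⟨hu.1, ?_⟩
          rcases hZw_all u hu with h | h
          · left; rw [h]; exact Subgroup.one_mem _
          · right; rw [h, hww]; exact Subgroup.one_mem _
      | one => exact ⟨Subgroup.one_mem _, Or.inl (Subgroup.one_mem _)⟩
      | mul a b _ _ iha ihb =>
        refine ⟨Subgroup.mul_mem _ iha.1 ihb.1, ?_⟩
        rcases iha.2 with h1 | h1 <;> rcases ihb.2 with h2 | h2
        · left; exact Subgroup.mul_mem _ h1 h2
        · right
          have : a * b * w = a * (b * w) := by group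
          rw [this]; exact Subgroup.mul_mem _ h1 h2
        · right
          have hc : b * w = w * b := hZ₀comm b ihb.1 w hwZw.1
          have : a * b * w = (a * w) * b := by
            calc a * b * w = a * (b * w) := by group
              _ = a * (w * b) := by rw [hc]
              _ = (a * w) * b := by group
          rw [this]; exact Subgroup.mul_mem _ h1 h2
        · left
          have hc : b * w = w * b := hZ₀comm b ihb.1 w hwZw.1
          have : a * b = (a * w) * (b * w) := by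
            calc a * b = a * (w * w) * b := by rw [hww, mul_one]
              _ = (a * w) * (w * b) := by group
              _ = (a * w) * (b * w) := by rw [hc]
          rw [this]; exact Subgroup.mul_mem _ h1 h2
      | inv a _ iha =>
        refine ⟨Subgroup.inv_mem _ iha.1, ?_⟩
        rcases iha.2 with h1 | h1
        · left; exact Subgroup.inv_mem _ h1
        · right
          have hc : a * w = w * a := hZ₀comm a iha.1 w hwZw.1
          have hwinv : w⁻¹ = w := by
            rw [inv_eq_iff_mul_eq_one]; exact hww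
          have : a⁻¹ * w = (a * w)⁻¹ := by
            rw [hc, mul_inv_rev, hwinv]
          rw [this]; exact Subgroup.inv_mem _ h1
    exact key
  have hcover : ∀ x ∈ Z₀, x ∈ Z₁ ∨ x * w ∈ Z₁ := by
    intro x hx
    exact (hcover' x (by rw [hsup]; exact hx)).2
  -- every nontrivial element of Z equals z
  have huniqz : ∀ x ∈ Z, x ≠ 1 → x = z := by
    intro x hx hx1
    have hxw : x * w ∈ Z₁ := by
      rcases hcover x (hZZ₀ hx) with h | h
      · exact absurd (hdisj x hx h) hx1
      · exact h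
    have hzw : z * w ∈ Z₁ := by
      rcases hcover z (hZZ₀ hzZ) with h | h
      · exact absurd (hdisj z hzZ h) hz1
      · exact h
    have h3 : x * z⁻¹ ∈ Z₁ := by
      have : x * z⁻¹ = (x * w) * (z * w)⁻¹ := by group
      rw [this]
      exact Subgroup.mul_mem _ hxw (Subgroup.inv_mem _ hzw)
    have h4 : x * z⁻¹ ∈ Z := Subgroup.mul_mem _ hx (Subgroup.inv_mem _ hzZ)
    have h5 := hdisj _ h4 h3
    exact mul_inv_eq_one.mp h5
  rw [Nat.card_eq_two_iff]
  refine ⟨1, ⟨z, hzZ⟩, ?_, ?_⟩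
  · intro h
    apply hz1
    have := congrArg Subtype.val h
    exact this.symm
  · rw [Set.eq_univ_iff_forall]
    intro u
    by_cases hu : (u : G) = 1
    · left
      exact Subtype.ext hu
    · right
      exact Subtype.ext (huniqz u u.2 hu)

example : StZ2.{u} := z2

end Cfsg.Agent.H66.Jz
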