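import Mathlib.GroupTheory.PGroup
import Mathlib.GroupTheory.Sylow

set_option autoImplicit false

namespace Cfsg.Agent.H66

/-- A `p`-subgroup acting by conjugation on an invariant finite subset of order prime to `p`
fixes a point of it. -/
theorem exists_fixed_of_not_dvd {G : Type*} [Group G] {p : ℕ} [Fact p.Prime] (P : Subgroup G)
    (hP : IsPGroup p P) (S : Set G) (hS : ∀ x ∈ P, ∀ s ∈ S, x * s * x⁻¹ ∈ S)
    (hcard : ¬ p ∣ Nat.card S) : ∃ s ∈ S, ∀ x ∈ P, x * s * x⁻¹ = s := by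
  letI : MulAction P S :=
    { smul := fun x s => ⟨x.1 * s.1 * x.1⁻¹, hS x.1 x.2 s.1 s.2⟩
      one_smul := fun s => Subtype.ext (by
        show (1 : P).1 * s.1 * (1 : P).1⁻¹ = s.1
        simp)
      mul_smul := fun x y s => Subtype.ext (by
        show (x * y).1 * s.1 * (x * y).1⁻¹ = x.1 * (y.1 * s.1 * y.1⁻¹) * x.1⁻¹
        simp [mul_assoc]) }
  obtain ⟨s, hs⟩ := hP.nonempty_fixed_point_of_prime_not_dvd_card S hcard
  refine ⟨s.1, s.2, fun x hx => ?_⟩
  have := hs ⟨x, hx⟩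
  exact congrArg Subtype.val this

/-- A `p`-subgroup acting by conjugation on an invariant finite subset of order divisible by `p`
with a fixed point has another fixed point. -/
theorem exists_fixed_ne_of_dvd {G : Type*} [Group G] {p : ℕ} [Fact p.Prime] (P : Subgroup G)
    (hP : IsPGroup p P) (S : Set G) [Finite S] (hS : ∀ x ∈ P, ∀ s ∈ S, x * s * x⁻¹ ∈ S)
    (hcard : p ∣ Nat.card S) (a : G) (haS : a ∈ S) (ha : ∀ x ∈ P, x * a * x⁻¹ = a) :
    ∃ b ∈ S, b ≠ a ∧ ∀ x ∈ P, x * b * x⁻¹ = b := by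
  letI : MulAction P S :=
    { smul := fun x s => ⟨x.1 * s.1 * x.1⁻¹, hS x.1 x.2 s.1 s.2⟩
      one_smul := fun s => Subtype.ext (by
        show (1 : P).1 * s.1 * (1 : P).1⁻¹ = s.1
        simp)
      mul_smul := fun x y s => Subtype.ext (by
        show (x * y).1 * s.1 * (x * y).1⁻¹ = x.1 * (y.1 * s.1 * y.1⁻¹) * x.1⁻¹
        simp [mul_assoc]) }
  have hafix : (⟨a, haS⟩ : S) ∈ MulAction.fixedPoints P S := by
    intro x
    exact Subtype.ext (ha x.1 x.2)
  obtain ⟨b, hb, hne⟩ := hP.exists_fixed_point_of_prime_dvd_card_of_fixed_point S hcard hafix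
  refine ⟨b.1, b.2, ?_, fun x hx => ?_⟩
  · intro h
    exact hne (Subtype.ext h.symm)
  · have := hb ⟨x, hx⟩
    exact congrArg Subtype.val this

end Cfsg.Agent.H66
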