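import Mathlib

set_option autoImplicit false

namespace Cfsg.Agent.H66

variable {G : Type*} [Group G]

theorem mem_frattini_iff (x : G) : x ∈ frattini G ↔ ∀ M : Subgroup G, IsCoatom M → x ∈ M := by
  unfold frattini Order.radical
  simp [Subgroup.mem_iInf]

theorem coatom_normal_of_isPGroup [Finite G] {p : ℕ} [Fact p.Prime] (hG : IsPGroup p G)
    {M : Subgroup G} (hM : IsCoatom M) : M.Normal := by
  have := hG.isNilpotent
  exact Subgroup.NormalizerCondition.normal_of_coatom M Group.normalizerCondition_of_isNilpotent hM

/-- In a finite `p`-group, `p`-th powers lie in every maximal subgroup. -/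
theorem pow_mem_of_isCoatom [Finite G] {p : ℕ} [Fact p.Prime] (hG : IsPGroup p G)
    {M : Subgroup G} (hM : IsCoatom M) (x : G) : x ^ p ∈ M := by
  have : M.Normal := coatom_normal_of_isPGroup hG hM
  by_contra hx
  -- the subgroup generated by M and x^p is everything
  let π := QuotientGroup.mk' M
  let H : Subgroup G := (Subgroup.zpowers (π x ^ p)).comap π
  have hMH : M ≤ H := by
    intro m hm
    show π m ∈ Subgroup.zpowers (π x ^ p)
    have : π m = 1 := (QuotientGroup.eq_one_iff m).mpr hm
    rw [this]; exact Subgroup.one_mem _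
  have hxH : x ^ p ∈ H := by
    show π (x ^ p) ∈ Subgroup.zpowers (π x ^ p)
    rw [map_pow]; exact Subgroup.mem_zpowers _
  have hlt : M < H := lt_of_le_of_ne hMH (fun h => hx (h ▸ hxH))
  have htop : H = ⊤ := hM.2 H hlt
  have hxmem : π x ∈ Subgroup.zpowers (π x ^ p) := by
    have : x ∈ H := by rw [htop]; exact Subgroup.mem_top x
    exact this
  have hle : Subgroup.zpowers (π x) ≤ Subgroup.zpowers (π x ^ p) :=
    (Subgroup.zpowers_le).mpr hxmem
  have hcard := Subgroup.card_le_of_le hle
  rw [Nat.card_zpowers, Nat.card_zpowers] at hcard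
  have hQ : IsPGroup p (G ⧸ M) := hG.to_quotient M
  obtain ⟨k, hk⟩ := (IsPGroup.iff_orderOf.mp hQ) (π x)
  have hk0 : k ≠ 0 := by
    rintro rfl
    rw [pow_zero, orderOf_eq_one_iff] at hk
    apply hx
    have : π (x ^ p) = 1 := by rw [map_pow, hk, one_pow]
    exact (QuotientGroup.eq_one_iff _).mp this
  have hpdvd : p ∣ orderOf (π x) := by
    rw [hk]; exact dvd_pow_self p hk0
  have hpos : 0 < orderOf (π x) := by rw [hk]; exact pow_pos (Fact.out (p := p.Prime)).pos k
  have hord : orderOf (π x ^ p) = orderOf (π x) / p := orderOf_pow_of_dvd (Fact.out (p := p.Prime)).ne_zero hpdvd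
  rw [hord] at hcard
  have hp1 : 1 < p := (Fact.out (p := p.Prime)).one_lt
  have := Nat.div_lt_self hpos hp1
  omega

theorem pow_mem_frattini [Finite G] {p : ℕ} [Fact p.Prime] (hG : IsPGroup p G) (x : G) :
    x ^ p ∈ frattini G := by
  rw [mem_frattini_iff]
  intro M hM
  exact pow_mem_of_isCoatom hG hM x

/-- In a finite group of exponent 2, the Frattini subgroup is trivial. -/
theorem frattini_eq_bot_of_sq_eq_one [Finite G] (h2 : ∀ x : G, x ^ 2 = 1) : frattini G = ⊥ := by
  have hinv : ∀ x : G, x⁻¹ = x := by
    intro x
    have := h2 x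
    rw [pow_two] at this
    exact inv_eq_of_mul_eq_one_left this
  have hcomm : ∀ x y : G, x * y = y * x := by
    intro x y
    have h := hinv (x * y)
    rw [mul_inv_rev, hinv x, hinv y] at h
    exact h.symm
  rw [eq_bot_iff]
  intro z hz
  rw [Subgroup.mem_bot]
  by_contra hz1
  let S : Set (Subgroup G) := {H | z ∉ H}
  have hbot : (⊥ : Subgroup G) ∈ S := by
    show z ∉ (⊥ : Subgroup G)
    rw [Subgroup.mem_bot]; exact hz1
  obtain ⟨M, -, hMmax⟩ := (Set.toFinite S).exists_le_maximal hbot
  have hzM : z ∉ M := hMmax.1
  have hco : IsCoatom M := by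
    refine ⟨fun h => hzM (h ▸ Subgroup.mem_top z), ?_⟩
    intro H hMH
    have hzH : z ∈ H := by
      by_contra hzH
      exact absurd (hMmax.2 hzH hMH.le) (not_le_of_gt hMH)
    rw [eq_top_iff]
    intro g _
    by_cases hgM : g ∈ M
    · exact hMH.le hgM
    · let M' : Subgroup G :=
        { carrier := {x | x ∈ M ∨ g * x ∈ M}
          mul_mem' := by
            rintro x y (hx | hx) (hy | hy)
            · exact Or.inl (M.mul_mem hx hy)
            · right
              have : g * (x * y) = x * (g * y) := by rw [← mul_assoc, hcomm g x, mul_assoc]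
              rw [this]; exact M.mul_mem hx hy
            · right
              rw [← mul_assoc]; exact M.mul_mem hx hy
            · left
              have : x * y = (g * x) * (g * y) := by
                rw [mul_assoc, ← mul_assoc x g y, hcomm x g, ← mul_assoc, ← mul_assoc, ← pow_two,
                  h2 g, one_mul]
              rw [this]; exact M.mul_mem hx hy
          one_mem' := Or.inl M.one_mem
          inv_mem' := by
            rintro x (hx | hx)
            · exact Or.inl (M.inv_mem hx)
            · right; rw [hinv x]; exact hx }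
      have hMM' : M ≤ M' := fun x hx => Or.inl hx
      have hgM' : g ∈ M' := by
        right
        show g * g ∈ M
        rw [← pow_two, h2 g]; exact M.one_mem
      have hzM' : z ∈ M' := by
        by_contra hzM'
        exact hgM (hMmax.2 hzM' hMM' hgM')
      rcases hzM' with h | h
      · exact absurd h hzM
      · have : g = (g * z) * z := by rw [mul_assoc, ← pow_two, h2 z, mul_one]
        rw [this]
        exact H.mul_mem (hMH.le h) hzH
  exact hzM ((mem_frattini_iff z).mp hz M hco)

end Cfsg.Agent.H66
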