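import Cfsg.Agent.H66.Fpf4
import Cfsg.Agent.H66.HHB
import Cfsg.Agent.H36.CoprimeZ
import Cfsg.Agent.H1.MaxInv
import Cfsg.Agent.H1.HallHigman

/-!
# Fixed-point-free coprime actions of `S₃`: basic lemmas

Words in `S₃ = Perm (Fin 3)`, restriction of an action to an invariant subgroup, coprime lifting
of fixed points in external form, and some elementary coprime-action lemmas.
-/

set_option autoImplicit false
set_option linter.style.haveILetI false
set_option linter.unusedVariables false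
set_option linter.unusedSectionVars false

namespace Cfsg.Agent.H66.S3L

open Cfsg
open scoped commutatorElement

/-- The 3-cycle. -/
abbrev c3 : Equiv.Perm (Fin 3) := finRotate 3

/-- A transposition. -/
abbrev sw : Equiv.Perm (Fin 3) := Equiv.swap 0 1

theorem c3_cube : c3 * c3 * c3 = 1 := by decide

theorem c3_inv : c3⁻¹ = c3 * c3 := by decide

theorem sw_sq : sw * sw = 1 := by decide

theorem sw_ne_one : sw ≠ 1 := by decide

theorem s3_inv_cases : ∀ b : Equiv.Perm (Fin 3), b * b = 1 → b ≠ 1 → ∀ a : Equiv.Perm (Fin 3),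
    a = 1 ∨ a = c3 ∨ a = c3 * c3 ∨ a = b ∨ a = c3 * b ∨ a = c3 * (c3 * b) := by decide

theorem s3_inv_rel : ∀ b : Equiv.Perm (Fin 3), b * b = 1 → b ≠ 1 → b * c3 = c3⁻¹ * b := by
  decide

theorem s3_inv_rel' : ∀ b : Equiv.Perm (Fin 3), b * b = 1 → b ≠ 1 → b * c3 = c3 * c3 * b := by
  decide

theorem s3_inv_inv : ∀ b : Equiv.Perm (Fin 3), b * b = 1 → b⁻¹ = b := by decide

theorem s3_ne_one : ∀ a : Equiv.Perm (Fin 3), a ≠ 1 → a = c3 ∨ a = c3⁻¹ ∨ a * a = 1 := by
  decide

theorem s3_two_inv : ∀ b : Equiv.Perm (Fin 3), b * b = 1 → b ≠ 1 → ∀ a : Equiv.Perm (Fin 3),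
    a = 1 ∨ a = b ∨ a = c3 * b * c3⁻¹ ∨ a = b * (c3 * b * c3⁻¹) ∨ a = (c3 * b * c3⁻¹) * b ∨
      a = b * ((c3 * b * c3⁻¹) * b) := by decide

set_option maxRecDepth 8000 in
theorem s3_two_inv' : ∀ b : Equiv.Perm (Fin 3), b * b = 1 → b ≠ 1 → ∀ a : Equiv.Perm (Fin 3),
    a = 1 ∨ a = c3 * b * c3⁻¹ ∨ a = c3 * c3 * b * (c3 * c3)⁻¹ ∨
      a = (c3 * b * c3⁻¹) * (c3 * c3 * b * (c3 * c3)⁻¹) ∨
      a = (c3 * c3 * b * (c3 * c3)⁻¹) * (c3 * b * c3⁻¹) ∨
      a = (c3 * b * c3⁻¹) * ((c3 * c3 * b * (c3 * c3)⁻¹) * (c3 * b * c3⁻¹)) := by decide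

theorem card_s3 : Nat.card (Equiv.Perm (Fin 3)) = 6 := by
  rw [Nat.card_eq_fintype_card, Fintype.card_perm]; rfl

theorem sum_s3 {M : Type*} [AddCommMonoid M] (f : Equiv.Perm (Fin 3) → M) :
    ∑ a, f a = f 1 + f c3 + f (c3 * c3) + f sw + f (c3 * sw) + f (c3 * (c3 * sw)) := by
  have h : (Finset.univ : Finset (Equiv.Perm (Fin 3))) =
      {1, c3, c3 * c3, sw, c3 * sw, c3 * (c3 * sw)} := by decide
  rw [h]
  rw [Finset.sum_insert (by decide), Finset.sum_insert (by decide),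
    Finset.sum_insert (by decide), Finset.sum_insert (by decide), Finset.sum_insert (by decide),
    Finset.sum_singleton]
  abel

/-- Induction over `S₃` from the generators `c3` and an involution `b`. -/
theorem s3_ind (P : Equiv.Perm (Fin 3) → Prop) (b : Equiv.Perm (Fin 3)) (hb : b * b = 1)
    (hb1 : b ≠ 1) (h1 : P 1) (hc : ∀ a, P a → P (c3 * a)) (hbP : ∀ a, P a → P (b * a)) :
    ∀ a, P a := by
  intro a
  have hPb : P b := by have := hbP 1 h1; rwa [mul_one] at this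
  have hPc : P c3 := by have := hc 1 h1; rwa [mul_one] at this
  rcases s3_inv_cases b hb hb1 a with h | h | h | h | h | h
  · rw [h]; exact h1
  · rw [h]; exact hPc
  · rw [h]; exact hc _ hPc
  · rw [h]; exact hPb
  · rw [h]; exact hc _ hPb
  · rw [h]; exact hc _ (hc _ hPb)

/-- Induction over `S₃` from two involutions `b` and `c3 b c3⁻¹`. -/
theorem s3_ind2 (P : Equiv.Perm (Fin 3) → Prop) (b : Equiv.Perm (Fin 3)) (hb : b * b = 1)
    (hb1 : b ≠ 1) (h1 : P 1) (hbP : ∀ a, P a → P (b * a))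
    (hb2 : ∀ a, P a → P (c3 * b * c3⁻¹ * a)) : ∀ a, P a := by
  intro a
  have hPb : P b := by have := hbP 1 h1; rwa [mul_one] at this
  have hPb2 : P (c3 * b * c3⁻¹) := by have := hb2 1 h1; rwa [mul_one] at this
  rcases s3_two_inv b hb hb1 a with h | h | h | h | h | h
  · rw [h]; exact h1
  · rw [h]; exact hPb
  · rw [h]; exact hPb2
  · rw [h]; exact hbP _ hPb2
  · rw [h]; exact hb2 _ hPb
  · rw [h]; exact hbP _ (hb2 _ hPb)

/-- Induction over `S₃` from the two involutions `c3 b c3⁻¹` and `c3² b c3⁻²`. -/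
theorem s3_ind3 (P : Equiv.Perm (Fin 3) → Prop) (b : Equiv.Perm (Fin 3)) (hb : b * b = 1)
    (hb1 : b ≠ 1) (h1 : P 1) (hb2 : ∀ a, P a → P (c3 * b * c3⁻¹ * a))
    (hb3 : ∀ a, P a → P (c3 * c3 * b * (c3 * c3)⁻¹ * a)) : ∀ a, P a := by
  intro a
  have hPb2 : P (c3 * b * c3⁻¹) := by have := hb2 1 h1; rwa [mul_one] at this
  have hPb3 : P (c3 * c3 * b * (c3 * c3)⁻¹) := by have := hb3 1 h1; rwa [mul_one] at this
  rcases s3_two_inv' b hb hb1 a with h | h | h | h | h | h
  · rw [h]; exact h1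
  · rw [h]; exact hPb2
  · rw [h]; exact hPb3
  · rw [h]; exact hb2 _ hPb3
  · rw [h]; exact hb3 _ hPb2
  · rw [h]; exact hb2 _ (hb3 _ hPb2)

/-- The restriction of an action by automorphisms to an invariant subgroup. -/
@[reducible] def subAct {A G : Type*} [Group A] [Group G] [MulDistribMulAction A G] (R : Subgroup G)
    (hR : ∀ (a : A), ∀ x ∈ R, a • x ∈ R) : MulDistribMulAction A ↥R where
  smul a x := ⟨a • (x : G), hR a x x.2⟩
  one_smul x := Subtype.ext (one_smul A (x : G))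
  mul_smul a b x := Subtype.ext (mul_smul a b (x : G))
  smul_mul a x y := Subtype.ext (smul_mul' a (x : G) (y : G))
  smul_one a := Subtype.ext (smul_one a)

theorem mem_normalizer_of_conj {Γ : Type*} [Group Γ] (K : Subgroup Γ) (g : Γ)
    (h1 : ∀ k ∈ K, g * k * g⁻¹ ∈ K) (h2 : ∀ k ∈ K, g⁻¹ * k * g ∈ K) :
    g ∈ Subgroup.normalizer (K : Set Γ) := by
  rw [Subgroup.mem_normalizer_iff]
  intro k
  constructor
  · exact h1 k
  · intro hk
    have := h2 _ hk
    have e : g⁻¹ * (g * k * g⁻¹) * g = k := by group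
    rwa [e] at this

section Coprime

variable {G A : Type*} [Group G] [Group A] [MulDistribMulAction A G] [Finite G] [Finite A]

/-- Coprime lifting of fixed points, external relative form. -/
theorem cl_ext (hcop : (Nat.card A).Coprime (Nat.card G)) [Group.IsSolvable G] (M N : Subgroup G)
    (hNM : N ≤ M) (hnorm : ∀ m ∈ M, ∀ n ∈ N, m * n * m⁻¹ ∈ N)
    (hN : ∀ a : A, ∀ x ∈ N, a • x ∈ N) (x : G) (hx : x ∈ M)
    (hfix : ∀ a : A, x⁻¹ * a • x ∈ N) : ∃ n ∈ N, ∀ a : A, a • (x * n) = x * n := by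
  haveI : Finite (H36.ActSD G A) := H36.finite_actSD
  have hinj : Function.Injective (H36.sdInl G A) := SemidirectProduct.inl_injective
  have hsolvK : Group.IsSolvable ↥(M.map (H36.sdInl G A)) := by
    obtain ⟨e⟩ : Nonempty (↥M ≃* ↥(M.map (H36.sdInl G A))) :=
      ⟨Subgroup.equivMapOfInjective M (H36.sdInl G A) hinj⟩
    exact Group.isSolvable_of_surjective (f := e.toMonoidHom) e.surjective
  have hcop' : (Nat.card (H36.sdInr G A).range).Coprime
      (Nat.card ↥(M.map (H36.sdInl G A))) := by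
    rw [H36.card_range_sdInr, Subgroup.card_map_of_injective hinj]
    exact Nat.Coprime.coprime_dvd_right (Subgroup.card_subgroup_dvd_card M) hcop
  have hconj : ∀ (a : A) (g : G),
      H36.sdInr G A a * H36.sdInl G A g * (H36.sdInr G A a)⁻¹ = H36.sdInl G A (a • g) :=
    H36.sdInr_mul_sdInl_mul_sdInr_inv
  have hconj' : ∀ (a : A) (g : G),
      (H36.sdInr G A a)⁻¹ * H36.sdInl G A g * H36.sdInr G A a = H36.sdInl G A (a⁻¹ • g) := by
    intro a g
    have := hconj a⁻¹ g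
    rwa [map_inv, inv_inv] at this
  obtain ⟨c, hc, hcN⟩ := H1.coprime_fixed_points_quotient (H36.sdInr G A).range
    (M.map (H36.sdInl G A)) hcop' (Or.inr hsolvK) (N.map (H36.sdInl G A))
    (Subgroup.map_mono hNM) (by
      rintro _ ⟨m, hm, rfl⟩
      apply mem_normalizer_of_conj
      · rintro _ ⟨n, hn, rfl⟩
        refine ⟨m * n * m⁻¹, hnorm m hm n hn, ?_⟩
        rw [map_mul, map_mul, map_inv]
      · rintro _ ⟨n, hn, rfl⟩
        refine ⟨m⁻¹ * n * m, ?_, ?_⟩
        · have := hnorm m⁻¹ (M.inv_mem hm) n hn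
          rwa [inv_inv] at this
        · rw [map_mul, map_mul, map_inv]) (by
      rintro _ ⟨a, rfl⟩
      apply mem_normalizer_of_conj
      · rintro _ ⟨n, hn, rfl⟩
        exact ⟨a • n, hN a n hn, (hconj a n).symm⟩
      · rintro _ ⟨n, hn, rfl⟩
        exact ⟨a⁻¹ • n, hN a⁻¹ n hn, (hconj' a n).symm⟩) (H36.sdInl G A x) ⟨x, hx, rfl⟩ (by
      rintro _ ⟨a, rfl⟩
      rw [hconj a x, ← map_inv, ← map_mul]
      refine ⟨a • x * x⁻¹, ?_, rfl⟩
      have := hnorm x hx _ (hfix a)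
      have e : x * (x⁻¹ * a • x) * x⁻¹ = a • x * x⁻¹ := by group
      rwa [e] at this)
  obtain ⟨⟨f, hfM, rfl⟩, hcC⟩ := hc
  have hf : ∀ a : A, a • f = f := (H36.sdInl_mem_centralizer_range_sdInr f).mp hcC
  rw [← map_inv, ← map_mul] at hcN
  obtain ⟨n, hn, hn2⟩ := hcN
  have hn3 : n = x⁻¹ * f := hinj hn2
  refine ⟨n, hn, ?_⟩
  intro a
  have e : x * n = f := by rw [hn3]; group
  rw [e]; exact hf a

/-- A fixed point modulo the kernel of a homomorphism lies in the kernel. -/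
theorem fix_ker (hcop : (Nat.card A).Coprime (Nat.card G)) [Group.IsSolvable G]
    (hfpf : ∀ x : G, (∀ a : A, a • x = x) → x = 1) {Mo : Type*} [Monoid Mo] (π : G →* Mo)
    (hker : ∀ (a : A) (x : G), π x = 1 → π (a • x) = 1) (x : G)
    (hx : ∀ a : A, π (a • x) = π x) : π x = 1 := by
  have hinv : ∀ y : G, π y⁻¹ * π y = 1 := fun y => by rw [← map_mul, inv_mul_cancel, map_one]
  obtain ⟨n, hn, hfix⟩ := cl_ext hcop (⊤ : Subgroup G) π.ker le_top
    (fun m _ n hn => by
      rw [MonoidHom.mem_ker] at hn ⊢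
      rw [map_mul, map_mul, hn, mul_one, ← map_mul, mul_inv_cancel, map_one])
    (fun a y hy => by
      rw [MonoidHom.mem_ker] at hy ⊢
      exact hker a y hy) x (Subgroup.mem_top x)
    (fun a => by
      rw [MonoidHom.mem_ker, map_mul, hx a, hinv])
  have h1 := hfpf _ hfix
  rw [MonoidHom.mem_ker] at hn
  have h2 : π (x * n) = 1 := by rw [h1, map_one]
  rwa [map_mul, hn, mul_one] at h2

/-- With no fixed points, the group is generated by the elements `g⁻¹ * a • g`. -/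
theorem fix_induction (hcop : (Nat.card A).Coprime (Nat.card G)) [Group.IsSolvable G]
    (hfpf : ∀ x : G, (∀ a : A, a • x = x) → x = 1) (P : G → Prop) (h1 : P 1)
    (hgen : ∀ (a : A) (g : G), P (g⁻¹ * a • g)) (hmul : ∀ x y, P x → P y → P (x * y))
    (hinv : ∀ x, P x → P x⁻¹) : ∀ x, P x := by
  intro x
  obtain ⟨f, hf, k, hk, rfl⟩ := H36.exists_fixed_mul_actComm (A := A) hcop x
  rw [hfpf f hf, one_mul]
  induction hk using Subgroup.closure_induction with
  | mem y hy =>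
    obtain ⟨a, g, -, rfl⟩ := hy
    exact hgen a g
  | one => exact h1
  | mul y z _ _ hy hz => exact hmul y z hy hz
  | inv y _ hy => exact hinv y hy

end Coprime

/-- Decomposition with respect to an involutory automorphism of a group of odd order. -/
theorem odd_dec {E : Type*} [Group E] [Finite E] (hodd : Odd (Nat.card E)) (τ : MulAut E)
    (hτ : ∀ x, τ (τ x) = x) (x : E) : ∃ c j : E, x = c * j ∧ τ c = c ∧ τ j = j⁻¹ := by
  obtain ⟨w, hw⟩ : ∃ w : E, w = x⁻¹ * τ x := ⟨_, rfl⟩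
  have hτw : τ w = w⁻¹ := by rw [hw, map_mul, map_inv, hτ]; group
  have hn : Odd (orderOf w) := hodd.of_dvd_nat (orderOf_dvd_natCard w)
  obtain ⟨k, hk⟩ := hn
  have hj2 : w ^ (k + 1) * w ^ (k + 1) = w := by
    rw [← pow_add]
    have : k + 1 + (k + 1) = orderOf w + 1 := by omega
    rw [this, pow_succ, pow_orderOf_eq_one, one_mul]
  have hτj : τ (w ^ (k + 1)) = (w ^ (k + 1))⁻¹ := by rw [map_pow, hτw, inv_pow]
  refine ⟨x * w ^ (k + 1), (w ^ (k + 1))⁻¹, by group, ?_, ?_⟩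
  · rw [map_mul, hτj]
    have h1 : τ x = x * w := by rw [hw]; group
    rw [h1]
    nth_rewrite 1 [← hj2]
    group
  · rw [map_inv, hτj]

/-- If `e = x⁻¹ c x c⁻¹` commutes with `c` and the orders are coprime, then `c` centralises `x`. -/
theorem cop_comm {H : Type*} [Group H] (x c : H) (m n : ℕ) (hmn : m.Coprime n) (hc : c ^ m = 1)
    (he : (x⁻¹ * (c * x * c⁻¹)) ^ n = 1)
    (hcomm : c * (x⁻¹ * (c * x * c⁻¹)) = (x⁻¹ * (c * x * c⁻¹)) * c) : c * x = x * c := by
  obtain ⟨e, he'⟩ : ∃ e : H, e = x⁻¹ * (c * x * c⁻¹) := ⟨_, rfl⟩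
  rw [← he'] at he hcomm
  have hcx : c * x = x * e * c := by rw [he']; group
  have hce : ∀ k : ℕ, c * e ^ k = e ^ k * c := by
    intro k
    induction k with
    | zero => simp
    | succ k ih => rw [pow_succ, ← mul_assoc, ih, mul_assoc, hcomm, ← mul_assoc]
  have key : ∀ k : ℕ, c ^ k * x = x * e ^ k * c ^ k := by
    intro k
    induction k with
    | zero => simp
    | succ k ih =>
      calc c ^ (k + 1) * x = c * (c ^ k * x) := by rw [pow_succ', mul_assoc]
        _ = c * x * e ^ k * c ^ k := by rw [ih]; simp only [mul_assoc]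
        _ = x * e * (c * e ^ k) * c ^ k := by rw [hcx]; simp only [mul_assoc]
        _ = x * e ^ (k + 1) * c ^ (k + 1) := by
          rw [hce k, pow_succ' e k, pow_succ' c k]; simp only [mul_assoc]
  have h1 := key m
  rw [hc, one_mul, mul_one] at h1
  have h2 : e ^ m = 1 := by
    have := congrArg (fun t => x⁻¹ * t) h1
    simp only [inv_mul_cancel, inv_mul_cancel_left] at this
    exact this.symm
  have h3 : orderOf e ∣ Nat.gcd m n :=
    Nat.dvd_gcd (orderOf_dvd_of_pow_eq_one h2) (orderOf_dvd_of_pow_eq_one he)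
  rw [hmn] at h3
  have h4 : e = 1 := orderOf_eq_one_iff.mp (Nat.dvd_one.mp h3)
  rw [hcx, h4, mul_one]

end Cfsg.Agent.H66.S3L
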