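import Cfsg.Agent.H66.S3Wt

/-!
# Type II: an invariant `s`-subgroup normalising an invariant abelian `r`-subgroup centralises it

The minimal configuration (`T2Ctx`) and the two key lemmas `t2_invol` and `t2_rho`, which show
that an element of `S₃` fixing a weight `χ` of `R` cannot act trivially on `S / S_χ`.
-/

set_option autoImplicit false
set_option linter.style.haveILetI false
set_option linter.unusedVariables false
set_option linter.unusedSectionVars false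

namespace Cfsg.Agent.H66.S3L

open Cfsg Module
open scoped commutatorElement

section Fun

variable {K : Type*} [Field K] {H : Type*} [Group H]

/-- A function which is multiplicative and nowhere zero on the subgroup `R`. -/
def IsMulOn (R : Subgroup H) (f : H → K) : Prop :=
  (∀ x ∈ R, ∀ y ∈ R, f (x * y) = f x * f y) ∧ ∀ x ∈ R, f x ≠ 0

theorem IsMulOn.map_one {R : Subgroup H} {f : H → K} (hf : IsMulOn R f) : f 1 = 1 := by
  have h1 := hf.1 1 R.one_mem 1 R.one_mem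
  rw [mul_one] at h1
  have h2 := hf.2 1 R.one_mem
  field_simp at h1
  exact h1.symm

theorem IsMulOn.map_inv {R : Subgroup H} {f : H → K} (hf : IsMulOn R f) {x : H} (hx : x ∈ R) :
    f x⁻¹ = (f x)⁻¹ := by
  have h1 := hf.1 x⁻¹ (R.inv_mem hx) x hx
  rw [inv_mul_cancel, hf.map_one] at h1
  exact eq_inv_of_mul_eq_one_left h1.symm

theorem isMulOn_conj {R : Subgroup H} {f : H → K} (hf : IsMulOn R f) (c : H)
    (hc : ∀ x ∈ R, c⁻¹ * x * c ∈ R) : IsMulOn R (fun z => f (c⁻¹ * z * c)) := by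
  refine ⟨fun x hx y hy => ?_, fun x hx => hf.2 _ (hc x hx)⟩
  have e : c⁻¹ * (x * y) * c = (c⁻¹ * x * c) * (c⁻¹ * y * c) := by group
  show f (c⁻¹ * (x * y) * c) = f (c⁻¹ * x * c) * f (c⁻¹ * y * c)
  rw [e, hf.1 _ (hc x hx) _ (hc y hy)]

theorem isMulOn_mul {R : Subgroup H} {f g : H → K} (hf : IsMulOn R f) (hg : IsMulOn R g) :
    IsMulOn R (fun z => f z * g z) := by
  refine ⟨fun x hx y hy => ?_, fun x hx => mul_ne_zero (hf.2 x hx) (hg.2 x hx)⟩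
  show f (x * y) * g (x * y) = f x * g x * (f y * g y)
  rw [hf.1 x hx y hy, hg.1 x hx y hy]; ring

theorem isMulOn_inv {R : Subgroup H} {f : H → K} (hf : IsMulOn R f) :
    IsMulOn R (fun z => (f z)⁻¹) := by
  refine ⟨fun x hx y hy => ?_, fun x hx => inv_ne_zero (hf.2 x hx)⟩
  show (f (x * y))⁻¹ = (f x)⁻¹ * (f y)⁻¹
  rw [hf.1 x hx y hy, mul_inv]

variable [MulDistribMulAction (Equiv.Perm (Fin 3)) H]

theorem isMulOn_smul {R : Subgroup H} {f : H → K} (hf : IsMulOn R f) (a : Equiv.Perm (Fin 3))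
    (hRA : ∀ a : Equiv.Perm (Fin 3), ∀ x ∈ R, a • x ∈ R) : IsMulOn R (fun z => f (a • z)) := by
  refine ⟨fun x hx y hy => ?_, fun x hx => hf.2 _ (hRA a x hx)⟩
  show f (a • (x * y)) = f (a • x) * f (a • y)
  rw [smul_mul', hf.1 _ (hRA a x hx) _ (hRA a y hy)]

/-- An `S₃`-invariant multiplicative function on an invariant subgroup is trivial. -/
theorem fix_char [Finite H] [Group.IsSolvable H] (hcop : (Nat.card H).Coprime 6)
    (hfpf : ∀ x : H, (∀ a : Equiv.Perm (Fin 3), a • x = x) → x = 1) (R : Subgroup H)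
    (hRA : ∀ a : Equiv.Perm (Fin 3), ∀ x ∈ R, a • x ∈ R) (ψ : H → K) (hψ : IsMulOn R ψ)
    (hfix : ∀ a : Equiv.Perm (Fin 3), ∀ z ∈ R, ψ (a • z) = ψ z) : ∀ z ∈ R, ψ z = 1 := by
  letI : MulDistribMulAction (Equiv.Perm (Fin 3)) ↥R := subAct R hRA
  have hcopR : (Nat.card (Equiv.Perm (Fin 3))).Coprime (Nat.card ↥R) := by
    rw [card_s3]
    exact (Nat.Coprime.coprime_dvd_left (Subgroup.card_subgroup_dvd_card R) hcop).symm
  have key := fix_induction (G := ↥R) (A := Equiv.Perm (Fin 3)) hcopR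
    (fun x hx => Subtype.ext (hfpf x (fun a => congrArg Subtype.val (hx a))))
    (fun z => ψ (z : H) = 1) hψ.map_one
    (by
      intro a g
      have h1 : ((g⁻¹ * a • g : ↥R) : H) = (g : H)⁻¹ * a • (g : H) := rfl
      rw [h1, hψ.1 _ (R.inv_mem g.2) _ (hRA a g g.2), hψ.map_inv g.2, hfix a g g.2]
      exact inv_mul_cancel₀ (hψ.2 g g.2))
    (by
      intro x y hx hy
      rw [Subgroup.coe_mul, hψ.1 x x.2 y y.2, hx, hy, mul_one])
    (by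
      intro x hx
      rw [Subgroup.coe_inv, hψ.map_inv x.2, hx, inv_one])
  intro z hz
  exact key ⟨z, hz⟩

/-- If `g` fixes `χ` on `R` and acts trivially on `S` modulo the stabiliser `D` of `χ`, then
`g` fixes all the `S`-conjugates of `χ`. -/
theorem conj_fix {R S D : Subgroup H} (hSA : ∀ a : Equiv.Perm (Fin 3), ∀ c ∈ S, a • c ∈ S)
    (hSR' : ∀ c ∈ S, ∀ x ∈ R, c⁻¹ * x * c ∈ R) (χ : H → K)
    (hD : ∀ d ∈ D, ∀ z ∈ R, χ (d⁻¹ * z * d) = χ z) (g : Equiv.Perm (Fin 3))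
    (h1 : ∀ z ∈ R, χ (g • z) = χ z) (h2 : ∀ c ∈ S, c⁻¹ * g • c ∈ D) :
    ∀ c ∈ S, ∀ z ∈ R, χ (c⁻¹ * (g • z) * c) = χ (c⁻¹ * z * c) := by
  intro c hc z hz
  have hc' : g⁻¹ • c ∈ S := hSA g⁻¹ c hc
  have e1 : c⁻¹ * (g • z) * c = g • ((g⁻¹ • c)⁻¹ * z * (g⁻¹ • c)) := by
    rw [smul_mul', smul_mul', smul_inv', smul_inv_smul]
  have hd : c⁻¹ * g⁻¹ • c ∈ D := by
    have := D.inv_mem (h2 _ hc')
    rwa [smul_inv_smul, mul_inv_rev, inv_inv] at this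
  have e2 : (g⁻¹ • c)⁻¹ * z * (g⁻¹ • c) =
      (c⁻¹ * g⁻¹ • c)⁻¹ * (c⁻¹ * z * c) * (c⁻¹ * g⁻¹ • c) := by group
  rw [e1, h1 _ (hSR' _ hc' z hz), e2, hD _ hd _ (hSR' c hc z hz)]

end Fun

section Ctx

variable {H : Type*} [Group H] [MulDistribMulAction (Equiv.Perm (Fin 3)) H]

/-- A minimal configuration for Type II. -/
structure T2Ctx (R S S₀ : Subgroup H) : Prop where
  hRA : ∀ a : Equiv.Perm (Fin 3), ∀ x ∈ R, a • x ∈ R
  hSA : ∀ a : Equiv.Perm (Fin 3), ∀ c ∈ S, a • c ∈ S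
  hSR : ∀ c ∈ S, ∀ x ∈ R, c * x * c⁻¹ ∈ R
  hRab : ∀ x ∈ R, ∀ y ∈ R, x * y = y * x
  hS₀ : ∀ c, c ∈ S₀ ↔ (c ∈ S ∧ ∀ x ∈ R, c * x = x * c)
  m1 : ∀ S₁ : Subgroup H, S₁ ≤ S → S₁ ≠ S →
    (∀ a : Equiv.Perm (Fin 3), ∀ c ∈ S₁, a • c ∈ S₁) → S₁ ≤ S₀
  m2 : ∀ R₁ : Subgroup H, R₁ ≤ R → R₁ ≠ R →
    (∀ a : Equiv.Perm (Fin 3), ∀ x ∈ R₁, a • x ∈ R₁) → (∀ c ∈ S, ∀ x ∈ R₁, c * x * c⁻¹ ∈ R₁) →
    ∀ c ∈ S, ∀ x ∈ R₁, c * x = x * c
  hne : ∃ c ∈ S, c ∉ S₀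
  hcopRS : (Nat.card S).Coprime (Nat.card R)

theorem pow_card_of_mem (S : Subgroup H) {c : H} (hc : c ∈ S) : c ^ Nat.card S = 1 := by
  have h1 : (⟨c, hc⟩ : ↥S) ^ Nat.card ↥S = 1 := pow_card_eq_one'
  have h2 := congrArg Subtype.val h1
  rwa [Subgroup.coe_pow] at h2

namespace T2Ctx

variable {R S S₀ : Subgroup H} (ctx : T2Ctx R S S₀)
include ctx

theorem hSR' : ∀ c ∈ S, ∀ x ∈ R, c⁻¹ * x * c ∈ R := by
  intro c hc x hx
  have := ctx.hSR c⁻¹ (S.inv_mem hc) x hx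
  rwa [inv_inv] at this

theorem S₀_le : S₀ ≤ S := fun c hc => ((ctx.hS₀ c).mp hc).1

theorem S₀_comm : ∀ c ∈ S₀, ∀ x ∈ R, c * x = x * c := fun c hc => ((ctx.hS₀ c).mp hc).2

theorem S₀_A : ∀ a : Equiv.Perm (Fin 3), ∀ c ∈ S₀, a • c ∈ S₀ := by
  intro a c hc
  rw [ctx.hS₀]
  refine ⟨ctx.hSA a c (ctx.S₀_le hc), fun x hx => ?_⟩
  have h1 := ctx.S₀_comm c hc _ (ctx.hRA a⁻¹ x hx)
  have h2 := congrArg (fun t => a • t) h1
  simp only [smul_mul', smul_inv_smul] at h2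
  exact h2

theorem comm_mem [Finite H] [Group.IsSolvable H] : ∀ c ∈ S, ∀ d ∈ S, ⁅c, d⁆ ∈ S₀ := by
  have hSbot : S ≠ ⊥ := by
    intro h
    obtain ⟨c, hc, hc0⟩ := ctx.hne
    rw [h, Subgroup.mem_bot] at hc
    apply hc0
    rw [hc]; exact S₀.one_mem
  have hlt := H1.commutator_lt_of_isSolvable S hSbot
  have hle : ⁅S, S⁆ ≤ S₀ := by
    apply ctx.m1 _ hlt.le hlt.ne
    intro a x hx
    have h1 : a • x ∈ (⁅S, S⁆).map (MulDistribMulAction.toMonoidHom H a) := ⟨x, hx, rfl⟩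
    rw [Subgroup.map_commutator] at h1
    have h2 : S.map (MulDistribMulAction.toMonoidHom H a) ≤ S := by
      rintro _ ⟨y, hy, rfl⟩
      exact ctx.hSA a y hy
    exact Subgroup.commutator_mono h2 h2 h1
  intro c hc d hd
  exact hle (Subgroup.commutator_mem_commutator hc hd)

theorem S₀_normal [Finite H] [Group.IsSolvable H] : ∀ c ∈ S, ∀ d ∈ S₀, c * d * c⁻¹ ∈ S₀ := by
  intro c hc d hd
  have e : c * d * c⁻¹ = ⁅c, d⁆ * d := by rw [commutatorElement_def]; group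
  rw [e]; exact S₀.mul_mem (ctx.comm_mem c hc d (ctx.S₀_le hd)) hd

theorem cl [Finite H] [Group.IsSolvable H] (hcop : (Nat.card H).Coprime 6)
    (hfpf : ∀ x : H, (∀ a : Equiv.Perm (Fin 3), a • x = x) → x = 1) :
    ∀ c ∈ S, (∀ a : Equiv.Perm (Fin 3), c⁻¹ * a • c ∈ S₀) → c ∈ S₀ := by
  intro c hc hfix
  have hcopA : (Nat.card (Equiv.Perm (Fin 3))).Coprime (Nat.card H) := by
    rw [card_s3]; exact hcop.symm
  obtain ⟨n, hn, hfixn⟩ := cl_ext hcopA S S₀ ctx.S₀_le ctx.S₀_normal ctx.S₀_A c hc hfix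
  have h1 := hfpf _ hfixn
  have h2 : c = n⁻¹ := eq_inv_of_mul_eq_one_left h1
  rw [h2]; exact S₀.inv_mem hn

theorem cop : ∀ c ∈ S, ∀ x ∈ R,
    c * (x⁻¹ * (c * x * c⁻¹)) = (x⁻¹ * (c * x * c⁻¹)) * c → c * x = x * c := by
  intro c hc x hx hcomm
  exact cop_comm x c (Nat.card S) (Nat.card R) ctx.hcopRS (pow_card_of_mem S hc)
    (pow_card_of_mem R (R.mul_mem (R.inv_mem hx) (ctx.hSR c hc x hx))) hcomm

theorem sq [Finite H] (hcop : (Nat.card H).Coprime 6) : ∀ c : H, c * c ∈ S₀ → c ∈ S₀ := by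
  intro c hc
  have hcop2 : Nat.Coprime 2 (orderOf c) :=
    Nat.Coprime.coprime_dvd_right (orderOf_dvd_natCard c)
      (Nat.Coprime.coprime_dvd_left (by norm_num : 2 ∣ 6) hcop.symm)
  obtain ⟨m, hm⟩ := exists_pow_eq_self_of_coprime hcop2
  rw [← hm, pow_two]
  exact S₀.pow_mem hc m

end T2Ctx

end Ctx

theorem s3_rel2 : ∀ b : Equiv.Perm (Fin 3), b * b = 1 → b ≠ 1 → c3 * b = b * (c3 * c3) := by
  decide

theorem s3_rel3 : c3 * (c3 * c3) = 1 := by decide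

theorem s3_invols : ∀ b : Equiv.Perm (Fin 3), b * b = 1 → b ≠ 1 →
    b = sw ∨ b = c3 * sw ∨ b = c3 * (c3 * sw) := by decide

theorem field_aux {K : Type*} [Field K] (x0 x1 x2 y1 y2 : K) (h0 : x0 ≠ 0) (h1 : x1 ≠ 0)
    (h2 : x2 ≠ 0) (p1 : x0 * x1 * x2 = 1) (p2 : x0 * y1 * y2 = 1) (hy2 : y2 ≠ 0) :
    y1 * x1⁻¹ = (y2 * x2⁻¹)⁻¹ := by
  have h3 : y1 * y2 = x1 * x2 :=
    mul_left_cancel₀ h0 (by rw [← mul_assoc, ← mul_assoc, p1, p2])
  apply eq_inv_of_mul_eq_one_left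
  calc y1 * x1⁻¹ * (y2 * x2⁻¹) = (y1 * y2) * (x1⁻¹ * x2⁻¹) := by ring
    _ = (x1 * x2) * (x1⁻¹ * x2⁻¹) := by rw [h3]
    _ = 1 := by field_simp

section Gens

variable {K : Type*} [Field K] {H : Type*} [Group H] [MulDistribMulAction (Equiv.Perm (Fin 3)) H]

/-- Invariance of a function under `S₃` from invariance under two generators. -/
theorem fix_of_gens (R : Subgroup H) (hRA : ∀ a : Equiv.Perm (Fin 3), ∀ x ∈ R, a • x ∈ R)
    (ψ : H → K) (g₁ g₂ : Equiv.Perm (Fin 3))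
    (hgen : ∀ P : Equiv.Perm (Fin 3) → Prop, P 1 → (∀ a, P a → P (g₁ * a)) →
      (∀ a, P a → P (g₂ * a)) → ∀ a, P a)
    (h1 : ∀ z ∈ R, ψ (g₁ • z) = ψ z) (h2 : ∀ z ∈ R, ψ (g₂ • z) = ψ z) :
    ∀ a : Equiv.Perm (Fin 3), ∀ z ∈ R, ψ (a • z) = ψ z := by
  refine hgen (fun a => ∀ z ∈ R, ψ (a • z) = ψ z) ?_ ?_ ?_
  · intro z hz
    show ψ ((1 : Equiv.Perm (Fin 3)) • z) = ψ z
    rw [one_smul]
  · intro a ha z hz
    show ψ ((g₁ * a) • z) = ψ z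
    rw [mul_smul, h1 _ (hRA a z hz), ha z hz]
  · intro a ha z hz
    show ψ ((g₂ * a) • z) = ψ z
    rw [mul_smul, h2 _ (hRA a z hz), ha z hz]

/-- Triviality of the action on an element modulo an invariant subgroup from two generators. -/
theorem triv_of_gens (N : Subgroup H) (hNA : ∀ a : Equiv.Perm (Fin 3), ∀ x ∈ N, a • x ∈ N)
    (g₁ g₂ : Equiv.Perm (Fin 3))
    (hgen : ∀ P : Equiv.Perm (Fin 3) → Prop, P 1 → (∀ a, P a → P (g₁ * a)) →
      (∀ a, P a → P (g₂ * a)) → ∀ a, P a) (d : H)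
    (h1 : d⁻¹ * g₁ • d ∈ N) (h2 : d⁻¹ * g₂ • d ∈ N) :
    ∀ a : Equiv.Perm (Fin 3), d⁻¹ * a • d ∈ N := by
  have key : ∀ g a : Equiv.Perm (Fin 3), d⁻¹ * g • d ∈ N → d⁻¹ * a • d ∈ N →
      d⁻¹ * (g * a) • d ∈ N := by
    intro g a hg ha
    have e : d⁻¹ * (g * a) • d = (d⁻¹ * g • d) * g • (d⁻¹ * a • d) := by
      rw [mul_smul, smul_mul', smul_inv']; group
    rw [e]
    exact N.mul_mem hg (hNA g _ ha)
  refine hgen (fun a => d⁻¹ * a • d ∈ N) ?_ ?_ ?_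
  · show d⁻¹ * (1 : Equiv.Perm (Fin 3)) • d ∈ N
    rw [one_smul, inv_mul_cancel]; exact N.one_mem
  · intro a ha
    exact key g₁ a h1 ha
  · intro a ha
    exact key g₂ a h2 ha

/-- Invariance of a subgroup under `S₃` from invariance under two generators. -/
theorem inv_of_gens (D : Subgroup H) (g₁ g₂ : Equiv.Perm (Fin 3))
    (hgen : ∀ P : Equiv.Perm (Fin 3) → Prop, P 1 → (∀ a, P a → P (g₁ * a)) →
      (∀ a, P a → P (g₂ * a)) → ∀ a, P a)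
    (h1 : ∀ d ∈ D, g₁ • d ∈ D) (h2 : ∀ d ∈ D, g₂ • d ∈ D) :
    ∀ a : Equiv.Perm (Fin 3), ∀ d ∈ D, a • d ∈ D := by
  refine hgen (fun a => ∀ d ∈ D, a • d ∈ D) ?_ ?_ ?_
  · intro d hd
    show (1 : Equiv.Perm (Fin 3)) • d ∈ D
    rw [one_smul]; exact hd
  · intro a ha d hd
    show (g₁ * a) • d ∈ D
    rw [mul_smul]; exact h1 _ (ha d hd)
  · intro a ha d hd
    show (g₂ * a) • d ∈ D
    rw [mul_smul]; exact h2 _ (ha d hd)

end Gens

section Lemmas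

variable {K : Type*} [Field K] {H : Type*} [Group H] [MulDistribMulAction (Equiv.Perm (Fin 3)) H]
  [Finite H] [Group.IsSolvable H]

theorem T2Ctx.S₀_le_D {R S S₀ D : Subgroup H} (ctx : T2Ctx R S S₀) (χ : H → K)
    (hD : ∀ d, d ∈ D ↔ (d ∈ S ∧ ∀ x ∈ R, χ (d⁻¹ * x * d) = χ x)) : S₀ ≤ D := by
  intro c hc
  rw [hD]
  refine ⟨ctx.S₀_le hc, fun x hx => ?_⟩
  have h := ctx.S₀_comm c hc x hx
  have e : c⁻¹ * x * c = x := by rw [mul_assoc, ← h]; group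
  rw [e]

theorem T2Ctx.D_normal {R S S₀ D : Subgroup H} (ctx : T2Ctx R S S₀) (χ : H → K)
    (hD : ∀ d, d ∈ D ↔ (d ∈ S ∧ ∀ x ∈ R, χ (d⁻¹ * x * d) = χ x)) :
    ∀ c ∈ S, ∀ d ∈ D, c⁻¹ * d * c ∈ D := by
  intro c hc d hd
  have hdS : d ∈ S := ((hD d).mp hd).1
  have e : c⁻¹ * d * c = d * ⁅d⁻¹, c⁻¹⁆ := by rw [commutatorElement_def]; group
  rw [e]
  exact D.mul_mem hd (ctx.S₀_le_D χ hD (ctx.comm_mem _ (S.inv_mem hdS) _ (S.inv_mem hc)))

/-- An involution fixing the weight `χ` cannot act trivially on `S` modulo the stabiliser of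
`χ`, unless `χ` is stable under `S`. -/
theorem t2_invol {R S S₀ D : Subgroup H} (ctx : T2Ctx R S S₀) (hcop : (Nat.card H).Coprime 6)
    (hfpf : ∀ x : H, (∀ a : Equiv.Perm (Fin 3), a • x = x) → x = 1) (χ : H → K)
    (hχ : IsMulOn R χ) (hD : ∀ d, d ∈ D ↔ (d ∈ S ∧ ∀ x ∈ R, χ (d⁻¹ * x * d) = χ x))
    (c₁ : H) (hc₁ : c₁ ∈ S) (hc₁D : c₁ ∉ D) (b : Equiv.Perm (Fin 3)) (hb : b * b = 1)
    (hb1 : b ≠ 1) (hbχ : ∀ z ∈ R, χ (b • z) = χ z) (hbD : ∀ d ∈ S, d⁻¹ * b • d ∈ D) : False := by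
  have hDS : D ≤ S := fun d hd => ((hD d).mp hd).1
  have hDfix : ∀ d ∈ D, ∀ z ∈ R, χ (d⁻¹ * z * d) = χ z := fun d hd => ((hD d).mp hd).2
  -- the twisted form of `conj_fix`
  have tw : ∀ g h : Equiv.Perm (Fin 3), h * g = 1 → ∀ c ∈ S, ∀ z ∈ R,
      χ (h • (c⁻¹ * ((g * b * g⁻¹) • z) * c)) = χ (h • (c⁻¹ * z * c)) := by
    intro g h hg c hc z hz
    have hginv : g⁻¹ = h := (eq_inv_of_mul_eq_one_left hg).symm
    have e0 : h * (g * b * g⁻¹) = b * h := by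
      rw [hginv, ← mul_assoc, ← mul_assoc, hg, one_mul]
    have e0' : h • ((g * b * g⁻¹) • z) = b • (h • z) := by
      rw [← mul_smul, ← mul_smul, e0]
    have e1 : h • (c⁻¹ * ((g * b * g⁻¹) • z) * c) = (h • c)⁻¹ * (b • (h • z)) * (h • c) := by
      rw [smul_mul', smul_mul', smul_inv', e0']
    have e2 : h • (c⁻¹ * z * c) = (h • c)⁻¹ * (h • z) * (h • c) := by
      rw [smul_mul', smul_mul', smul_inv']
    rw [e1, e2]
    exact conj_fix ctx.hSA ctx.hSR' χ hDfix b hbχ hbD (h • c) (ctx.hSA h c hc) (h • z)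
      (ctx.hRA h z hz)
  have tw1 : ∀ c ∈ S, ∀ z ∈ R,
      χ (c3 • (c⁻¹ * ((c3 * c3 * b * (c3 * c3)⁻¹) • z) * c)) = χ (c3 • (c⁻¹ * z * c)) :=
    tw (c3 * c3) c3 s3_rel3
  have tw2 : ∀ c ∈ S, ∀ z ∈ R,
      χ (c3 • c3 • (c⁻¹ * ((c3 * b * c3⁻¹) • z) * c)) = χ (c3 • c3 • (c⁻¹ * z * c)) := by
    intro c hc z hz
    have := tw c3 (c3 * c3) c3_cube c hc z hz
    rw [mul_smul c3 c3 (c⁻¹ * ((c3 * b * c3⁻¹) • z) * c), mul_smul c3 c3 (c⁻¹ * z * c)] at this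
    exact this
  -- the product of the three translates is trivial
  have hc3z : ∀ z : H, c3 • c3 • c3 • z = z := by
    intro z; rw [← mul_smul, ← mul_smul, c3_cube, one_smul]
  have hχ1 : IsMulOn R (fun z => χ (c3 • z)) := isMulOn_smul hχ c3 ctx.hRA
  have hχ2 : IsMulOn R (fun z => χ (c3 • c3 • z)) := isMulOn_smul hχ1 c3 ctx.hRA
  have hprod : ∀ z ∈ R, χ z * χ (c3 • z) * χ (c3 • c3 • z) = 1 := by
    apply fix_char hcop hfpf R ctx.hRA _ (isMulOn_mul (isMulOn_mul hχ hχ1) hχ2)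
    refine fix_of_gens R ctx.hRA (fun z => χ z * χ (c3 • z) * χ (c3 • c3 • z)) c3 b
      (fun P h1 hc hb' => s3_ind P b hb hb1 h1 hc hb') ?_ ?_
    · intro z hz
      show χ (c3 • z) * χ (c3 • c3 • z) * χ (c3 • c3 • c3 • z) = χ z * χ (c3 • z) * χ (c3 • c3 • z)
      rw [hc3z]; ring
    · intro z hz
      show χ (b • z) * χ (c3 • b • z) * χ (c3 • c3 • b • z) = χ z * χ (c3 • z) * χ (c3 • c3 • z)
      have e1 : c3 • b • z = b • c3 • c3 • z := by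
        rw [← mul_smul, s3_rel2 b hb hb1, mul_smul, mul_smul]
      have e2 : c3 • c3 • b • z = b • c3 • z := by
        rw [← mul_smul, ← mul_smul, ← s3_inv_rel' b hb hb1, mul_smul]
      rw [e2, e1, hbχ z hz, hbχ _ (ctx.hRA c3 z hz), hbχ _ (ctx.hRA c3 _ (ctx.hRA c3 z hz))]
      ring
  -- `D` fixes the translate of `χ` by `c3`
  have key : ∀ d ∈ D, ∀ z ∈ R, χ (c3 • (d⁻¹ * z * d)) = χ (c3 • z) := by
    intro d hd
    have hdS := hDS hd
    have hconj : ∀ x ∈ R, d⁻¹ * x * d ∈ R := ctx.hSR' d hdS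
    have hψ1 : IsMulOn R (fun z => χ (c3 • (d⁻¹ * z * d)) * (χ (c3 • z))⁻¹) :=
      isMulOn_mul (isMulOn_conj hχ1 d hconj) (isMulOn_inv hχ1)
    have h12 : ∀ z ∈ R, χ (c3 • (d⁻¹ * z * d)) * (χ (c3 • z))⁻¹ =
        (χ (c3 • c3 • (d⁻¹ * z * d)) * (χ (c3 • c3 • z))⁻¹)⁻¹ := by
      intro z hz
      have p1 := hprod z hz
      have p2 := hprod _ (hconj z hz)
      rw [hDfix d hd z hz] at p2
      have n0 := hχ.2 z hz
      have n1 := hχ.2 _ (ctx.hRA c3 z hz)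
      have n2 := hχ.2 _ (ctx.hRA c3 _ (ctx.hRA c3 z hz))
      have n1' := hχ.2 _ (ctx.hRA c3 _ (hconj z hz))
      have n2' := hχ.2 _ (ctx.hRA c3 _ (ctx.hRA c3 _ (hconj z hz)))
      exact field_aux _ _ _ _ _ n0 n1 n2 p1 p2 n2'
    have hg2 : ∀ z ∈ R, χ (c3 • (d⁻¹ * ((c3 * c3 * b * (c3 * c3)⁻¹) • z) * d)) *
        (χ (c3 • ((c3 * c3 * b * (c3 * c3)⁻¹) • z)))⁻¹ =
        χ (c3 • (d⁻¹ * z * d)) * (χ (c3 • z))⁻¹ := by
      intro z hz
      have h1 := tw1 d hdS z hz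
      have h2 := tw1 1 S.one_mem z hz
      simp only [inv_one, one_mul, mul_one] at h2
      rw [h1, h2]
    have hg1' : ∀ z ∈ R, χ (c3 • c3 • (d⁻¹ * ((c3 * b * c3⁻¹) • z) * d)) *
        (χ (c3 • c3 • ((c3 * b * c3⁻¹) • z)))⁻¹ =
        χ (c3 • c3 • (d⁻¹ * z * d)) * (χ (c3 • c3 • z))⁻¹ := by
      intro z hz
      have h1 := tw2 d hdS z hz
      have h2 := tw2 1 S.one_mem z hz
      simp only [inv_one, one_mul, mul_one] at h2
      rw [h1, h2]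
    have hg1 : ∀ z ∈ R, χ (c3 • (d⁻¹ * ((c3 * b * c3⁻¹) • z) * d)) *
        (χ (c3 • ((c3 * b * c3⁻¹) • z)))⁻¹ =
        χ (c3 • (d⁻¹ * z * d)) * (χ (c3 • z))⁻¹ := by
      intro z hz
      rw [h12 _ (ctx.hRA _ z hz), hg1' z hz, ← h12 z hz]
    have hall := fix_char hcop hfpf R ctx.hRA _ hψ1
      (fix_of_gens R ctx.hRA (fun z => χ (c3 • (d⁻¹ * z * d)) * (χ (c3 • z))⁻¹)
        (c3 * b * c3⁻¹) (c3 * c3 * b * (c3 * c3)⁻¹)
        (fun P h1 h2 h3 => s3_ind3 P b hb hb1 h1 h2 h3) hg1 hg2)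
    intro z hz
    have h := hall z hz
    exact (mul_inv_eq_one₀ (hχ.2 _ (ctx.hRA c3 z hz))).mp h
  -- hence `D` is invariant
  have hDA : ∀ a : Equiv.Perm (Fin 3), ∀ d ∈ D, a • d ∈ D := by
    apply inv_of_gens D c3 b (fun P h1 hc hb' => s3_ind P b hb hb1 h1 hc hb')
    · intro d hd
      rw [hD]
      refine ⟨ctx.hSA c3 d (hDS hd), fun x hx => ?_⟩
      have e : (c3 • d)⁻¹ * x * (c3 • d) = c3 • (d⁻¹ * (c3⁻¹ • x) * d) := by
        rw [smul_mul', smul_mul', smul_inv', smul_inv_smul]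
      rw [e, key d hd _ (ctx.hRA c3⁻¹ x hx), smul_inv_smul]
    · intro d hd
      have e : b • d = d * (d⁻¹ * b • d) := by group
      rw [e]
      exact D.mul_mem hd (hbD d (hDS hd))
  have hDS₀ : D ≤ S₀ := ctx.m1 D hDS (fun h => hc₁D (h ▸ hc₁)) hDA
  obtain ⟨c, hc, hc0⟩ := ctx.hne
  apply hc0
  apply ctx.cl hcop hfpf c hc
  apply triv_of_gens S₀ ctx.S₀_A b (c3 * b * c3⁻¹)
    (fun P h1 h2 h3 => s3_ind2 P b hb hb1 h1 h2 h3) c
  · exact hDS₀ (hbD c hc)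
  · have e : c⁻¹ * (c3 * b * c3⁻¹) • c = c3 • ((c3⁻¹ • c)⁻¹ * b • (c3⁻¹ • c)) := by
      simp only [smul_mul', smul_inv', smul_inv_smul, mul_smul]
    rw [e]
    exact ctx.S₀_A c3 _ (hDS₀ (hbD _ (ctx.hSA c3⁻¹ c hc)))

/-- The 3-cycle fixing the weight `χ` cannot act trivially on `S` modulo the stabiliser of
`χ`, unless `χ` is stable under `S`. -/
theorem t2_rho {R S S₀ D : Subgroup H} (ctx : T2Ctx R S S₀) (hcop : (Nat.card H).Coprime 6)
    (hfpf : ∀ x : H, (∀ a : Equiv.Perm (Fin 3), a • x = x) → x = 1) (χ : H → K)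
    (hχ : IsMulOn R χ) (hD : ∀ d, d ∈ D ↔ (d ∈ S ∧ ∀ x ∈ R, χ (d⁻¹ * x * d) = χ x))
    (c₁ : H) (hc₁ : c₁ ∈ S) (hc₁D : c₁ ∉ D)
    (hρχ : ∀ z ∈ R, χ (c3 • z) = χ z) (hρD : ∀ d ∈ S, d⁻¹ * c3 • d ∈ D) : False := by
  have hDS : D ≤ S := fun d hd => ((hD d).mp hd).1
  have hDfix : ∀ d ∈ D, ∀ z ∈ R, χ (d⁻¹ * z * d) = χ z := fun d hd => ((hD d).mp hd).2
  have hDn := ctx.D_normal χ hD
  have hSR' := ctx.hSR'
  -- (i) `c3` fixes all the conjugates of `χ`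
  have h_i : ∀ c ∈ S, ∀ z ∈ R, χ (c⁻¹ * (c3 • z) * c) = χ (c⁻¹ * z * c) :=
    conj_fix ctx.hSA hSR' χ hDfix c3 hρχ hρD
  -- (ii) `D` fixes all the conjugates of `χ`
  have h_ii : ∀ d ∈ D, ∀ c ∈ S, ∀ z ∈ R, χ (c⁻¹ * (d⁻¹ * z * d) * c) = χ (c⁻¹ * z * c) := by
    intro d hd c hc z hz
    have e : c⁻¹ * (d⁻¹ * z * d) * c = (c⁻¹ * d * c)⁻¹ * (c⁻¹ * z * c) * (c⁻¹ * d * c) := by group
    rw [e, hDfix _ (hDn c hc d hd) _ (hSR' c hc z hz)]
  -- (iii) the product of a conjugate with its translate by `sw` is trivial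
  have h_iii : ∀ c ∈ S, ∀ z ∈ R, χ (c⁻¹ * z * c) * χ (c⁻¹ * (sw • z) * c) = 1 := by
    intro c hc
    have hl : IsMulOn R (fun z => χ (c⁻¹ * z * c)) := isMulOn_conj hχ c (hSR' c hc)
    have hl2 : IsMulOn R (fun z => χ (c⁻¹ * (sw • z) * c)) := isMulOn_smul hl sw ctx.hRA
    apply fix_char hcop hfpf R ctx.hRA _ (isMulOn_mul hl hl2)
    refine fix_of_gens R ctx.hRA (fun z => χ (c⁻¹ * z * c) * χ (c⁻¹ * (sw • z) * c)) c3 sw
      (fun P h1 hc' hb' => s3_ind P sw sw_sq sw_ne_one h1 hc' hb') ?_ ?_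
    · intro z hz
      show χ (c⁻¹ * (c3 • z) * c) * χ (c⁻¹ * (sw • c3 • z) * c) =
        χ (c⁻¹ * z * c) * χ (c⁻¹ * (sw • z) * c)
      have e : sw • c3 • z = c3 • c3 • sw • z := by
        rw [← mul_smul, s3_inv_rel' sw sw_sq sw_ne_one, mul_smul, mul_smul]
      rw [e, h_i c hc z hz, h_i c hc _ (ctx.hRA c3 _ (ctx.hRA sw z hz)),
        h_i c hc _ (ctx.hRA sw z hz)]
    · intro z hz
      show χ (c⁻¹ * (sw • z) * c) * χ (c⁻¹ * (sw • sw • z) * c) =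
        χ (c⁻¹ * z * c) * χ (c⁻¹ * (sw • z) * c)
      have e : sw • sw • z = z := by rw [← mul_smul, sw_sq, one_smul]
      rw [e, mul_comm]
  -- (iv) the common kernel of the conjugates of `χ`
  let R₁ : Subgroup H :=
    { carrier := {x | x ∈ R ∧ ∀ c ∈ S, χ (c⁻¹ * x * c) = 1}
      one_mem' := by
        refine ⟨R.one_mem, fun c hc => ?_⟩
        have e : c⁻¹ * 1 * c = 1 := by group
        rw [e, hχ.map_one]
      mul_mem' := by
        rintro x y ⟨hx, hx'⟩ ⟨hy, hy'⟩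
        refine ⟨R.mul_mem hx hy, fun c hc => ?_⟩
        have e : c⁻¹ * (x * y) * c = (c⁻¹ * x * c) * (c⁻¹ * y * c) := by group
        rw [e, hχ.1 _ (hSR' c hc x hx) _ (hSR' c hc y hy), hx' c hc, hy' c hc, mul_one]
      inv_mem' := by
        rintro x ⟨hx, hx'⟩
        refine ⟨R.inv_mem hx, fun c hc => ?_⟩
        have e : c⁻¹ * x⁻¹ * c = (c⁻¹ * x * c)⁻¹ := by group
        rw [e, hχ.map_inv (hSR' c hc x hx), hx' c hc, inv_one] }
  have hR₁mem : ∀ x, x ∈ R₁ ↔ (x ∈ R ∧ ∀ c ∈ S, χ (c⁻¹ * x * c) = 1) := fun x => Iff.rfl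
  have hR₁R : R₁ ≤ R := fun x hx => hx.1
  have hR₁ne : R₁ ≠ R := by
    intro h
    apply hc₁D
    rw [hD]
    refine ⟨hc₁, fun x hx => ?_⟩
    have hx' : x ∈ R₁ := by rw [h]; exact hx
    have h1 := hx'.2 c₁ hc₁
    have h2 := hx'.2 1 S.one_mem
    simp only [inv_one, one_mul, mul_one] at h2
    rw [h1, h2]
  have hR₁A : ∀ a : Equiv.Perm (Fin 3), ∀ x ∈ R₁, a • x ∈ R₁ := by
    apply inv_of_gens R₁ c3 sw (fun P h1 hc' hb' => s3_ind P sw sw_sq sw_ne_one h1 hc' hb')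
    · intro x hx
      refine ⟨ctx.hRA c3 x hx.1, fun c hc => ?_⟩
      rw [h_i c hc x hx.1, hx.2 c hc]
    · intro x hx
      refine ⟨ctx.hRA sw x hx.1, fun c hc => ?_⟩
      have h := h_iii c hc x hx.1
      rwa [hx.2 c hc, one_mul] at h
  have hR₁S : ∀ e ∈ S, ∀ x ∈ R₁, e * x * e⁻¹ ∈ R₁ := by
    intro e he x hx
    refine ⟨ctx.hSR e he x hx.1, fun c hc => ?_⟩
    have e1 : c⁻¹ * (e * x * e⁻¹) * c = (e⁻¹ * c)⁻¹ * x * (e⁻¹ * c) := by group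
    rw [e1]
    exact hx.2 _ (S.mul_mem (S.inv_mem he) hc)
  have hR₁c : ∀ c ∈ S, ∀ x ∈ R₁, c * x = x * c := ctx.m2 R₁ hR₁R hR₁ne hR₁A hR₁S
  -- (v) `D` centralises `R`
  have hDS₀ : D ≤ S₀ := by
    intro d hd
    rw [ctx.hS₀]
    refine ⟨hDS hd, fun x hx => ctx.cop d (hDS hd) x hx (hR₁c d (hDS hd) _ ?_)⟩
    refine ⟨R.mul_mem (R.inv_mem hx) (ctx.hSR d (hDS hd) x hx), fun c hc => ?_⟩
    have e1 : c⁻¹ * (x⁻¹ * (d * x * d⁻¹)) * c = (c⁻¹ * x * c)⁻¹ * (c⁻¹ * (d * x * d⁻¹) * c) := by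
      group
    have h2 := h_ii d⁻¹ (D.inv_mem hd) c hc x hx
    rw [inv_inv] at h2
    rw [e1, hχ.1 _ (R.inv_mem (hSR' c hc x hx)) _ (hSR' c hc _ (ctx.hSR d (hDS hd) x hx)),
      hχ.map_inv (hSR' c hc x hx), h2]
    exact inv_mul_cancel₀ (hχ.2 _ (hSR' c hc x hx))
  have hρ₀ : ∀ d ∈ S, d⁻¹ * c3 • d ∈ S₀ := fun d hd => hDS₀ (hρD d hd)
  -- (vi) `d * sw • d` centralises `R`
  have h_vi : ∀ d ∈ S, d * sw • d ∈ S₀ := by
    intro d hd
    have hsd : sw • d ∈ S := ctx.hSA sw d hd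
    apply ctx.cl hcop hfpf _ (S.mul_mem hd hsd)
    apply triv_of_gens S₀ ctx.S₀_A c3 sw
      (fun P h1 hc' hb' => s3_ind P sw sw_sq sw_ne_one h1 hc' hb')
    · have e : (d * sw • d)⁻¹ * c3 • (d * sw • d) =
          ((sw • d)⁻¹ * (d⁻¹ * c3 • d) * ((sw • d)⁻¹)⁻¹) * ((sw • d)⁻¹ * c3 • (sw • d)) := by
        rw [smul_mul']; group
      rw [e]
      exact S₀.mul_mem (ctx.S₀_normal _ (S.inv_mem hsd) _ (hρ₀ d hd)) (hρ₀ _ hsd)
    · have e : (d * sw • d)⁻¹ * sw • (d * sw • d) = ⁅(sw • d)⁻¹, d⁻¹⁆ := by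
        rw [smul_mul', ← mul_smul, sw_sq, one_smul, commutatorElement_def]; group
      rw [e]
      exact ctx.comm_mem _ (S.inv_mem hsd) _ (S.inv_mem hd)
  -- (vii) `x * sw • x` lies in `R₁`
  have h_vii : ∀ x ∈ R, x * sw • x ∈ R₁ := by
    intro x hx
    refine ⟨R.mul_mem hx (ctx.hRA sw x hx), fun c hc => ?_⟩
    have e : c⁻¹ * (x * sw • x) * c = (c⁻¹ * x * c) * (c⁻¹ * (sw • x) * c) := by group
    rw [e, hχ.1 _ (hSR' c hc x hx) _ (hSR' c hc _ (ctx.hRA sw x hx)), h_iii c hc x hx]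
  -- (viii) squares centralise `R`
  have h_viii : ∀ c ∈ S, c * c ∈ S₀ := by
    intro c hc
    have hcc : c * c ∈ S := S.mul_mem hc hc
    rw [ctx.hS₀]
    refine ⟨hcc, fun y hy => ctx.cop (c * c) hcc y hy (hR₁c (c * c) hcc _ ?_)⟩
    have hs := h_vi c hc
    have hu : c * y * c⁻¹ ∈ R := ctx.hSR c hc y hy
    have hsy : sw • y ∈ R := ctx.hRA sw y hy
    have e1 : sw • (c * y * c⁻¹) = c⁻¹ * (sw • y) * c := by
      have h1 : sw • c = c⁻¹ * (c * sw • c) := by group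
      have h2 := ctx.S₀_comm _ hs _ hsy
      rw [smul_mul', smul_mul', smul_inv', h1]
      have h3 : c⁻¹ * (c * sw • c) * sw • y * (c⁻¹ * (c * sw • c))⁻¹ =
          c⁻¹ * ((c * sw • c) * sw • y) * (c * sw • c)⁻¹ * c := by group
      rw [h3, h2]; group
    have hE1 : (c * y * c⁻¹) * (c⁻¹ * (sw • y) * c) ∈ R₁ := by
      have := h_vii _ hu
      rwa [e1] at this
    have hE2 : c⁻¹ * (y * sw • y) * c ∈ R₁ := by
      have := hR₁S c⁻¹ (S.inv_mem hc) _ (h_vii y hy)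
      rwa [inv_inv] at this
    have hE3 : c * ((c * y * c⁻¹) * (c⁻¹ * (sw • y) * c) * (c⁻¹ * (y * sw • y) * c)⁻¹) * c⁻¹ ∈ R₁ :=
      hR₁S c hc _ (R₁.mul_mem hE1 (R₁.inv_mem hE2))
    have e2 : c * ((c * y * c⁻¹) * (c⁻¹ * (sw • y) * c) * (c⁻¹ * (y * sw • y) * c)⁻¹) * c⁻¹ =
        (c * c * y * (c * c)⁻¹) * y⁻¹ := by group
    rw [e2, ctx.hRab _ (ctx.hSR _ hcc y hy) _ (R.inv_mem hy)] at hE3
    exact hE3
  obtain ⟨c, hc, hc0⟩ := ctx.hne
  exact hc0 (ctx.sq hcop c (h_viii c hc))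

end Lemmas

section Count

variable {H : Type*} [Group H] [Finite H]

/-- A proper subgroup of a subgroup of a group of order prime to `6` has index at least `5`. -/
theorem five_mul_card_le (hcop : (Nat.card H).Coprime 6) (B S : Subgroup H) (hBS : B ≤ S)
    (hne : B ≠ S) : 5 * Nat.card B ≤ Nat.card S := by
  obtain ⟨k, hk⟩ := Subgroup.card_dvd_of_le hBS
  have hSpos : 0 < Nat.card S := Nat.card_pos
  have hBpos : 0 < Nat.card B := Nat.card_pos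
  have hk1 : k ≠ 1 := by
    intro h
    rw [h, mul_one] at hk
    exact hne (Subgroup.eq_of_le_of_card_ge hBS (le_of_eq hk))
  have hkcop : k.Coprime 6 := by
    have h1 : k ∣ Nat.card H :=
      (Dvd.intro_left _ hk.symm).trans (Subgroup.card_subgroup_dvd_card S)
    exact Nat.Coprime.coprime_dvd_left h1 hcop
  have hk5 : 5 ≤ k := by
    by_contra hlt
    push Not at hlt
    interval_cases k
    · rw [mul_zero] at hk; omega
    · exact hk1 rfl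
    · revert hkcop; decide
    · revert hkcop; decide
    · revert hkcop; decide
  calc 5 * Nat.card B ≤ k * Nat.card B := Nat.mul_le_mul_right _ hk5
    _ = Nat.card S := by rw [hk, mul_comm]

variable [MulDistribMulAction (Equiv.Perm (Fin 3)) H]

/-- The elements of `S` on which `a` acts trivially modulo the subgroup `D` normalised by `S`. -/
def trivSub (S D : Subgroup H) (hDn : ∀ c ∈ S, ∀ d ∈ D, c⁻¹ * d * c ∈ D)
    (a : Equiv.Perm (Fin 3)) : Subgroup H where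
  carrier := {d | d ∈ S ∧ d⁻¹ * a • d ∈ D}
  one_mem' := by
    refine ⟨S.one_mem, ?_⟩
    rw [smul_one, inv_one, one_mul]; exact D.one_mem
  mul_mem' := by
    rintro d e ⟨hd, hd'⟩ ⟨he, he'⟩
    refine ⟨S.mul_mem hd he, ?_⟩
    have e1 : (d * e)⁻¹ * a • (d * e) = (e⁻¹ * (d⁻¹ * a • d) * e) * (e⁻¹ * a • e) := by
      rw [smul_mul']; group
    rw [e1]; exact D.mul_mem (hDn e he _ hd') he'
  inv_mem' := by
    rintro d ⟨hd, hd'⟩
    refine ⟨S.inv_mem hd, ?_⟩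
    have e1 : (d⁻¹)⁻¹ * a • d⁻¹ = (d⁻¹)⁻¹ * (d⁻¹ * a • d)⁻¹ * d⁻¹ := by
      rw [smul_inv']; group
    rw [e1]; exact hDn d⁻¹ (S.inv_mem hd) _ (D.inv_mem hd')

end Count

section Main

variable {K : Type*} [Field K] {V : Type*} [AddCommGroup V] [Module K V]
variable {H : Type*} [Group H] [MulDistribMulAction (Equiv.Perm (Fin 3)) H]

/-- The weight of a nonzero weight vector is multiplicative and nowhere zero. -/
theorem isMulOn_of_wt (θ : H →* Module.End K V) (R : Subgroup H) (χ : H → K) (w : V)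
    (hw : w ∈ wtSpace θ R χ) (hw0 : w ≠ 0) : IsMulOn R χ := by
  constructor
  · intro x hx y hy
    have h1 := hw (x * y) (R.mul_mem hx hy)
    rw [map_mul, Module.End.mul_apply, hw y hy, map_smul, hw x hx, smul_smul] at h1
    have h2 : (χ y * χ x - χ (x * y)) • w = 0 := by rw [sub_smul, h1, sub_self]
    rcases smul_eq_zero.mp h2 with h | h
    · rw [← sub_eq_zero.mp h, mul_comm]
    · exact absurd h hw0
  · intro x hx h0
    apply hw0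
    have h1 := hw x hx
    rw [h0, zero_smul] at h1
    have h2 : θ x⁻¹ (θ x w) = w := by
      rw [← Module.End.mul_apply, ← map_mul, inv_mul_cancel, map_one, Module.End.one_apply]
    rw [h1, map_zero] at h2
    exact h2.symm

variable [Finite H] [Group.IsSolvable H]
variable {θ : H →* Module.End K V} {T : Equiv.Perm (Fin 3) →* Module.End K V}

/-- In a minimal configuration every weight of `R` is stable under `S`. -/
theorem t2_stable (hcompat : ∀ a x, T a * θ x = θ (a • x) * T a) (hsum : ∑ a, T a = 0)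
    (hcop : (Nat.card H).Coprime 6)
    (hfpf : ∀ x : H, (∀ a : Equiv.Perm (Fin 3), a • x = x) → x = 1)
    {R S S₀ : Subgroup H} (ctx : T2Ctx R S S₀) (χ : H → K) (w : V)
    (hw : w ∈ wtSpace θ R χ) (hw0 : w ≠ 0) : ∀ c ∈ S, ∀ z ∈ R, χ (c⁻¹ * z * c) = χ z := by
  classical
  by_contra hcon
  push Not at hcon
  obtain ⟨c₁, hc₁, z₁, hz₁, hne₁⟩ := hcon
  have hSR' := ctx.hSR'
  have hχ : IsMulOn R χ := isMulOn_of_wt θ R χ w hw hw0
  obtain ⟨F, hF⟩ : ∃ F : Equiv.Perm (Fin 3) → Set H, ∀ a c, c ∈ F a ↔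
      (c ∈ S ∧ ∀ z ∈ R, χ (c⁻¹ * (a • z) * c) = χ (c⁻¹ * z * c)) :=
    ⟨fun a => {c | c ∈ S ∧ ∀ z ∈ R, χ (c⁻¹ * (a • z) * c) = χ (c⁻¹ * z * c)},
      fun a c => Iff.rfl⟩
  have hcover : ∀ c ∈ S, c ∈ F c3 ∨ ∃ b : Equiv.Perm (Fin 3), b * b = 1 ∧ b ≠ 1 ∧ c ∈ F b := by
    intro c hc
    have hwc : θ c w ∈ wtSpace θ R (fun z => χ (c⁻¹ * z * c)) :=
      wt_translate θ R χ c (hSR' c hc) w hw
    have hwc0 : θ c w ≠ 0 := by
      intro h0
      apply hw0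
      have h2 : θ c⁻¹ (θ c w) = w := by
        rw [← Module.End.mul_apply, ← map_mul, inv_mul_cancel, map_one, Module.End.one_apply]
      rw [h0, map_zero] at h2
      exact h2.symm
    rcases exists_stab' hcompat hsum R ctx.hRA _ (θ c w) hwc hwc0 with h | ⟨b, hb, hb1, h⟩
    · left; rw [hF]; exact ⟨hc, h⟩
    · right; exact ⟨b, hb, hb1, (hF b c).mpr ⟨hc, h⟩⟩
  have hbound : ∀ a : Equiv.Perm (Fin 3), (a = c3 ∨ (a * a = 1 ∧ a ≠ 1)) →
      5 * (F a).ncard ≤ Nat.card S := by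
    intro a ha
    by_cases hemp : F a = ∅
    · rw [hemp, Set.ncard_empty]; omega
    obtain ⟨c₀, hc₀⟩ := Set.nonempty_iff_ne_empty.mpr hemp
    rw [hF] at hc₀
    obtain ⟨hc₀S, hc₀fix⟩ := hc₀
    have hχ' : IsMulOn R (fun z => χ (c₀⁻¹ * z * c₀)) := isMulOn_conj hχ c₀ (hSR' c₀ hc₀S)
    obtain ⟨D', hD'⟩ : ∃ D' : Subgroup H, ∀ d, d ∈ D' ↔
        (d ∈ S ∧ ∀ x ∈ R, χ (c₀⁻¹ * (d⁻¹ * x * d) * c₀) = χ (c₀⁻¹ * x * c₀)) := by
      refine ⟨S ⊓ chiStab R (fun z => χ (c₀⁻¹ * z * c₀)), fun d => ?_⟩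
      rw [Subgroup.mem_inf, mem_chiStab]
      constructor
      · rintro ⟨h1, -, -, h2⟩; exact ⟨h1, h2⟩
      · rintro ⟨h1, h2⟩; exact ⟨h1, ctx.hSR d h1, hSR' d h1, h2⟩
    have hc₁' : c₀ * c₁ * c₀⁻¹ ∉ D' := by
      intro hmem
      rw [hD'] at hmem
      apply hne₁
      have h := hmem.2 (c₀ * z₁ * c₀⁻¹) (ctx.hSR c₀ hc₀S z₁ hz₁)
      have e1 : c₀⁻¹ * ((c₀ * c₁ * c₀⁻¹)⁻¹ * (c₀ * z₁ * c₀⁻¹) * (c₀ * c₁ * c₀⁻¹)) * c₀ =
          c₁⁻¹ * z₁ * c₁ := by group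
      have e2 : c₀⁻¹ * (c₀ * z₁ * c₀⁻¹) * c₀ = z₁ := by group
      rw [e1, e2] at h
      exact h
    have hc₁'S : c₀ * c₁ * c₀⁻¹ ∈ S := S.mul_mem (S.mul_mem hc₀S hc₁) (S.inv_mem hc₀S)
    have hD'n := ctx.D_normal (fun z => χ (c₀⁻¹ * z * c₀)) hD'
    obtain ⟨B, hB⟩ : ∃ B : Subgroup H, ∀ d, d ∈ B ↔ (d ∈ S ∧ d⁻¹ * a • d ∈ D') :=
      ⟨trivSub S D' hD'n a, fun d => Iff.rfl⟩
    have hBS : B ≤ S := fun d hd => ((hB d).mp hd).1
    have hBne : B ≠ S := by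
      intro hBeq
      have hall : ∀ d ∈ S, d⁻¹ * a • d ∈ D' := by
        intro d hd
        have : d ∈ B := by rw [hBeq]; exact hd
        exact ((hB d).mp this).2
      rcases ha with ha | ⟨ha1, ha2⟩
      · subst ha
        exact t2_rho ctx hcop hfpf _ hχ' hD' _ hc₁'S hc₁' hc₀fix hall
      · exact t2_invol ctx hcop hfpf _ hχ' hD' _ hc₁'S hc₁' a ha1 ha2 hc₀fix hall
    have hB5 := five_mul_card_le hcop B S hBS hBne
    have hsub : F a ⊆ (fun e => e * c₀) '' (B : Set H) := by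
      intro c hc
      rw [hF] at hc
      obtain ⟨hcS, hcfix⟩ := hc
      obtain ⟨e, rfl⟩ : ∃ e, c = e * c₀ := ⟨c * c₀⁻¹, by group⟩
      have heS : e ∈ S := by
        have := S.mul_mem hcS (S.inv_mem hc₀S)
        rwa [mul_inv_cancel_right] at this
      refine ⟨e, ?_, rfl⟩
      show e ∈ B
      rw [hB]
      refine ⟨heS, ?_⟩
      rw [hD']
      refine ⟨S.mul_mem (S.inv_mem heS) (ctx.hSA a _ heS), fun x hx => ?_⟩
      have hy : e * x * e⁻¹ ∈ R := ctx.hSR e heS x hx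
      have hy' : a⁻¹ • (e * x * e⁻¹) ∈ R := ctx.hRA _ _ hy
      have hz : e⁻¹ * (a⁻¹ • (e * x * e⁻¹)) * e ∈ R := hSR' e heS _ hy'
      have s1 : (e⁻¹ * a • e)⁻¹ * x * (e⁻¹ * a • e) =
          a • (e⁻¹ * (a⁻¹ • (e * x * e⁻¹)) * e) := by
        rw [smul_mul', smul_mul', smul_inv', smul_inv_smul]; group
      have s2 := hc₀fix _ hz
      have s3 := hcfix _ hy'
      rw [smul_inv_smul] at s3
      have s4 : ∀ t : H, c₀⁻¹ * (e⁻¹ * t * e) * c₀ = (e * c₀)⁻¹ * t * (e * c₀) := by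
        intro t; group
      rw [s1, s2, s4, ← s3]
      congr 1; group
    calc 5 * (F a).ncard ≤ 5 * ((fun e => e * c₀) '' (B : Set H)).ncard :=
          Nat.mul_le_mul_left _ (Set.ncard_le_ncard hsub (Set.toFinite _))
      _ ≤ 5 * (B : Set H).ncard := Nat.mul_le_mul_left _ (Set.ncard_image_le (Set.toFinite _))
      _ = 5 * Nat.card B := rfl
      _ ≤ Nat.card S := hB5
  have hS : (S : Set H) ⊆ F c3 ∪ (F sw ∪ (F (c3 * sw) ∪ F (c3 * (c3 * sw)))) := by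
    intro c hc
    rcases hcover c hc with h | ⟨b, hb, hb1, h⟩
    · exact Or.inl h
    · rcases s3_invols b hb hb1 with rfl | rfl | rfl
      · exact Or.inr (Or.inl h)
      · exact Or.inr (Or.inr (Or.inl h))
      · exact Or.inr (Or.inr (Or.inr h))
  have h1 := hbound c3 (Or.inl rfl)
  have h2 := hbound sw (Or.inr ⟨sw_sq, sw_ne_one⟩)
  have h3 := hbound (c3 * sw) (Or.inr ⟨by decide, by decide⟩)
  have h4 := hbound (c3 * (c3 * sw)) (Or.inr ⟨by decide, by decide⟩)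
  have e5 : (S : Set H).ncard = Nat.card S := rfl
  have h5 : Nat.card S ≤ (F c3 ∪ (F sw ∪ (F (c3 * sw) ∪ F (c3 * (c3 * sw))))).ncard := by
    rw [← e5]
    exact Set.ncard_le_ncard hS (Set.toFinite _)
  have h6 := Set.ncard_union_le (F c3) (F sw ∪ (F (c3 * sw) ∪ F (c3 * (c3 * sw))))
  have h7 := Set.ncard_union_le (F sw) (F (c3 * sw) ∪ F (c3 * (c3 * sw)))
  have h8 := Set.ncard_union_le (F (c3 * sw)) (F (c3 * (c3 * sw)))
  have hpos : 0 < Nat.card S := Nat.card_pos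
  omega

/-- **Type II.** An invariant subgroup `S` normalising an invariant abelian subgroup `R` of
coprime order (prime to the characteristic) centralises it. -/
theorem typeII [IsAlgClosed K] [FiniteDimensional K V] (hθ : Function.Injective θ)
    (hcompat : ∀ a x, T a * θ x = θ (a • x) * T a) (hsum : ∑ a, T a = 0)
    (hcop : (Nat.card H).Coprime 6)
    (hfpf : ∀ x : H, (∀ a : Equiv.Perm (Fin 3), a • x = x) → x = 1) :
    ∀ (n : ℕ) (R S : Subgroup H), Nat.card R + Nat.card S ≤ n → (Nat.card R : K) ≠ 0 →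
      (Nat.card S).Coprime (Nat.card R) → (∀ a : Equiv.Perm (Fin 3), ∀ x ∈ R, a • x ∈ R) →
      (∀ a : Equiv.Perm (Fin 3), ∀ c ∈ S, a • c ∈ S) → (∀ c ∈ S, ∀ x ∈ R, c * x * c⁻¹ ∈ R) →
      (∀ x ∈ R, ∀ y ∈ R, x * y = y * x) → ∀ c ∈ S, ∀ x ∈ R, c * x = x * c := by
  intro n
  induction n with
  | zero =>
    intro R S hn
    have h1 : 0 < Nat.card R := Nat.card_pos
    omega
  | succ n ih =>
    intro R S hn hRK hcopRS hRA hSA hSR hRab
    by_contra hcon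
    push Not at hcon
    obtain ⟨c₁, hc₁, x₁, hx₁, hne₁⟩ := hcon
    obtain ⟨S₀, hS₀⟩ : ∃ S₀ : Subgroup H, ∀ c, c ∈ S₀ ↔ (c ∈ S ∧ ∀ x ∈ R, c * x = x * c) := by
      refine ⟨S ⊓ Subgroup.centralizer (R : Set H), fun c => ?_⟩
      rw [Subgroup.mem_inf, Subgroup.mem_centralizer_iff]
      constructor
      · rintro ⟨h1, h2⟩; exact ⟨h1, fun x hx => (h2 x hx).symm⟩
      · rintro ⟨h1, h2⟩; exact ⟨h1, fun x hx => (h2 x hx).symm⟩
    have hRpos : 0 < Nat.card R := Nat.card_pos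
    have hSpos : 0 < Nat.card S := Nat.card_pos
    have ctx : T2Ctx R S S₀ :=
      { hRA := hRA
        hSA := hSA
        hSR := hSR
        hRab := hRab
        hS₀ := hS₀
        m1 := by
          intro S₁ hS₁ hS₁ne hS₁A c hc
          have hlt : Nat.card S₁ < Nat.card S := by
            by_contra hge
            push Not at hge
            exact hS₁ne (Subgroup.eq_of_le_of_card_ge hS₁ hge)
          rw [hS₀]
          refine ⟨hS₁ hc, ?_⟩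
          exact ih R S₁ (by omega) hRK
            (Nat.Coprime.coprime_dvd_left (Subgroup.card_dvd_of_le hS₁) hcopRS) hRA hS₁A
            (fun c hc x hx => hSR c (hS₁ hc) x hx) hRab c hc
        m2 := by
          intro R₁ hR₁ hR₁ne hR₁A hR₁S
          have hlt : Nat.card R₁ < Nat.card R := by
            by_contra hge
            push Not at hge
            exact hR₁ne (Subgroup.eq_of_le_of_card_ge hR₁ hge)
          have hR₁K : (Nat.card R₁ : K) ≠ 0 := by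
            obtain ⟨k, hk⟩ := Subgroup.card_dvd_of_le hR₁
            intro h0
            apply hRK
            rw [hk, Nat.cast_mul, h0, zero_mul]
          exact ih R₁ S (by omega) hR₁K
            (Nat.Coprime.coprime_dvd_right (Subgroup.card_dvd_of_le hR₁) hcopRS) hR₁A hSA
            hR₁S (fun x hx y hy => hRab x (hR₁ hx) y (hR₁ hy))
        hne := by
          refine ⟨c₁, hc₁, fun h => ?_⟩
          rw [hS₀] at h
          exact hne₁ (h.2 x₁ hx₁)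
        hcopRS := hcopRS }
    apply hne₁
    have key : LinearMap.eqLocus (θ (c₁⁻¹ * x₁ * c₁)) (θ x₁) = ⊤ := by
      apply wt_induction θ R (Nat.card R) hRK (fun z hz => pow_card_of_mem R hz)
        (fun z hz z' hz' => by rw [← map_mul, ← map_mul, hRab z hz z' hz'])
      intro χ w hw
      by_cases hw0 : w = 0
      · rw [hw0]; exact Submodule.zero_mem _
      · rw [LinearMap.mem_eqLocus, hw _ (ctx.hSR' c₁ hc₁ x₁ hx₁), hw x₁ hx₁,
          t2_stable hcompat hsum hcop hfpf ctx χ w hw hw0 c₁ hc₁ x₁ hx₁]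
    have h2 : θ (c₁⁻¹ * x₁ * c₁) = θ x₁ := by
      apply LinearMap.ext
      intro v
      have hv : v ∈ LinearMap.eqLocus (θ (c₁⁻¹ * x₁ * c₁)) (θ x₁) := by
        rw [key]; exact Submodule.mem_top
      exact hv
    have h3 := hθ h2
    calc c₁ * x₁ = c₁ * (c₁⁻¹ * x₁ * c₁) := by rw [h3]
      _ = x₁ * c₁ := by group

end Main

end Cfsg.Agent.H66.S3L
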