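import Cfsg.Agent.H66.S3TypeI
import Cfsg.Agent.H66.S3TypeII
import Cfsg.Agent.H1.PCore
import Cfsg.Agent.H1.Fitting
import Cfsg.Agent.H11.Cores
import Cfsg.Agent.H14.Cores

/-!
# The linear theorem for fixed-point-free coprime actions of `S₃`

A solvable group `H` of order prime to `6` with `O_q(H) = 1`, acted on fixed-point-freely by
`S₃`, and acting faithfully on a module in characteristic `q` on which `S₃` acts compatibly
without fixed vectors, is abelian.
-/

set_option autoImplicit false
set_option linter.style.haveILetI false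
set_option linter.unusedVariables false
set_option linter.unusedSectionVars false

namespace Cfsg.Agent.H66.S3L

open Cfsg Module

universe v

/-- A characteristic subgroup is invariant under an action by automorphisms. -/
theorem inv_of_char {G : Type*} [Group G] {A : Type*} [Group A] [MulDistribMulAction A G]
    (N : Subgroup G) (hN : N.Characteristic) : ∀ a : A, ∀ x ∈ N, a • x ∈ N := by
  intro a x hx
  have h := hN.fixed (MulDistribMulAction.toMulAut A G a⁻¹)
  rw [← h]
  show a⁻¹ • (a • x) ∈ N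
  rw [inv_smul_smul]
  exact hx

theorem card_cast_ne_zero {K : Type*} [Field K] (q : ℕ) [Fact q.Prime] [CharP K q]
    {G : Type*} [Group G] (r : ℕ) [Fact r.Prime] (hrq : r ≠ q) (R : Subgroup G) [Finite R]
    (hR : IsPGroup r R) : (Nat.card R : K) ≠ 0 := by
  obtain ⟨k, hk⟩ := IsPGroup.iff_card.mp hR
  rw [hk, Nat.cast_pow]
  apply pow_ne_zero
  intro h
  have h1 : q ∣ r := (CharP.cast_eq_zero_iff K q r).mp h
  exact hrq ((Nat.prime_dvd_prime_iff_eq Fact.out Fact.out).mp h1).symm

/-- A subgroup containing a Sylow subgroup for every prime is everything. -/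
theorem eq_top_of_sylows {H : Type*} [Group H] [Finite H] (C : Subgroup H)
    (h : ∀ s : ℕ, s.Prime → ∃ P : Subgroup H,
      Nat.card P = s ^ (Nat.card H).factorization s ∧ P ≤ C) : C = ⊤ := by
  apply (Subgroup.card_eq_iff_eq_top C).mp
  apply Nat.dvd_antisymm (Subgroup.card_subgroup_dvd_card C)
  have hH : Nat.card H ≠ 0 := Nat.card_pos.ne'
  have hC : Nat.card C ≠ 0 := Nat.card_pos.ne'
  rw [← Nat.factorization_prime_le_iff_dvd hH hC]
  intro s hs
  obtain ⟨P, hP, hPC⟩ := h s hs
  rw [← hs.pow_dvd_iff_le_factorization hC, ← hP]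
  exact Subgroup.card_dvd_of_le hPC

section Global

variable {K : Type*} [Field K] [IsAlgClosed K] {V : Type v} [AddCommGroup V] [Module K V]
  [FiniteDimensional K V]
variable {H : Type*} [Group H] [MulDistribMulAction (Equiv.Perm (Fin 3)) H] [Finite H]
  [Group.IsSolvable H]
variable {θ : H →* Module.End K V} {T : Equiv.Perm (Fin 3) →* Module.End K V}

/-- An invariant `r`-subgroup of order prime to the characteristic is abelian. -/
theorem sub_abelian (hcompat : ∀ a x, T a * θ x = θ (a • x) * T a) (hsum : ∑ a, T a = 0)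
    (hθ : Function.Injective θ) (hcop : (Nat.card H).Coprime 6) (h3K : (3 : K) ≠ 0)
    (hfpf : ∀ x : H, (∀ a : Equiv.Perm (Fin 3), a • x = x) → x = 1)
    (r : ℕ) [Fact r.Prime] (R : Subgroup H) (hR : IsPGroup r R)
    (hRA : ∀ a : Equiv.Perm (Fin 3), ∀ x ∈ R, a • x ∈ R) (hRK : (Nat.card R : K) ≠ 0) :
    ∀ x ∈ R, ∀ y ∈ R, x * y = y * x := by
  letI : MulDistribMulAction (Equiv.Perm (Fin 3)) ↥R := subAct R hRA
  have hcopR : (Nat.card ↥R).Coprime 6 :=
    Nat.Coprime.coprime_dvd_left (Subgroup.card_subgroup_dvd_card R) hcop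
  have key := typeI (K := K) (E := ↥R) hcopR hR hRK h3K
    (fun x hx => Subtype.ext (hfpf x (fun a => congrArg Subtype.val (hx a))))
    (Module.finrank K V) V rfl (θ.comp R.subtype) T (fun a x => hcompat a x) hsum
  intro x hx y hy
  have h := key ⟨x, hx⟩ ⟨y, hy⟩
  apply hθ
  rw [map_mul, map_mul]
  exact h

set_option maxHeartbeats 1600000 in
/-- The linear theorem. -/
theorem global_comm (q : ℕ) [Fact q.Prime] [CharP K q] (h3K : (3 : K) ≠ 0)
    (hθ : Function.Injective θ) (hcompat : ∀ a x, T a * θ x = θ (a • x) * T a)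
    (hsum : ∑ a, T a = 0) (hcop : (Nat.card H).Coprime 6)
    (hfpf : ∀ x : H, (∀ a : Equiv.Perm (Fin 3), a • x = x) → x = 1)
    (hOq : Cfsg.pCore q H = ⊥) : ∀ x y : H, x * y = y * x := by
  classical
  have hcopA : (Nat.card (Equiv.Perm (Fin 3))).Coprime (Nat.card H) := by
    rw [card_s3]; exact hcop.symm
  have habel : ∀ (r : ℕ) [Fact r.Prime], r ≠ q → ∀ R : Subgroup H, IsPGroup r R →
      (∀ a : Equiv.Perm (Fin 3), ∀ x ∈ R, a • x ∈ R) → ∀ x ∈ R, ∀ y ∈ R, x * y = y * x := by
    intro r _ hrq R hR hRA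
    exact sub_abelian hcompat hsum hθ hcop h3K hfpf r R hR hRA (card_cast_ne_zero q r hrq R hR)
  have hcoreA : ∀ r : ℕ, ∀ a : Equiv.Perm (Fin 3), ∀ x ∈ Cfsg.pCore r H,
      a • x ∈ Cfsg.pCore r H := fun r => inv_of_char _ (H11.pCore_characteristic r)
  have hkey : ∀ s : ℕ, s.Prime → ∃ P : Subgroup H,
      Nat.card P = s ^ (Nat.card H).factorization s ∧
      P ≤ Subgroup.centralizer (Cfsg.fittingSubgroup H : Set H) := by
    intro s hs
    haveI : Fact s.Prime := ⟨hs⟩
    obtain ⟨P, hPcard, hPA⟩ :=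
      H1.MaxInv.exists_invariant_sylow_external hcopA (Or.inr inferInstance) s
    refine ⟨P, hPcard, ?_⟩
    have hPp : IsPGroup s P := IsPGroup.of_card hPcard
    intro c hc
    have hsub : Cfsg.fittingSubgroup H ≤ Subgroup.centralizer ({c} : Set H) := by
      rw [H1.fitting_eq_iSup_pCore]
      apply iSup_le
      intro r x hx
      haveI : Fact (r : ℕ).Prime := ⟨r.2⟩
      rw [Subgroup.mem_centralizer_iff]
      intro h hh
      rw [Set.mem_singleton_iff] at hh
      rw [hh]
      by_cases hrq : (r : ℕ) = q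
      · rw [hrq, hOq, Subgroup.mem_bot] at hx
        rw [hx, mul_one, one_mul]
      by_cases hrs : (r : ℕ) = s
      · have hle : Cfsg.pCore s H ≤ P := H1.pCore_le_sylow s (Sylow.ofCard P hPcard)
        rw [hrs] at hx
        exact habel s (fun h => hrq (hrs.trans h)) P hPp hPA _ hc _ (hle hx)
      · have hRp : IsPGroup (r : ℕ) (Cfsg.pCore (r : ℕ) H) := H14.pCore_isPGroup r H
        obtain ⟨k, hk⟩ := IsPGroup.iff_card.mp hRp
        have hcopRS : (Nat.card P).Coprime (Nat.card (Cfsg.pCore (r : ℕ) H)) := by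
          rw [hPcard, hk]
          exact Nat.Coprime.pow _ _ ((Nat.coprime_primes hs r.2).mpr (fun h => hrs h.symm))
        exact typeII hθ hcompat hsum hcop hfpf _ (Cfsg.pCore (r : ℕ) H) P le_rfl
          (card_cast_ne_zero q r hrq _ hRp) hcopRS (hcoreA r) hPA
          (fun c hc x hx => (H14.pCore_normal r H).conj_mem x hx c)
          (habel r hrq _ hRp (hcoreA r)) _ hc _ hx
    rw [Subgroup.mem_centralizer_iff]
    intro h hh
    have h1 := hsub hh
    rw [Subgroup.mem_centralizer_iff] at h1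
    exact (h1 c (Set.mem_singleton c)).symm
  have hC : Subgroup.centralizer (Cfsg.fittingSubgroup H : Set H) = ⊤ :=
    eq_top_of_sylows _ hkey
  have hF : Cfsg.fittingSubgroup H = ⊤ := by
    rw [eq_top_iff, ← hC]; exact H1.centralizer_fitting_le
  intro x y
  have hx : x ∈ Subgroup.centralizer (Cfsg.fittingSubgroup H : Set H) := by
    rw [hC]; exact Subgroup.mem_top x
  rw [Subgroup.mem_centralizer_iff] at hx
  exact (hx y (by rw [hF]; exact Subgroup.mem_top y)).symm

end Global

end Cfsg.Agent.H66.S3L
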