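import Cfsg.Agent.H66.S3Global
import Cfsg.Agent.H66.ZRep
import Cfsg.Agent.H66.HHLin

/-!
# Fixed-point-free coprime actions of `S₃` on solvable groups: the reduction

The induced action on quotients, the module `O_p / Φ(O_p)` with its `S₃`-action, base change to
the algebraic closure, and the conclusion `G' ≤ O_{q',q}(G)` for every prime `q`.
-/

set_option autoImplicit false
set_option linter.style.haveILetI false
set_option linter.unusedVariables false
set_option linter.unusedSectionVars false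

namespace Cfsg.Agent.H66.S3L

open Cfsg Module
open scoped commutatorElement TensorProduct

universe u

/-- The induced action on the quotient by an invariant normal subgroup. -/
@[reducible] def quotAct {A G : Type*} [Group A] [Group G] [MulDistribMulAction A G]
    (N : Subgroup G) [N.Normal] (hN : ∀ a : A, ∀ x ∈ N, a • x ∈ N) :
    MulDistribMulAction A (G ⧸ N) where
  smul a h := QuotientGroup.map N N (MulDistribMulAction.toMonoidHom G a) (fun x hx => hN a x hx) h
  one_smul := by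
    intro h
    obtain ⟨g, rfl⟩ := QuotientGroup.mk'_surjective N h
    show QuotientGroup.mk' N ((1 : A) • g) = QuotientGroup.mk' N g
    rw [one_smul]
  mul_smul := by
    intro a b h
    obtain ⟨g, rfl⟩ := QuotientGroup.mk'_surjective N h
    show QuotientGroup.mk' N ((a * b) • g) = QuotientGroup.mk' N (a • b • g)
    rw [mul_smul]
  smul_mul := by
    intro a x y
    exact map_mul (QuotientGroup.map N N (MulDistribMulAction.toMonoidHom G a)
      (fun x hx => hN a x hx)) x y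
  smul_one := by
    intro a
    exact map_one (QuotientGroup.map N N (MulDistribMulAction.toMonoidHom G a)
      (fun x hx => hN a x hx))

/-- Coprime lifting: an element fixed modulo an invariant normal subgroup lies in it. -/
theorem quot_fpf {A G : Type*} [Group A] [Group G] [MulDistribMulAction A G] [Finite G] [Finite A]
    [Group.IsSolvable G] (hcop : (Nat.card A).Coprime (Nat.card G))
    (hfpf : ∀ x : G, (∀ a : A, a • x = x) → x = 1) (N : Subgroup G) [hNn : N.Normal]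
    (hN : ∀ a : A, ∀ x ∈ N, a • x ∈ N) (g : G) (hg : ∀ a : A, g⁻¹ * a • g ∈ N) : g ∈ N := by
  obtain ⟨n, hn, hfix⟩ := cl_ext hcop ⊤ N le_top (fun m _ n hn => hNn.conj_mem n hn m) hN g
    (Subgroup.mem_top g) hg
  have h1 := hfpf _ hfix
  have h2 : g = n⁻¹ := eq_inv_of_mul_eq_one_left h1
  rw [h2]; exact N.inv_mem hn

theorem quot_fpf' {A G : Type*} [Group A] [Group G] [MulDistribMulAction A G] [Finite G]
    [Finite A] [Group.IsSolvable G] (hcop : (Nat.card A).Coprime (Nat.card G))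
    (hfpf : ∀ x : G, (∀ a : A, a • x = x) → x = 1) (N : Subgroup G) [hNn : N.Normal]
    (hN : ∀ a : A, ∀ x ∈ N, a • x ∈ N) (g : G)
    (hg : ∀ a : A, QuotientGroup.mk' N (a • g) = QuotientGroup.mk' N g) :
    QuotientGroup.mk' N g = 1 := by
  apply (QuotientGroup.eq_one_iff g).mpr
  apply quot_fpf hcop hfpf N hN g
  intro a
  have h2 : (a • g)⁻¹ * g ∈ N := QuotientGroup.eq.mp (hg a)
  have := N.inv_mem h2
  rwa [mul_inv_rev, inv_inv] at this

set_option maxHeartbeats 3200000 in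
theorem s3_quot_pCore_comm {Γ : Type u} [Group Γ] [Finite Γ] {p : ℕ} [Fact p.Prime]
    [MulDistribMulAction (Equiv.Perm (Fin 3)) Γ] [Group.IsSolvable Γ]
    (hcop : (Nat.card Γ).Coprime 6) (hp6 : ¬ p ∣ 6)
    (hfpf : ∀ g : Γ, (∀ a : Equiv.Perm (Fin 3), a • g = g) → g = 1)
    (hO : pPrimeCore p Γ = ⊥) : ∀ a b : Γ, a * b * a⁻¹ * b⁻¹ ∈ pCore p Γ := by
  classical
  have hp : p.Prime := Fact.out
  have hcopA : (Nat.card (Equiv.Perm (Fin 3))).Coprime (Nat.card Γ) := by
    rw [card_s3]; exact hcop.symm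
  have hsol : IsPSolvable p Γ := H80.isPSolvable_of_isSolvable p (Nat.card Γ) Γ rfl
  obtain ⟨P₁, hP₁⟩ : ∃ P₁ : Subgroup Γ, P₁ = pCore p Γ := ⟨_, rfl⟩
  rw [← hP₁]
  haveI hP₁n : P₁.Normal := by rw [hP₁]; infer_instance
  have hP₁p : IsPGroup p P₁ := by rw [hP₁]; exact H14.pCore_isPGroup p Γ
  have hP₁char : P₁.Characteristic := by rw [hP₁]; exact H11.pCore_characteristic p
  have hP₁A : ∀ a : Equiv.Perm (Fin 3), ∀ x ∈ P₁, a • x ∈ P₁ := inv_of_char P₁ hP₁char
  obtain ⟨Φ, hΦ⟩ : ∃ Φ : Subgroup Γ, Φ = (frattini ↥P₁).map P₁.subtype := ⟨_, rfl⟩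
  haveI hΦn : Φ.Normal := by
    rw [hΦ]
    apply Subgroup.normalizer_eq_top_iff.mp
    rw [eq_top_iff]
    refine le_trans ?_ (H1.normalizer_le_normalizer_map_of_characteristic P₁ (frattini ↥P₁))
    rw [Subgroup.normalizer_eq_top_iff.mpr hP₁n]
  have hΦA : ∀ a : Equiv.Perm (Fin 3), ∀ x ∈ Φ, a • x ∈ Φ := by
    intro a x hx
    letI : MulDistribMulAction (Equiv.Perm (Fin 3)) ↥P₁ := subAct P₁ hP₁A
    rw [hΦ] at hx ⊢
    obtain ⟨y, hy, rfl⟩ := hx
    refine ⟨a • y, ?_, rfl⟩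
    exact inv_of_char (frattini ↥P₁) (frattini_characteristic (G := ↥P₁)) a y hy
  obtain ⟨V, iV1, iV2, θ, ι, hθinj, hιsurj, hιmul, hιzpow, hιconj, hιeq, hVp⟩ :=
    exists_faithful_zmod_rep hsol hO P₁ hP₁ Φ hΦ
  have hι1 : ι 1 = 0 := by
    have := hιzpow 1 P₁.one_mem 0
    rwa [zpow_zero, zero_smul] at this
  -- the action on the quotient
  letI iQ : MulDistribMulAction (Equiv.Perm (Fin 3)) (Γ ⧸ P₁) := quotAct P₁ hP₁A
  have hQmk : ∀ (a : Equiv.Perm (Fin 3)) (g : Γ),
      a • (QuotientGroup.mk' P₁ g) = QuotientGroup.mk' P₁ (a • g) := fun a g => rfl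
  have hQfpf : ∀ h : Γ ⧸ P₁, (∀ a : Equiv.Perm (Fin 3), a • h = h) → h = 1 := by
    intro h hh
    obtain ⟨g, rfl⟩ := QuotientGroup.mk'_surjective P₁ h
    exact quot_fpf' hcopA hfpf P₁ hP₁A g (fun a => hh a)
  -- the operators on `V`
  have hιwd : ∀ a : Equiv.Perm (Fin 3), ∀ u ∈ P₁, ∀ u' ∈ P₁, ι u = ι u' →
      ι (a • u) = ι (a • u') := by
    intro a u hu u' hu' h
    rw [hιeq _ (hP₁A a u hu) _ (hP₁A a u' hu')]
    have h1 := (hιeq u hu u' hu').mp h
    have h2 : u⁻¹ * u' ∈ Φ := QuotientGroup.eq.mp h1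
    have h3 := hΦA a _ h2
    rw [smul_mul', smul_inv'] at h3
    exact QuotientGroup.eq.mpr h3
  obtain ⟨S₀, hS₀⟩ : ∃ S₀ : Equiv.Perm (Fin 3) → V → V,
      ∀ a, ∀ u ∈ P₁, S₀ a (ι u) = ι (a • u) := by
    refine ⟨fun a v => ι (a • (Classical.choose (hιsurj v))), ?_⟩
    intro a u hu
    have h1 := Classical.choose_spec (hιsurj (ι u))
    exact hιwd a _ h1.1 _ hu h1.2
  have hS₀add : ∀ a v w, S₀ a (v + w) = S₀ a v + S₀ a w := by
    intro a v w
    obtain ⟨u, hu, rfl⟩ := hιsurj v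
    obtain ⟨u', hu', rfl⟩ := hιsurj w
    rw [← hιmul u hu u' hu', hS₀ a _ (P₁.mul_mem hu hu'), hS₀ a u hu, hS₀ a u' hu', smul_mul',
      hιmul _ (hP₁A a u hu) _ (hP₁A a u' hu')]
  obtain ⟨S, hS⟩ : ∃ S : Equiv.Perm (Fin 3) → Module.End (ZMod p) V, ∀ a v, S a v = S₀ a v :=
    ⟨fun a => (AddMonoidHom.mk' (S₀ a) (hS₀add a)).toZModLinearMap p, fun a v => rfl⟩
  have hSι : ∀ a, ∀ u ∈ P₁, S a (ι u) = ι (a • u) := fun a u hu => by rw [hS, hS₀ a u hu]
  obtain ⟨T, hT⟩ : ∃ T : Equiv.Perm (Fin 3) →* Module.End (ZMod p) V, ∀ a, T a = S a := by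
    refine ⟨{ toFun := S, map_one' := ?_, map_mul' := ?_ }, fun a => rfl⟩
    · apply LinearMap.ext
      intro v
      obtain ⟨u, hu, rfl⟩ := hιsurj v
      rw [hSι 1 u hu, one_smul]; rfl
    · intro a b
      apply LinearMap.ext
      intro v
      obtain ⟨u, hu, rfl⟩ := hιsurj v
      rw [Module.End.mul_apply, hSι b u hu, hSι a _ (hP₁A b u hu), hSι (a * b) u hu, mul_smul]
  have hTι : ∀ a, ∀ u ∈ P₁, T a (ι u) = ι (a • u) := fun a u hu => by rw [hT, hSι a u hu]
  have hTfix : ∀ v, (∀ a, T a v = v) → v = 0 := by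
    intro v hv
    obtain ⟨u, hu, rfl⟩ := hιsurj v
    have h4 : u ∈ Φ := by
      apply quot_fpf hcopA hfpf Φ hΦA u
      intro a
      have h0 := hv a
      rw [hTι a u hu] at h0
      have h1 := (hιeq _ (hP₁A a u hu) u hu).mp h0
      have h2 : (a • u)⁻¹ * u ∈ Φ := QuotientGroup.eq.mp h1
      have := Φ.inv_mem h2
      rwa [mul_inv_rev, inv_inv] at this
    rw [← hι1]
    apply (hιeq u hu 1 P₁.one_mem).mpr
    rw [map_one]
    exact (QuotientGroup.eq_one_iff u).mpr h4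
  have hTsum : ∑ a, T a = 0 := by
    apply LinearMap.ext
    intro v
    rw [LinearMap.zero_apply]
    apply hTfix
    intro b
    rw [LinearMap.sum_apply, map_sum, ← Equiv.sum_comp (Equiv.mulLeft b) (fun a => T a v)]
    apply Finset.sum_congr rfl
    intro a _
    show T b (T a v) = T (b * a) v
    rw [map_mul]; rfl
  have hTθ : ∀ a (h : Γ ⧸ P₁), T a * θ h = θ (a • h) * T a := by
    intro a h
    apply LinearMap.ext
    intro v
    obtain ⟨g, rfl⟩ := QuotientGroup.mk'_surjective P₁ h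
    obtain ⟨u, hu, rfl⟩ := hιsurj v
    rw [Module.End.mul_apply, Module.End.mul_apply, hιconj g u hu,
      hTι a _ (hP₁n.conj_mem u hu g), hQmk, hTι a u hu, hιconj _ _ (hP₁A a u hu), smul_mul',
      smul_mul', smul_inv']
  -- base change to the algebraic closure
  haveI : Finite V := Finite.of_surjective (fun u : ↥P₁ => ι u) (fun v => by
    obtain ⟨u, hu, rfl⟩ := hιsurj v
    exact ⟨⟨u, hu⟩, rfl⟩)
  haveI : Module.Finite (ZMod p) V := Module.Finite.of_finite
  obtain ⟨θK, hθK⟩ : ∃ θK : (Γ ⧸ P₁) →*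
      Module.End (AlgebraicClosure (ZMod p)) (AlgebraicClosure (ZMod p) ⊗[ZMod p] V),
      ∀ h, θK h = Module.End.baseChangeHom (ZMod p) (AlgebraicClosure (ZMod p)) V (θ h) :=
    ⟨((Module.End.baseChangeHom (ZMod p) (AlgebraicClosure (ZMod p)) V :
        Module.End (ZMod p) V →ₐ[ZMod p]
          Module.End (AlgebraicClosure (ZMod p)) (AlgebraicClosure (ZMod p) ⊗[ZMod p] V)) :
        Module.End (ZMod p) V →*
          Module.End (AlgebraicClosure (ZMod p)) (AlgebraicClosure (ZMod p) ⊗[ZMod p] V)).comp θ,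
      fun h => rfl⟩
  obtain ⟨TK, hTK⟩ : ∃ TK : Equiv.Perm (Fin 3) →*
      Module.End (AlgebraicClosure (ZMod p)) (AlgebraicClosure (ZMod p) ⊗[ZMod p] V),
      ∀ a, TK a = Module.End.baseChangeHom (ZMod p) (AlgebraicClosure (ZMod p)) V (T a) :=
    ⟨((Module.End.baseChangeHom (ZMod p) (AlgebraicClosure (ZMod p)) V :
        Module.End (ZMod p) V →ₐ[ZMod p]
          Module.End (AlgebraicClosure (ZMod p)) (AlgebraicClosure (ZMod p) ⊗[ZMod p] V)) :
        Module.End (ZMod p) V →*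
          Module.End (AlgebraicClosure (ZMod p)) (AlgebraicClosure (ZMod p) ⊗[ZMod p] V)).comp T,
      fun a => rfl⟩
  have hθKinj : Function.Injective θK := by
    intro x y hxy
    rw [hθK, hθK] at hxy
    exact hθinj (LinearMap.baseChangeHom_injective (ZMod p) V (AlgebraicClosure (ZMod p)) hxy)
  have hcompK : ∀ a h, TK a * θK h = θK (a • h) * TK a := by
    intro a h
    rw [hTK, hθK, hθK, ← map_mul, ← map_mul, hTθ]
  have hsumK : ∑ a, TK a = 0 := by
    rw [Finset.sum_congr rfl (fun a _ => hTK a), ← map_sum, hTsum, map_zero]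
  have h3K : (3 : AlgebraicClosure (ZMod p)) ≠ 0 := by
    intro h
    have h1 : ((3 : ℕ) : AlgebraicClosure (ZMod p)) = 0 := by exact_mod_cast h
    have h2 : p ∣ 3 := (CharP.cast_eq_zero_iff (AlgebraicClosure (ZMod p)) p 3).mp h1
    exact hp6 (h2.trans (by norm_num))
  have hcopQ : (Nat.card (Γ ⧸ P₁)).Coprime 6 :=
    Nat.Coprime.coprime_dvd_left (Subgroup.card_quotient_dvd_card P₁) hcop
  have hOpH : pCore p (Γ ⧸ P₁) = ⊥ := by
    subst hP₁
    exact pCore_quotient_pCore_bot p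
  have hab : ∀ x y : Γ ⧸ P₁, x * y = y * x :=
    global_comm (K := AlgebraicClosure (ZMod p)) p h3K hθKinj hcompK hsumK hcopQ hQfpf hOpH
  intro a b
  apply (QuotientGroup.eq_one_iff (N := P₁) _).mp
  show QuotientGroup.mk' P₁ (a * b * a⁻¹ * b⁻¹) = 1
  rw [map_mul, map_mul, map_mul, map_inv, map_inv, hab (QuotientGroup.mk' P₁ a),
    mul_inv_cancel_right, mul_inv_cancel]

theorem s3_commutator_le {G : Type u} [Group G] [Finite G] [Group.IsSolvable G]
    [MulDistribMulAction (Equiv.Perm (Fin 3)) G] (hcop : (Nat.card G).Coprime 6)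
    (hfpf : ∀ g : G, (∀ a : Equiv.Perm (Fin 3), a • g = g) → g = 1) {q : ℕ} [Fact q.Prime]
    (hq6 : ¬ q ∣ 6) : commutator G ≤ pPrimePCore q G := by
  have hcopA : (Nat.card (Equiv.Perm (Fin 3))).Coprime (Nat.card G) := by
    rw [card_s3]; exact hcop.symm
  have hNchar : (pPrimeCore q G).Characteristic := H11.pPrimeCore_characteristic q
  have hNA : ∀ a : Equiv.Perm (Fin 3), ∀ x ∈ pPrimeCore q G, a • x ∈ pPrimeCore q G :=
    inv_of_char (pPrimeCore q G) hNchar
  letI iQ : MulDistribMulAction (Equiv.Perm (Fin 3)) (G ⧸ pPrimeCore q G) :=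
    quotAct (pPrimeCore q G) hNA
  have hQfpf : ∀ h : G ⧸ pPrimeCore q G, (∀ a : Equiv.Perm (Fin 3), a • h = h) → h = 1 := by
    intro h hh
    obtain ⟨g, rfl⟩ := QuotientGroup.mk'_surjective (pPrimeCore q G) h
    exact quot_fpf' hcopA hfpf (pPrimeCore q G) hNA g (fun a => hh a)
  have hcopQ : (Nat.card (G ⧸ pPrimeCore q G)).Coprime 6 :=
    Nat.Coprime.coprime_dvd_left (Subgroup.card_quotient_dvd_card _) hcop
  have key := s3_quot_pCore_comm hcopQ hq6 hQfpf (H14.pPrimeCore_quotient_eq_bot q G)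
  rw [commutator_def, Subgroup.commutator_le]
  intro g₁ _ g₂ _
  show QuotientGroup.mk' (pPrimeCore q G) ⁅g₁, g₂⁆ ∈ pCore q (G ⧸ pPrimeCore q G)
  rw [commutatorElement_def, map_mul, map_mul, map_mul, map_inv, map_inv]
  exact key _ _

end Cfsg.Agent.H66.S3L
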