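import Cfsg.Agent.H66.S3Base

/-!
# A group-theoretic lemma for the orbit of length three

`o3_comm`: a finite subgroup `E` normalised by `P` (order 3) and `Q` (order 2, inverting `P`)
without common fixed points, with a normal subgroup `K₁` containing all `X⁻¹ (Q X Q⁻¹)` and such
that the three `P`-conjugates of `K₁` intersect trivially, is abelian.
-/

set_option autoImplicit false
set_option linter.style.haveILetI false
set_option linter.unusedVariables false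
set_option linter.unusedSectionVars false

namespace Cfsg.Agent.H66.S3L

open Cfsg
open scoped commutatorElement

section O3

variable {𝔾 : Type*} [Group 𝔾]

theorem comm_of_closure (S : Set 𝔾) (hS : ∀ a ∈ S, ∀ b ∈ S, a * b = b * a) :
    ∀ x ∈ Subgroup.closure S, ∀ y ∈ Subgroup.closure S, x * y = y * x := by
  have h1 : Subgroup.closure S ≤ Subgroup.centralizer S := by
    rw [Subgroup.closure_le]
    intro a ha
    rw [SetLike.mem_coe, Subgroup.mem_centralizer_iff]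
    intro b hb
    exact hS b hb a ha
  intro x hx y hy
  have h2 : Subgroup.closure S ≤ Subgroup.centralizer {x} := by
    rw [Subgroup.closure_le]
    intro a ha
    rw [SetLike.mem_coe, Subgroup.mem_centralizer_iff]
    intro b hb
    rw [Set.mem_singleton_iff] at hb
    rw [hb]
    have := Subgroup.mem_centralizer_iff.mp (h1 hx) a ha
    exact this.symm
  exact Subgroup.mem_centralizer_iff.mp (h2 hy) x rfl

set_option maxHeartbeats 1600000 in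
theorem o3_comm (E K₁ : Subgroup 𝔾) [Finite E] (P Q : 𝔾) (hP3 : P * P * P = 1)
    (hQ2 : Q * Q = 1) (hQP : Q * P = P⁻¹ * Q)
    (hEP : ∀ X ∈ E, P * X * P⁻¹ ∈ E)
    (hfix : ∀ X ∈ E, P * X * P⁻¹ = X → Q * X * Q⁻¹ = X → X = 1)
    (hK₁E : K₁ ≤ E) (hK₁n : ∀ X ∈ E, ∀ k ∈ K₁, X * k * X⁻¹ ∈ K₁)
    (hQK : ∀ X ∈ E, X⁻¹ * (Q * X * Q⁻¹) ∈ K₁)
    (hint : ∀ k ∈ K₁, P⁻¹ * k * P ∈ K₁ → P * k * P⁻¹ ∈ K₁ → k = 1) :
    ∀ X ∈ E, ∀ Y ∈ E, X * Y = Y * X := by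
  have hPinv : P⁻¹ = P * P := by
    apply inv_eq_of_mul_eq_one_right
    rw [← mul_assoc]; exact hP3
  have hPQ : P * Q = Q * P⁻¹ := by
    have : P * Q = P * (Q * P) * P⁻¹ := by group
    rw [this, hQP]; group
  have hPiQ : P⁻¹ * Q = Q * P := hQP.symm
  have conjPQ : ∀ X : 𝔾, P * (Q * X * Q⁻¹) * P⁻¹ = Q * (P⁻¹ * X * P) * Q⁻¹ := by
    intro X
    have e : P * (Q * X * Q⁻¹) * P⁻¹ = (P * Q) * X * (P * Q)⁻¹ := by group
    rw [e, hPQ]; group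
  have conjPiQ : ∀ X : 𝔾, P⁻¹ * (Q * X * Q⁻¹) * P = Q * (P * X * P⁻¹) * Q⁻¹ := by
    intro X
    have e : P⁻¹ * (Q * X * Q⁻¹) * P = (P⁻¹ * Q) * X * (P⁻¹ * Q)⁻¹ := by group
    rw [e, hPiQ]; group
  have hPi2 : ∀ X : 𝔾, P⁻¹ * X * P = P * (P * X * P⁻¹) * P⁻¹ := by
    intro X
    have e : P * (P * X * P⁻¹) * P⁻¹ = (P * P) * X * (P * P)⁻¹ := by group
    rw [e, ← hPinv]; group
  have hP2i : ∀ X : 𝔾, P⁻¹ * (P⁻¹ * X * P) * P = P * X * P⁻¹ := by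
    intro X
    have e : P⁻¹ * (P⁻¹ * X * P) * P = (P * P)⁻¹ * X * (P * P) := by group
    rw [e, ← hPinv]; group
  have hEPi : ∀ X ∈ E, P⁻¹ * X * P ∈ E := by
    intro X hX
    rw [hPi2]; exact hEP _ (hEP X hX)
  have hEQ : ∀ X ∈ E, Q * X * Q⁻¹ ∈ E := by
    intro X hX
    have e : Q * X * Q⁻¹ = X * (X⁻¹ * (Q * X * Q⁻¹)) := by group
    rw [e]; exact E.mul_mem hX (hK₁E (hQK X hX))
  -- S1 : `P` has no fixed points on `E`
  have S1 : ∀ X ∈ E, P * X * P⁻¹ = X → X = 1 := by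
    intro X hX hPX
    have hPiX : P⁻¹ * X * P = X := by
      nth_rewrite 1 [← hPX]; group
    have ha : X⁻¹ * (Q * X * Q⁻¹) ∈ K₁ := hQK X hX
    have hPa : P * (X⁻¹ * (Q * X * Q⁻¹)) * P⁻¹ = X⁻¹ * (Q * X * Q⁻¹) := by
      have e : P * (X⁻¹ * (Q * X * Q⁻¹)) * P⁻¹ = (P * X * P⁻¹)⁻¹ * (P * (Q * X * Q⁻¹) * P⁻¹) := by
        group
      rw [e, hPX, conjPQ, hPiX]
    have hPia : P⁻¹ * (X⁻¹ * (Q * X * Q⁻¹)) * P = X⁻¹ * (Q * X * Q⁻¹) := by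
      nth_rewrite 1 [← hPa]; group
    have h1 := hint _ ha (by rw [hPia]; exact ha) (by rw [hPa]; exact ha)
    apply hfix X hX hPX
    have e : Q * X * Q⁻¹ = X * (X⁻¹ * (Q * X * Q⁻¹)) := by group
    rw [e, h1, mul_one]
  -- S2
  have S2 : ∀ X ∈ E, X * (P * X * P⁻¹) * (P * (P * X * P⁻¹) * P⁻¹) = 1 := by
    intro X hX
    obtain ⟨Y, hY, rfl⟩ := exists_inv_mul_map (MulAut.conj P) E (fun x hx => hEP x hx)
      (fun g hg h => S1 g hg h) X hX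
    simp only [MulAut.conj_apply]
    have e : Y⁻¹ * (P * Y * P⁻¹) * (P * (Y⁻¹ * (P * Y * P⁻¹)) * P⁻¹) *
        (P * (P * (Y⁻¹ * (P * Y * P⁻¹)) * P⁻¹) * P⁻¹) =
        Y⁻¹ * (P * P * P) * Y * (P * P * P)⁻¹ := by group
    rw [e, hP3]; group
  have S2' : ∀ X ∈ E, X * (P * (P * X * P⁻¹) * P⁻¹) * (P * X * P⁻¹) = 1 := by
    intro X hX
    have h := S2 X⁻¹ (E.inv_mem hX)
    have e : X * (P * (P * X * P⁻¹) * P⁻¹) * (P * X * P⁻¹) =
        X * (X⁻¹ * (P * X⁻¹ * P⁻¹) * (P * (P * X⁻¹ * P⁻¹) * P⁻¹))⁻¹ * X⁻¹ := by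
      simp only [mul_inv_rev, inv_inv, mul_assoc, inv_mul_cancel_left, mul_inv_cancel_left,
        mul_inv_cancel, mul_one]
    rw [e, h]; group
  -- S3 : `Q` inverts `K₁`
  have hQK₁ : ∀ k ∈ K₁, Q * k * Q⁻¹ ∈ K₁ := by
    intro k hk
    have e : Q * k * Q⁻¹ = k * (k⁻¹ * (Q * k * Q⁻¹)) := by group
    rw [e]; exact K₁.mul_mem hk (hQK k (hK₁E hk))
  have S3 : ∀ k ∈ K₁, Q * k * Q⁻¹ = k⁻¹ := by
    intro k hk
    have hkE := hK₁E hk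
    have hw : k * (Q * k * Q⁻¹) ∈ K₁ := K₁.mul_mem hk (hQK₁ k hk)
    have hAE : P * k * P⁻¹ ∈ E := hEP k hkE
    have hBE : P⁻¹ * k * P ∈ E := hEPi k hkE
    have h1 : P⁻¹ * (k * (Q * k * Q⁻¹)) * P ∈ K₁ := by
      have e : P⁻¹ * (k * (Q * k * Q⁻¹)) * P =
          (P⁻¹ * k * P) * (P * k * P⁻¹) *
            ((P * k * P⁻¹)⁻¹ * (P⁻¹ * (Q * k * Q⁻¹) * P)) := by group
      rw [e, conjPiQ]
      have h2 := S2' k hkE
      rw [← hPi2] at h2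
      have h3 : (P⁻¹ * k * P) * (P * k * P⁻¹) = k⁻¹ := by
        have : (P⁻¹ * k * P) * (P * k * P⁻¹) = k⁻¹ * (k * (P⁻¹ * k * P) * (P * k * P⁻¹)) := by
          group
        rw [this, h2, mul_one]
      rw [h3]
      exact K₁.mul_mem (K₁.inv_mem hk) (hQK _ hAE)
    have h2 : P * (k * (Q * k * Q⁻¹)) * P⁻¹ ∈ K₁ := by
      have e : P * (k * (Q * k * Q⁻¹)) * P⁻¹ =
          (P * k * P⁻¹) * (P⁻¹ * k * P) *
            ((P⁻¹ * k * P)⁻¹ * (P * (Q * k * Q⁻¹) * P⁻¹)) := by group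
      rw [e, conjPQ]
      have h2 := S2 k hkE
      rw [← hPi2] at h2
      have h3 : (P * k * P⁻¹) * (P⁻¹ * k * P) = k⁻¹ := by
        have : (P * k * P⁻¹) * (P⁻¹ * k * P) = k⁻¹ * (k * (P * k * P⁻¹) * (P⁻¹ * k * P)) := by
          group
        rw [this, h2, mul_one]
      rw [h3]
      exact K₁.mul_mem (K₁.inv_mem hk) (hQK _ hBE)
    have h3 := hint _ hw h1 h2
    exact eq_inv_of_mul_eq_one_right h3
  -- S4 : `K₁` is abelian
  have S4 : ∀ k ∈ K₁, ∀ k' ∈ K₁, k * k' = k' * k := by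
    intro k hk k' hk'
    have h1 := S3 (k * k') (K₁.mul_mem hk hk')
    have e : Q * (k * k') * Q⁻¹ = (Q * k * Q⁻¹) * (Q * k' * Q⁻¹) := by group
    rw [e, S3 k hk, S3 k' hk'] at h1
    have h2 := congrArg (fun t => t⁻¹) h1
    simp only [mul_inv_rev, inv_inv] at h2
    exact h2.symm
  -- S5 : `K₁ ∩ P K₁ P⁻¹ = 1`
  have S5 : ∀ k ∈ K₁, P⁻¹ * k * P ∈ K₁ → k = 1 := by
    intro k hk hk2
    have h1 := S3 _ hk2
    have h2 : Q * (P⁻¹ * k * P) * Q⁻¹ = P * k⁻¹ * P⁻¹ := by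
      rw [← conjPQ, S3 k hk]
    rw [h2] at h1
    -- h1 : P * k⁻¹ * P⁻¹ = (P⁻¹ * k * P)⁻¹
    have h3 : P * (P * k⁻¹ * P⁻¹) * P⁻¹ = P * k⁻¹ * P⁻¹ := by
      rw [← hPi2, h1]; group
    have h4 := S1 _ (hEP _ (E.inv_mem (hK₁E hk))) h3
    have h5 : k⁻¹ = 1 := by
      have : k⁻¹ = P⁻¹ * (P * k⁻¹ * P⁻¹) * P := by group
      rw [this, h4]; group
    exact inv_eq_one.mp h5
  -- B : `K₁` and `P K₁ P⁻¹` commute
  have SB : ∀ k ∈ K₁, ∀ k' ∈ K₁, k * (P * k' * P⁻¹) = (P * k' * P⁻¹) * k := by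
    intro k hk k' hk'
    have hlE : P * k' * P⁻¹ ∈ E := hEP _ (hK₁E hk')
    have hc1 : k * ((P * k' * P⁻¹) * k⁻¹ * (P * k' * P⁻¹)⁻¹) ∈ K₁ :=
      K₁.mul_mem hk (hK₁n _ hlE _ (K₁.inv_mem hk))
    have hc2 : P⁻¹ * (k * ((P * k' * P⁻¹) * k⁻¹ * (P * k' * P⁻¹)⁻¹)) * P ∈ K₁ := by
      have e : P⁻¹ * (k * ((P * k' * P⁻¹) * k⁻¹ * (P * k' * P⁻¹)⁻¹)) * P =
          ((P⁻¹ * k * P) * k' * (P⁻¹ * k * P)⁻¹) * k'⁻¹ := by group
      rw [e]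
      exact K₁.mul_mem (hK₁n _ (hEPi _ (hK₁E hk)) _ hk') (K₁.inv_mem hk')
    have h1 := S5 _ hc1 hc2
    have e : k * (P * k' * P⁻¹) =
        (k * ((P * k' * P⁻¹) * k⁻¹ * (P * k' * P⁻¹)⁻¹)) * ((P * k' * P⁻¹) * k) := by group
    rw [e, h1, one_mul]
  -- the subgroup generated by the three conjugates
  obtain ⟨S, hSdef⟩ : ∃ S : Set 𝔾, S = {s | ∃ k ∈ K₁, s = k ∨ s = P * k * P⁻¹ ∨ s = P⁻¹ * k * P} :=
    ⟨_, rfl⟩
  have hSE : S ⊆ (E : Set 𝔾) := by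
    intro s hs
    rw [hSdef] at hs
    obtain ⟨k, hk, h | h | h⟩ := hs
    · rw [h]; exact hK₁E hk
    · rw [h]; exact hEP _ (hK₁E hk)
    · rw [h]; exact hEPi _ (hK₁E hk)
  have hScomm : ∀ a ∈ S, ∀ b ∈ S, a * b = b * a := by
    intro a ha b hb
    rw [hSdef] at ha hb
    obtain ⟨k, hk, h | h | h⟩ := ha <;> obtain ⟨k', hk', h' | h' | h'⟩ := hb <;> rw [h, h']
    · exact S4 k hk k' hk'
    · exact SB k hk k' hk'
    · -- k * (P⁻¹ k' P) = P⁻¹ ((P k P⁻¹) * k') P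
      have e1 : k * (P⁻¹ * k' * P) = P⁻¹ * ((P * k * P⁻¹) * k') * P := by group
      have e2 : (P⁻¹ * k' * P) * k = P⁻¹ * (k' * (P * k * P⁻¹)) * P := by group
      rw [e1, e2, SB k' hk' k hk]
    · exact (SB k' hk' k hk).symm
    · have e1 : (P * k * P⁻¹) * (P * k' * P⁻¹) = P * (k * k') * P⁻¹ := by group
      have e2 : (P * k' * P⁻¹) * (P * k * P⁻¹) = P * (k' * k) * P⁻¹ := by group
      rw [e1, e2, S4 k hk k' hk']
    · -- (P k P⁻¹) (P⁻¹ k' P) = P⁻¹ (P (P k P⁻¹) P⁻¹ ... ) use P⁻¹ k' P = P (P k' P⁻¹) P⁻¹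
      rw [hPi2 k']
      have e1 : (P * k * P⁻¹) * (P * (P * k' * P⁻¹) * P⁻¹) = P * (k * (P * k' * P⁻¹)) * P⁻¹ := by
        group
      have e2 : (P * (P * k' * P⁻¹) * P⁻¹) * (P * k * P⁻¹) = P * ((P * k' * P⁻¹) * k) * P⁻¹ := by
        group
      rw [e1, e2, SB k hk k' hk']
    · have e1 : (P⁻¹ * k * P) * k' = P⁻¹ * (k * (P * k' * P⁻¹)) * P := by group
      have e2 : k' * (P⁻¹ * k * P) = P⁻¹ * ((P * k' * P⁻¹) * k) * P := by group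
      rw [e1, e2, SB k hk k' hk']
    · rw [hPi2 k]
      have e1 : (P * (P * k * P⁻¹) * P⁻¹) * (P * k' * P⁻¹) = P * ((P * k * P⁻¹) * k') * P⁻¹ := by
        group
      have e2 : (P * k' * P⁻¹) * (P * (P * k * P⁻¹) * P⁻¹) = P * (k' * (P * k * P⁻¹)) * P⁻¹ := by
        group
      rw [e1, e2, SB k' hk' k hk]
    · have e1 : (P⁻¹ * k * P) * (P⁻¹ * k' * P) = P⁻¹ * (k * k') * P := by group
      have e2 : (P⁻¹ * k' * P) * (P⁻¹ * k * P) = P⁻¹ * (k' * k) * P := by group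
      rw [e1, e2, S4 k hk k' hk']
  have hML : Subgroup.closure S ≤ E := (Subgroup.closure_le E).mpr hSE
  have hMcomm := comm_of_closure S hScomm
  have hMP : ∀ x ∈ Subgroup.closure S, P * x * P⁻¹ ∈ Subgroup.closure S := by
    intro x hx
    have h1 : MulAut.conj P x ∈ (Subgroup.closure S).map (MulAut.conj P).toMonoidHom :=
      ⟨x, hx, rfl⟩
    rw [MonoidHom.map_closure] at h1
    have h2 : Subgroup.closure ((MulAut.conj P).toMonoidHom '' S) ≤ Subgroup.closure S := by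
      rw [Subgroup.closure_le]
      rintro _ ⟨s, hs, rfl⟩
      apply Subgroup.subset_closure
      rw [hSdef] at hs ⊢
      obtain ⟨k, hk, h | h | h⟩ := hs
      · exact ⟨k, hk, Or.inr (Or.inl (by rw [h]; rfl))⟩
      · refine ⟨k, hk, Or.inr (Or.inr ?_)⟩
        rw [h, hPi2]; rfl
      · refine ⟨k, hk, Or.inl ?_⟩
        rw [h]
        show P * (P⁻¹ * k * P) * P⁻¹ = k
        group
    exact h2 h1
  haveI : Finite ↥(Subgroup.closure S) :=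
    Finite.of_injective (Subgroup.inclusion hML) (Subgroup.inclusion_injective hML)
  have hEM : ∀ X ∈ E, X ∈ Subgroup.closure S := by
    intro X hX
    -- X⁻¹ * (P X P⁻¹) ∈ closure S
    have hYE : P * X * P⁻¹ ∈ E := hEP X hX
    have ha : X⁻¹ * (Q * X * Q⁻¹) ∈ K₁ := hQK X hX
    have hk : (P * X * P⁻¹)⁻¹ * (Q * (P * X * P⁻¹) * Q⁻¹) ∈ K₁ := hQK _ hYE
    have hdec : X⁻¹ * (P * X * P⁻¹) =
        (P⁻¹ * ((P * X * P⁻¹)⁻¹ * (Q * (P * X * P⁻¹) * Q⁻¹)) * P) *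
          (P * (Q * (X⁻¹ * (Q * X * Q⁻¹)) * Q⁻¹) * P⁻¹) := by
      -- P X P⁻¹ = (P Q) (Q X Q⁻¹) (P Q)⁻¹ as Q * Q = 1
      have hQi : Q⁻¹ = Q := inv_eq_of_mul_eq_one_right hQ2
      have e1 : P⁻¹ * ((P * X * P⁻¹)⁻¹ * (Q * (P * X * P⁻¹) * Q⁻¹)) * P =
          X⁻¹ * ((P⁻¹ * Q * P) * X * (P⁻¹ * Q * P)⁻¹) := by group
      have e2 : P * (Q * (X⁻¹ * (Q * X * Q⁻¹)) * Q⁻¹) * P⁻¹ =
          ((P * Q) * X⁻¹ * (P * Q)⁻¹) * (P * (Q * Q) * X * (Q * Q)⁻¹ * P⁻¹) := by group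
      have e3 : P⁻¹ * Q * P = P * Q := by
        rw [hPiQ, mul_assoc, ← hPinv, ← hPQ]
      rw [e1, e2, e3, hQ2]; group
    have h1 : X⁻¹ * (P * X * P⁻¹) ∈ Subgroup.closure S := by
      rw [hdec]
      apply Subgroup.mul_mem
      · apply Subgroup.subset_closure
        rw [hSdef]
        exact ⟨_, hk, Or.inr (Or.inr rfl)⟩
      · apply Subgroup.subset_closure
        rw [hSdef]
        exact ⟨_, hQK₁ _ ha, Or.inr (Or.inl rfl)⟩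
    obtain ⟨n, hn, hXn⟩ := exists_inv_mul_map (MulAut.conj P) (Subgroup.closure S)
      (fun x hx => hMP x hx) (fun g hg h => S1 g (hML hg) h) _ h1
    simp only [MulAut.conj_apply] at hXn
    have h2 : P * (X * n⁻¹) * P⁻¹ = X * n⁻¹ := by
      have e : P * (X * n⁻¹) * P⁻¹ = X * (X⁻¹ * (P * X * P⁻¹)) * (n⁻¹ * (P * n * P⁻¹))⁻¹ * n⁻¹ := by
        group
      rw [e, hXn]; group
    have h3 := S1 _ (E.mul_mem hX (E.inv_mem (hML hn))) h2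
    have h4 : X = n := by
      have := mul_inv_eq_one.mp h3
      exact this
    rw [h4]; exact hn
  intro X hX Y hY
  exact hMcomm X (hEM X hX) Y (hEM Y hY)

end O3

end Cfsg.Agent.H66.S3L
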