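import Cfsg.Agent.H66.S3Wt

/-!
# An element of order three without fixed vectors centralises a normalised `r`-group

`rho_centralizes`: `E` a finite group of order prime to `6` and to the characteristic, acting on
`V` through `θ`; `α` an automorphism with `α³ = 1` induced by an operator `P` with
`P² + P + 1 = 0`.  Then `θ (α x) = θ x` for all `x`.
-/

set_option autoImplicit false
set_option linter.style.haveILetI false
set_option linter.unusedVariables false
set_option linter.unusedSectionVars false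

namespace Cfsg.Agent.H66.S3L

open Cfsg Module
open scoped commutatorElement

section Rho

variable {K : Type*} [Field K] [IsAlgClosed K] {V : Type*} [AddCommGroup V] [Module K V]
  [FiniteDimensional K V] {E : Type*} [Group E]

/-- The abelian case. -/
theorem rho_abelian (θ : E →* Module.End K V) (α : MulAut E) (hα : ∀ x, α (α (α x)) = x)
    (P : Module.End K V) (hP : ∀ x, P * θ x = θ (α x) * P) (hPsum : P * P + P + 1 = 0)
    (M : Subgroup E) (hMα : ∀ x ∈ M, α x ∈ M) (n : ℕ) (hn : (n : K) ≠ 0)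
    (hpow : ∀ z ∈ M, z ^ n = 1) (hcomm : ∀ g ∈ M, ∀ h ∈ M, θ g * θ h = θ h * θ g) :
    ∀ x ∈ M, θ (α x) = θ x := by
  intro x hx
  have hPw : ∀ w, P (P w) + P w + w = 0 := by
    intro w
    exact congrArg (fun f : Module.End K V => f w) hPsum
  have hPwt : ∀ (ν : E → K) (w : V), w ∈ wtSpace θ M ν →
      P w ∈ wtSpace θ M (fun z => ν (α (α z))) := by
    intro ν w hw z hz
    have h1 : P (θ (α (α z)) w) = θ (α (α (α z))) (P w) :=
      congrArg (fun f : Module.End K V => f w) (hP (α (α z)))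
    rw [hα, hw _ (hMα _ (hMα _ hz)), map_smul] at h1
    exact h1.symm
  have key : LinearMap.eqLocus (θ (α x)) (θ x) = ⊤ := by
    apply wt_induction θ M n hn hpow hcomm
    intro ν w hw
    by_cases hw0 : w = 0
    · rw [hw0]; exact Submodule.zero_mem _
    · have hν : ∀ y ∈ M, ν (α y) = ν y := by
        by_contra hcon
        push Not at hcon
        obtain ⟨y, hy, hne⟩ := hcon
        apply hw0
        refine wt_indep3 θ M ν (fun z => ν (α (α z))) (fun z => ν (α (α (α (α z))))) ?_ ?_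
          w (P w) (P (P w)) hw (hPwt ν w hw) (hPwt _ _ (hPwt ν w hw)) ?_
        · exact ⟨α y, hMα y hy, by rw [hα]; exact hne⟩
        · exact ⟨y, hy, by rw [hα]; exact hne.symm⟩
        · rw [← hPw w]; abel
      rw [LinearMap.mem_eqLocus, hw _ (hMα x hx), hw x hx, hν x hx]
  apply LinearMap.ext
  intro w
  have h1 : w ∈ LinearMap.eqLocus (θ (α x)) (θ x) := by rw [key]; trivial
  exact LinearMap.mem_eqLocus.mp h1

set_option maxHeartbeats 3200000 in
/-- The non-abelian minimal configuration is impossible. -/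
theorem rho_core [Finite E] (hcop : (Nat.card E).Coprime 6) (hNK : (Nat.card E : K) ≠ 0)
    (h3K : (3 : K) ≠ 0) (θ : E →* Module.End K V) (α : MulAut E) (hα : ∀ x, α (α (α x)) = x)
    (P : Module.End K V) (hP : ∀ x, P * θ x = θ (α x) * P) (hPsum : P * P + P + 1 = 0)
    (M C : Subgroup E) (hCM : C ≤ M) (hMα : ∀ x ∈ M, α x ∈ M)
    (hCα : ∀ c ∈ C, θ (α c) = θ c) (hCdef : ∀ x ∈ M, θ (α x) = θ x → x ∈ C)
    (hcomm : ∀ g ∈ M, ∀ h ∈ M, ⁅g, h⁆ ∈ C)
    (hcent : ∀ c ∈ C, ∀ g ∈ M, θ c * θ g = θ g * θ c)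
    (hmin : ∀ M' : Subgroup E, M' ≤ M → M' ≠ M → (∀ x ∈ M', α x ∈ M') → M' ≤ C)
    (g₀ h₀ : E) (hg₀ : g₀ ∈ M) (hh₀ : h₀ ∈ M) (hne : θ g₀ * θ h₀ ≠ θ h₀ * θ g₀)
    (x : E) (hxM : x ∈ M) (hxC : x ∉ C) : False := by
  classical
  have hθinv : ∀ g : E, θ g⁻¹ * θ g = 1 := fun g => by rw [← map_mul, inv_mul_cancel, map_one]
  have hθinv' : ∀ g : E, θ g * θ g⁻¹ = 1 := fun g => by rw [← map_mul, mul_inv_cancel, map_one]
  have hθl : ∀ (g : E) (v : V), θ g⁻¹ (θ g v) = v := fun g v =>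
    congrArg (fun f : Module.End K V => f v) (hθinv g)
  have hθr : ∀ (g : E) (v : V), θ g (θ g⁻¹ v) = v := fun g v =>
    congrArg (fun f : Module.End K V => f v) (hθinv' g)
  have hθinj : ∀ g : E, Function.Injective (θ g) := by
    intro g v w h
    have := congrArg (θ g⁻¹) h
    rwa [hθl, hθl] at this
  have hmulv : ∀ (g h : E) (v : V), θ (g * h) v = θ g (θ h v) := fun g h v => by
    rw [map_mul]; rfl
  have hPapp : ∀ (a : E) (v : V), P (θ a v) = θ (α a) (P v) := fun a v =>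
    congrArg (fun f : Module.End K V => f v) (hP a)
  have hPw : ∀ w, P (P w) + P w + w = 0 := fun w =>
    congrArg (fun f : Module.End K V => f w) hPsum
  obtain ⟨Pi, hPi⟩ : ∃ Pi : Module.End K V, Pi = -P - 1 := ⟨_, rfl⟩
  have hPPi : P * Pi = 1 := by
    have : P * Pi = -(P * P + P + 1) + 1 := by rw [hPi]; noncomm_ring
    rw [this, hPsum]; simp
  have hPiP : Pi * P = 1 := by
    have : Pi * P = -(P * P + P + 1) + 1 := by rw [hPi]; noncomm_ring
    rw [this, hPsum]; simp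
  have hPr : ∀ v, P (Pi v) = v := fun v => congrArg (fun f : Module.End K V => f v) hPPi
  have hPl : ∀ v, Pi (P v) = v := fun v => congrArg (fun f : Module.End K V => f v) hPiP
  have hconj : ∀ a b : E, θ a = θ b → θ (α a) = θ (α b) := by
    intro a b hab
    have h1 : θ (α a) * P = θ (α b) * P := by rw [← hP a, ← hP b, hab]
    have h2 := congrArg (fun f => f * Pi) h1
    simp only [mul_assoc, hPPi, mul_one] at h2
    exact h2
  have hCα' : ∀ c ∈ C, α c ∈ C := fun c hc =>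
    hCdef _ (hMα c (hCM hc)) (hconj _ _ (hCα c hc))
  have hcop3 : ∀ e : E, Nat.Coprime 3 (orderOf e) := fun e =>
    Nat.Coprime.coprime_dvd_right (orderOf_dvd_natCard e)
      (Nat.Coprime.coprime_dvd_left (by norm_num : 3 ∣ 6) hcop.symm)
  have hcop2 : ∀ e : E, Nat.Coprime 2 (orderOf e) := fun e =>
    Nat.Coprime.coprime_dvd_right (orderOf_dvd_natCard e)
      (Nat.Coprime.coprime_dvd_left (by norm_num : 2 ∣ 6) hcop.symm)
  have hpow3 : ∀ e : E, θ (e * e * e) = 1 → θ e = 1 := by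
    intro e he
    obtain ⟨m, hm⟩ := exists_pow_eq_self_of_coprime (hcop3 e)
    have e3 : e ^ 3 = e * e * e := by rw [pow_succ, pow_two]
    rw [← hm, map_pow, e3, he, one_pow]
  have hsq : ∀ a : E, a * a ∈ C → a ∈ C := by
    intro a ha
    obtain ⟨m, hm⟩ := exists_pow_eq_self_of_coprime (hcop2 a)
    rw [← hm, pow_two]
    exact C.pow_mem ha m
  have hcube : ∀ a : E, a * a * a ∈ C → a ∈ C := by
    intro a ha
    obtain ⟨m, hm⟩ := exists_pow_eq_self_of_coprime (hcop3 a)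
    have e3 : a ^ 3 = a * a * a := by rw [pow_succ, pow_two]
    rw [← hm, e3]
    exact C.pow_mem ha m
  have hCn : ∀ g ∈ M, ∀ c ∈ C, g * c * g⁻¹ ∈ C := by
    intro g hg c hc
    have e : g * c * g⁻¹ = ⁅g, c⁆ * c := by rw [commutatorElement_def]; group
    rw [e]; exact C.mul_mem (hcomm g hg c (hCM hc)) hc
  have hs2a : ∀ g ∈ M, g⁻¹ * α g ∈ C → θ (α g) = θ g := by
    intro g hg he
    obtain ⟨e, he'⟩ : ∃ e : E, e = g⁻¹ * α g := ⟨_, rfl⟩
    rw [← he'] at he
    have h1 : α g = g * e := by rw [he']; group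
    have h2 : α (α g) = g * e * α e := by rw [h1, map_mul, h1]
    have h3 : α (α (α g)) = g * e * α e * α (α e) := by rw [h2, map_mul, map_mul, h1]
    rw [hα] at h3
    have h4 : e * α e * α (α e) = 1 := by
      apply mul_left_cancel (a := g)
      rw [mul_one]
      simpa [mul_assoc] using h3.symm
    have h5 : θ (e * e * e) = 1 := by
      have h6 := congrArg θ h4
      rw [map_mul, map_mul, hCα e he, hCα _ (hCα' e he), hCα e he, map_one] at h6
      rw [map_mul, map_mul]; exact h6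
    rw [h1, map_mul, hpow3 e h5, mul_one]
  -- a weight of `C` on which a commutator acts nontrivially
  obtain ⟨c₀, hc₀⟩ : ∃ c₀ : E, c₀ = ⁅g₀, h₀⁆ := ⟨_, rfl⟩
  have hc₀C : c₀ ∈ C := by rw [hc₀]; exact hcomm g₀ hg₀ h₀ hh₀
  have hgh : g₀ * h₀ = c₀ * (h₀ * g₀) := by rw [hc₀, commutatorElement_def]; group
  have hc₀1 : θ c₀ ≠ 1 := by
    intro h
    apply hne
    rw [← map_mul, hgh, map_mul, h, one_mul, map_mul]
  obtain ⟨μ, w₀, hw₀U, hw₀⟩ : ∃ (μ : E → K) (w₀ : V), w₀ ∈ wtSpace θ C μ ∧ θ c₀ w₀ ≠ w₀ := by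
    by_contra hcon
    push Not at hcon
    apply hc₀1
    have key : LinearMap.eqLocus (θ c₀) 1 = ⊤ := by
      apply wt_induction θ C (Nat.card E) hNK (fun z _ => pow_card_eq_one')
        (fun z hz z' hz' => hcent z hz z' (hCM hz'))
      intro μ w hw
      exact LinearMap.mem_eqLocus.mpr (hcon μ w hw)
    apply LinearMap.ext
    intro w
    have h1 : w ∈ LinearMap.eqLocus (θ c₀) 1 := by rw [key]; trivial
    exact LinearMap.mem_eqLocus.mp h1
  have hw₀0 : w₀ ≠ 0 := by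
    intro h
    apply hw₀
    rw [h, map_zero]
  have hμc₀ : μ c₀ ≠ 1 := by
    intro h
    apply hw₀
    rw [hw₀U c₀ hc₀C, h, one_smul]
  have hμne : ∀ c ∈ C, μ c ≠ 0 := by
    intro c hc h
    apply hw₀0
    apply hθinj c
    rw [hw₀U c hc, h, zero_smul, map_zero]
  have hUM : ∀ g ∈ M, ∀ w ∈ wtSpace θ C μ, θ g w ∈ wtSpace θ C μ := by
    intro g hg w hw c hc
    have h1 : θ c (θ g w) = θ g (θ c w) :=
      congrArg (fun f : Module.End K V => f w) (hcent c hc g hg)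
    rw [h1, hw c hc, map_smul]
  have hUP : ∀ w ∈ wtSpace θ C μ, P w ∈ wtSpace θ C μ := by
    intro w hw c hc
    have h1 := hPapp c w
    rw [hCα c hc, hw c hc, map_smul] at h1
    exact h1.symm
  have hUPi : ∀ w ∈ wtSpace θ C μ, Pi w ∈ wtSpace θ C μ := by
    intro w hw
    have e : Pi w = -P w - w := by rw [hPi]; rfl
    rw [e]
    exact Submodule.sub_mem _ (Submodule.neg_mem _ (hUP w hw)) hw
  -- the radical
  obtain ⟨Rad, hRad⟩ : ∃ Rad : Subgroup E, ∀ h, h ∈ Rad ↔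
      (h ∈ M ∧ ∀ g ∈ M, ∀ w ∈ wtSpace θ C μ, θ g (θ h w) = θ h (θ g w)) := by
    refine ⟨{ carrier := {h | h ∈ M ∧ ∀ g ∈ M, ∀ w ∈ wtSpace θ C μ, θ g (θ h w) = θ h (θ g w)}
              one_mem' := ⟨M.one_mem, fun g _ w _ => by rw [map_one]; rfl⟩
              mul_mem' := ?_
              inv_mem' := ?_ }, fun h => Iff.rfl⟩
    · rintro a b ⟨ha, hA⟩ ⟨hb, hB⟩
      refine ⟨M.mul_mem ha hb, fun g hg w hw => ?_⟩
      rw [hmulv a b w, hmulv a b (θ g w), hA g hg (θ b w) (hUM b hb w hw), hB g hg w hw]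
    · rintro a ⟨ha, hA⟩
      refine ⟨M.inv_mem ha, fun g hg w hw => ?_⟩
      apply hθinj a
      rw [← hA g hg (θ a⁻¹ w) (hUM a⁻¹ (M.inv_mem ha) w hw), hθr, hθr]
  have hRadα : ∀ h ∈ Rad, α h ∈ Rad := by
    intro h hh
    rw [hRad] at hh ⊢
    refine ⟨hMα h hh.1, fun g hg w hw => ?_⟩
    calc θ g (θ (α h) w) = θ (α (α (α g))) (θ (α h) (P (Pi w))) := by rw [hα, hPr]
      _ = θ (α (α (α g))) (P (θ h (Pi w))) := by rw [hPapp]
      _ = P (θ (α (α g)) (θ h (Pi w))) := by rw [hPapp (α (α g)) (θ h (Pi w))]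
      _ = P (θ h (θ (α (α g)) (Pi w))) := by
          rw [hh.2 _ (hMα _ (hMα g hg)) _ (hUPi w hw)]
      _ = θ (α h) (θ (α (α (α g))) (P (Pi w))) := by rw [hPapp, hPapp]
      _ = θ (α h) (θ g w) := by rw [hα, hPr]
  have hh₀Rad : h₀ ∉ Rad := by
    intro hh
    rw [hRad] at hh
    have h1 := hh.2 g₀ hg₀ w₀ hw₀U
    have h2 : θ g₀ (θ h₀ w₀) = μ c₀ • θ h₀ (θ g₀ w₀) := by
      rw [← hmulv, hgh, hmulv, hmulv]
      exact hUM h₀ hh₀ _ (hUM g₀ hg₀ w₀ hw₀U) c₀ hc₀C
    rw [h2] at h1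
    have h3 : (μ c₀ - 1) • θ h₀ (θ g₀ w₀) = 0 := by rw [sub_smul, one_smul, h1, sub_self]
    rcases smul_eq_zero.mp h3 with h | h
    · exact hμc₀ (sub_eq_zero.mp h)
    · apply hw₀0
      apply hθinj g₀
      apply hθinj h₀
      rw [h, map_zero, map_zero]
  have hRadC : Rad ≤ C := by
    apply hmin Rad (fun h hh => ((hRad h).mp hh).1) _ hRadα
    intro heq
    apply hh₀Rad
    rw [heq]; exact hh₀
  -- the elements
  obtain ⟨y, hy⟩ : ∃ y : E, y = α x := ⟨_, rfl⟩
  obtain ⟨z, hz⟩ : ∃ z : E, z = α y := ⟨_, rfl⟩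
  have hαz : α z = x := by rw [hz, hy, hα]
  have hyM : y ∈ M := by rw [hy]; exact hMα x hxM
  have hzM : z ∈ M := by rw [hz]; exact hMα y hyM
  have n1 : x * y⁻¹ ∉ C := by
    intro h
    apply hxC
    apply hCdef x hxM
    apply hs2a x hxM
    have h1 : x⁻¹ * α x = x⁻¹ * (x * y⁻¹)⁻¹ * x⁻¹⁻¹ := by rw [hy]; group
    rw [h1]
    exact hCn x⁻¹ (M.inv_mem hxM) _ (C.inv_mem h)
  have n2 : x * z⁻¹ ∉ C := by
    intro h
    apply n1
    have h1 := hCα' _ h
    rw [map_mul, map_inv, hαz, ← hy] at h1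
    have h2 := C.inv_mem h1
    rwa [mul_inv_rev, inv_inv] at h2
  have n3 : x * y * z ∈ C := by
    have hm : x * y * z ∈ M := M.mul_mem (M.mul_mem hxM hyM) hzM
    apply hCdef _ hm
    apply hs2a _ hm
    have h1 : (x * y * z)⁻¹ * α (x * y * z) = ⁅(y * z)⁻¹, x⁻¹⁆ := by
      rw [map_mul, map_mul, ← hy, ← hz, hαz, commutatorElement_def]; group
    rw [h1]
    exact hcomm _ (M.inv_mem (M.mul_mem hyM hzM)) _ (M.inv_mem hxM)
  have n4 : y * z * x ∈ C := by
    have := hCα' _ n3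
    rwa [map_mul, map_mul, ← hy, ← hz, hαz] at this
  have d1 : x * x * (y * y)⁻¹ ∉ C := by
    intro h
    apply n1
    apply hsq
    have e : (x * y⁻¹) * (x * y⁻¹) =
        (x * x * (y * y)⁻¹) * ((x * y⁻¹)⁻¹ * ⁅y, x⁆⁻¹ * (x * y⁻¹)⁻¹⁻¹) := by
      rw [commutatorElement_def]; group
    rw [e]
    exact C.mul_mem h (hCn _ (M.inv_mem (M.mul_mem hxM (M.inv_mem hyM))) _
      (C.inv_mem (hcomm y hyM x hxM)))
  have d2 : x * x * (z * z)⁻¹ ∉ C := by
    intro h
    apply n2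
    apply hsq
    have e : (x * z⁻¹) * (x * z⁻¹) =
        (x * x * (z * z)⁻¹) * ((x * z⁻¹)⁻¹ * ⁅z, x⁆⁻¹ * (x * z⁻¹)⁻¹⁻¹) := by
      rw [commutatorElement_def]; group
    rw [e]
    exact C.mul_mem h (hCn _ (M.inv_mem (M.mul_mem hxM (M.inv_mem hzM))) _
      (C.inv_mem (hcomm z hzM x hxM)))
  have d3 : x * x * (x * y)⁻¹ ∉ C := by
    intro h
    apply n1
    have := hCn x⁻¹ (M.inv_mem hxM) _ h
    have e : x⁻¹ * (x * x * (x * y)⁻¹) * x⁻¹⁻¹ = x * y⁻¹ := by group
    rwa [e] at this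
  have d4 : x * x * (x * z)⁻¹ ∉ C := by
    intro h
    apply n2
    have := hCn x⁻¹ (M.inv_mem hxM) _ h
    have e : x⁻¹ * (x * x * (x * z)⁻¹) * x⁻¹⁻¹ = x * z⁻¹ := by group
    rwa [e] at this
  have d5 : x * x * (y * z)⁻¹ ∉ C := by
    intro h
    apply hxC
    apply hcube
    have e : x * x * x = (x * x * (y * z)⁻¹) * (y * z * x) := by group
    rw [e]
    exact C.mul_mem h n4
  -- the cube root of unity and the operator `v`
  obtain ⟨ω, hω⟩ : ∃ ω : K, ω * ω + ω + 1 = 0 := by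
    have hdeg : (Polynomial.X ^ 2 + Polynomial.X + 1 : Polynomial K).degree = 2 := by
      compute_degree!
    obtain ⟨ω, hω⟩ := IsAlgClosed.exists_root
      (Polynomial.X ^ 2 + Polynomial.X + 1 : Polynomial K) (by rw [hdeg]; decide)
    refine ⟨ω, ?_⟩
    have h1 : Polynomial.eval ω (Polynomial.X ^ 2 + Polynomial.X + 1 : Polynomial K) = 0 := hω
    simp only [Polynomial.eval_add, Polynomial.eval_pow, Polynomial.eval_X,
      Polynomial.eval_one] at h1
    rw [← h1]; ring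
  have hω3 : ω * (ω * ω) = 1 := by linear_combination (ω - 1) * hω
  have hω0 : ω ≠ 0 := by
    intro h
    rw [h] at hω
    simp at hω
  have hω1 : ω ≠ 1 := by
    intro h
    rw [h] at hω
    apply h3K
    rw [← hω]; ring
  have hωd : ω - ω * ω ≠ 0 := by
    intro h
    have h2 : ω * (1 - ω) = 0 := by rw [← h]; ring
    rcases mul_eq_zero.mp h2 with h3 | h3
    · exact hω0 h3
    · exact hω1 (sub_eq_zero.mp h3).symm
  obtain ⟨v, hv⟩ : ∃ v : Module.End K V, v = θ x + (ω * ω) • θ y + ω • θ z := ⟨_, rfl⟩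
  have hvapp : ∀ w, v w = θ x w + (ω * ω) • θ y w + ω • θ z w := fun w => by rw [hv]; rfl
  have hkey : ∀ a b c : V, a + (ω * ω) • b + ω • c = ω • (c + (ω * ω) • a + ω • b) := by
    intro a b c
    rw [smul_add, smul_add, smul_smul, smul_smul, hω3, one_smul]; abel
  have hPv : ∀ w, P (v w) = ω • v (P w) := by
    intro w
    rw [hvapp, hvapp, map_add, map_add, map_smul, map_smul, hPapp, hPapp, hPapp, ← hy, ← hz,
      hαz]
    exact hkey _ _ _
  have hv2 : ∀ u, P u = (ω * ω) • u → v u = 0 := by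
    intro u hu
    have h1 : P (v u) = v u := by rw [hPv, hu, map_smul, smul_smul, hω3, one_smul]
    have h2 := hPw (v u)
    rw [h1, h1] at h2
    have h3 : (3 : K) • v u = 0 := by
      rw [← h2]; module
    rcases smul_eq_zero.mp h3 with h | h
    · exact absurd h h3K
    · exact h
  have hv1 : ∀ u, P u = ω • u → v (v u) = 0 := by
    intro u hu
    apply hv2
    rw [hPv, hu, map_smul, smul_smul]
  have hvv : ∀ u, v (v u) = 0 := by
    intro u
    have e1 : (ω * ω + ω + 1) • P u = 0 := by rw [hω, zero_smul]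
    have e2 : (ω * (ω * ω)) • u = u := by rw [hω3, one_smul]
    have ha1 : P (P u - (ω * ω) • u) = ω • (P u - (ω * ω) • u) := by
      rw [map_sub, map_smul]
      linear_combination (norm := module) hPw u - e1 + e2
    have ha2 : P (P u - ω • u) = (ω * ω) • (P u - ω • u) := by
      rw [map_sub, map_smul]
      linear_combination (norm := module) hPw u - e1 + e2
    have h1 := hv1 _ ha1
    have h2 := hv2 _ ha2
    have h3 : (ω - ω * ω) • v (v u) = 0 := by
      have e : (ω - ω * ω) • v (v u) = v (v (P u - (ω * ω) • u)) - v (v (P u - ω • u)) := by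
        rw [← map_sub, ← map_sub, ← map_smul, ← map_smul]
        congr 2
        module
      rw [e, h1, h2, map_zero, sub_zero]
    rcases smul_eq_zero.mp h3 with h | h
    · exact absurd h hωd
    · exact h
  have hswap : ∀ a ∈ M, ∀ b ∈ M, ∀ u ∈ wtSpace θ C μ,
      θ (a * b) u = μ ⁅a, b⁆ • θ (b * a) u := by
    intro a ha b hb u hu
    have e : a * b = ⁅a, b⁆ * (b * a) := by rw [commutatorElement_def]; group
    have h1 : θ (b * a) u ∈ wtSpace θ C μ := by
      rw [hmulv]; exact hUM b hb _ (hUM a ha u hu)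
    nth_rewrite 1 [e]
    rw [hmulv]
    exact h1 _ (hcomm a ha b hb)
  have hexp : ∀ u ∈ wtSpace θ C μ, θ (x * x) u + (ω • θ (y * y) u + (ω * ω) • θ (z * z) u +
      ((ω * ω) * (1 + μ ⁅y, x⁆)) • θ (x * y) u + (ω * (1 + μ ⁅z, x⁆)) • θ (x * z) u +
      (1 + μ ⁅z, y⁆) • θ (y * z) u) = 0 := by
    intro u hu
    have h1 := hvv u
    rw [hvapp u, hvapp] at h1
    simp only [map_add, map_smul] at h1
    have s1 : θ y (θ x u) = μ ⁅y, x⁆ • θ x (θ y u) := by
      have := hswap y hyM x hxM u hu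
      rwa [hmulv, hmulv] at this
    have s2 : θ z (θ x u) = μ ⁅z, x⁆ • θ x (θ z u) := by
      have := hswap z hzM x hxM u hu
      rwa [hmulv, hmulv] at this
    have s3 : θ z (θ y u) = μ ⁅z, y⁆ • θ y (θ z u) := by
      have := hswap z hzM y hyM u hu
      rwa [hmulv, hmulv] at this
    rw [s1, s2, s3] at h1
    simp only [hmulv]
    have hA : (ω * ω * (ω * ω)) • θ y (θ y u) = ω • θ y (θ y u) := by
      have : ω * ω * (ω * ω) = ω := by linear_combination ω * hω3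
      rw [this]
    have hB : (ω * ω * ω) • θ y (θ z u) = θ y (θ z u) := by
      have : ω * ω * ω = 1 := by linear_combination hω3
      rw [this, one_smul]
    have hC : (ω * ω * ω * μ ⁅z, y⁆) • θ y (θ z u) = μ ⁅z, y⁆ • θ y (θ z u) := by
      have : ω * ω * ω = 1 := by linear_combination hω3
      rw [this, one_mul]
    linear_combination (norm := module) h1 - hA - hB - hC
  -- the restricted representation
  obtain ⟨θM, hθM⟩ : ∃ θM : ↥M →* Module.End K V, θM = θ.comp M.subtype := ⟨_, rfl⟩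
  have hinvU : ∀ g : ↥M, ∀ w ∈ wtSpace θ C μ, θM g w ∈ wtSpace θ C μ := by
    intro g w hw
    rw [hθM]; exact hUM g g.2 w hw
  obtain ⟨θU, hθU⟩ : ∃ θU : ↥M →* Module.End K ↥(wtSpace θ C μ),
      ∀ (g : ↥M) (u : ↥(wtSpace θ C μ)), ((θU g u : ↥(wtSpace θ C μ)) : V) = θ (g : E) (u : V) := by
    refine ⟨resRep θM (wtSpace θ C μ) hinvU, fun g u => ?_⟩
    subst hθM; rfl
  have hCU : ∀ c : ↥M, (c : E) ∈ C → θU c = μ (c : E) • 1 := by
    intro c hc
    apply LinearMap.ext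
    intro u
    apply Subtype.ext
    rw [hθU]
    exact u.2 c hc
  have adch : ∀ g h : ↥M, θU g * θU h * θU g⁻¹ = μ ⁅(g : E), (h : E)⁆ • θU h := by
    intro g h
    have hc : ⁅(g : E), (h : E)⁆ ∈ C := hcomm g g.2 h h.2
    have e : g * h * g⁻¹ = ⟨⁅(g : E), (h : E)⁆, hCM hc⟩ * h := by
      apply Subtype.ext
      show (g : E) * (h : E) * (g : E)⁻¹ = ⁅(g : E), (h : E)⁆ * (h : E)
      rw [commutatorElement_def]; group
    rw [← map_mul, ← map_mul, e, map_mul, hCU _ hc, smul_mul_assoc, one_mul]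
  obtain ⟨Ad, hAd⟩ : ∃ Ad : ↥M → Module.End K (Module.End K ↥(wtSpace θ C μ)),
      ∀ g f, Ad g f = θU g * f * θU g⁻¹ :=
    ⟨fun g => (LinearMap.mulLeft K (θU g)).comp (LinearMap.mulRight K (θU g⁻¹)), fun g f => by
      show θU g * (f * θU g⁻¹) = θU g * f * θU g⁻¹
      rw [mul_assoc]⟩
  obtain ⟨xM, hxM'⟩ : ∃ xM : ↥M, (xM : E) = x := ⟨⟨x, hxM⟩, rfl⟩
  obtain ⟨yM, hyM'⟩ : ∃ yM : ↥M, (yM : E) = y := ⟨⟨y, hyM⟩, rfl⟩
  obtain ⟨zM, hzM'⟩ : ∃ zM : ↥M, (zM : E) = z := ⟨⟨z, hzM⟩, rfl⟩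
  obtain ⟨uM, huM⟩ : ∃ uM : Fin 5 → ↥M, uM = ![yM * yM, zM * zM, xM * yM, xM * zM, yM * zM] :=
    ⟨_, rfl⟩
  obtain ⟨coef, hcoef⟩ : ∃ coef : Fin 5 → K, coef = ![ω, ω * ω, (ω * ω) * (1 + μ ⁅y, x⁆),
      ω * (1 + μ ⁅z, x⁆), 1 + μ ⁅z, y⁆] := ⟨_, rfl⟩
  have hd : ∀ i : Fin 5, x * x * ((uM i : ↥M) : E)⁻¹ ∉ C := by
    intro i
    rw [huM]
    fin_cases i
    · show x * x * ((yM : E) * (yM : E))⁻¹ ∉ C
      rw [hyM']; exact d1
    · show x * x * ((zM : E) * (zM : E))⁻¹ ∉ C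
      rw [hzM']; exact d2
    · show x * x * ((xM : E) * (yM : E))⁻¹ ∉ C
      rw [hxM', hyM']; exact d3
    · show x * x * ((xM : E) * (zM : E))⁻¹ ∉ C
      rw [hxM', hzM']; exact d4
    · show x * x * ((yM : E) * (zM : E))⁻¹ ∉ C
      rw [hyM', hzM']; exact d5
  have hsumeq : θU (xM * xM) + ∑ i : Fin 5, coef i • θU (uM i) = 0 := by
    apply LinearMap.ext
    intro u
    apply Subtype.ext
    rw [Fin.sum_univ_five, huM, hcoef]
    simp only [LinearMap.add_apply, LinearMap.smul_apply, Submodule.coe_add, Submodule.coe_smul,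
      hθU, Matrix.cons_val_zero, Matrix.cons_val_one, Matrix.cons_val]
    have := hexp u u.2
    simp only [Subgroup.coe_mul, hxM', hyM', hzM', LinearMap.zero_apply,
      ZeroMemClass.coe_zero]
    rw [← this]
  have hdist : ∀ i ∈ (Finset.univ : Finset (Fin 5)),
      ∃ g : ↥M, μ ⁅(g : E), ((uM i : ↥M) : E)⁆ ≠ μ ⁅(g : E), x * x⁆ := by
    intro i _
    by_contra hcon
    push Not at hcon
    apply hd i
    apply hRadC
    rw [hRad]
    have hdM : x * x * ((uM i : ↥M) : E)⁻¹ ∈ M :=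
      M.mul_mem (M.mul_mem hxM hxM) (M.inv_mem (uM i).2)
    refine ⟨hdM, fun g hg w hw => ?_⟩
    obtain ⟨gM, hgM⟩ : ∃ gM : ↥M, (gM : E) = g := ⟨⟨g, hg⟩, rfl⟩
    have hinvM : ∀ a : ↥M, θU a⁻¹ * θU a = 1 := fun a => by
      rw [← map_mul, inv_mul_cancel, map_one]
    have hinvM' : ∀ a : ↥M, θU a * θU a⁻¹ = 1 := fun a => by
      rw [← map_mul, mul_inv_cancel, map_one]
    have h1 := adch gM (xM * xM)
    have h2 := adch gM (uM i)
    have hcu : μ ⁅(gM : E), ((uM i : ↥M) : E)⁆ ≠ 0 := hμne _ (hcomm _ gM.2 _ (uM i).2)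
    have h3 : θU gM * θU (uM i)⁻¹ * θU gM⁻¹ =
        (μ ⁅(gM : E), ((uM i : ↥M) : E)⁆)⁻¹ • θU (uM i)⁻¹ := by
      have h4 : (θU gM * θU (uM i) * θU gM⁻¹) * (θU gM * θU (uM i)⁻¹ * θU gM⁻¹) = 1 := by
        calc (θU gM * θU (uM i) * θU gM⁻¹) * (θU gM * θU (uM i)⁻¹ * θU gM⁻¹)
            = θU gM * θU (uM i) * (θU gM⁻¹ * θU gM) * θU (uM i)⁻¹ * θU gM⁻¹ := by
              simp only [mul_assoc]
          _ = 1 := by
              rw [hinvM, mul_one, mul_assoc (θU gM), hinvM', mul_one, hinvM']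
      rw [h2, smul_mul_assoc] at h4
      have h5 := congrArg (fun f => (μ ⁅(gM : E), ((uM i : ↥M) : E)⁆)⁻¹ • (θU (uM i)⁻¹ * f)) h4
      simp only [mul_smul_comm, ← mul_assoc, hinvM, one_mul, smul_smul, inv_mul_cancel₀ hcu,
        one_smul, mul_one] at h5
      exact h5
    have h6 : θU gM * θU (xM * xM * (uM i)⁻¹) * θU gM⁻¹ = θU (xM * xM * (uM i)⁻¹) := by
      calc θU gM * θU (xM * xM * (uM i)⁻¹) * θU gM⁻¹
          = (θU gM * θU (xM * xM) * θU gM⁻¹) * (θU gM * θU (uM i)⁻¹ * θU gM⁻¹) := by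
            rw [map_mul (f := θU) (xM * xM) (uM i)⁻¹]
            calc θU gM * (θU (xM * xM) * θU (uM i)⁻¹) * θU gM⁻¹
                = θU gM * θU (xM * xM) * 1 * θU (uM i)⁻¹ * θU gM⁻¹ := by
                  simp only [mul_assoc, one_mul]
              _ = θU gM * θU (xM * xM) * θU gM⁻¹ * (θU gM * θU (uM i)⁻¹ * θU gM⁻¹) := by
                  rw [← hinvM gM]; simp only [mul_assoc]
        _ = θU (xM * xM * (uM i)⁻¹) := by
            rw [h1, h3, smul_mul_smul_comm, ← map_mul]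
            have e1 : ⁅(gM : E), ((xM * xM : ↥M) : E)⁆ = ⁅(gM : E), x * x⁆ := by
              rw [Subgroup.coe_mul, hxM']
            rw [e1, ← hcon gM, mul_inv_cancel₀ hcu, one_smul]
    have h7 : θU gM * θU (xM * xM * (uM i)⁻¹) = θU (xM * xM * (uM i)⁻¹) * θU gM := by
      have h70 : (θU gM * θU (xM * xM * (uM i)⁻¹) * θU gM⁻¹) * θU gM =
          θU (xM * xM * (uM i)⁻¹) * θU gM := by rw [h6]
      rw [mul_assoc, hinvM, mul_one] at h70
      exact h70
    have h8 := congrArg (fun f : Module.End K ↥(wtSpace θ C μ) =>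
      ((f ⟨w, hw⟩ : ↥(wtSpace θ C μ)) : V)) h7
    simp only [Module.End.mul_apply, hθU] at h8
    rw [hgM] at h8
    have e2 : ((xM * xM * (uM i)⁻¹ : ↥M) : E) = x * x * ((uM i : ↥M) : E)⁻¹ := by
      rw [Subgroup.coe_mul, Subgroup.coe_mul, Subgroup.coe_inv, hxM']
    rw [e2] at h8
    exact h8
  have hfin := indep_one Ad (fun g => μ ⁅(g : E), x * x⁆)
    (fun i g => μ ⁅(g : E), ((uM i : ↥M) : E)⁆) Finset.univ hdist (θU (xM * xM))
    (fun g => by
      rw [hAd, adch]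
      have e1 : ⁅(g : E), ((xM * xM : ↥M) : E)⁆ = ⁅(g : E), x * x⁆ := by
        rw [Subgroup.coe_mul, hxM']
      rw [e1])
    (fun i => coef i • θU (uM i))
    (fun i _ g => by rw [map_smul, hAd, adch, smul_comm]) hsumeq
  have h9 := congrArg (fun f : Module.End K ↥(wtSpace θ C μ) =>
    ((f ⟨w₀, hw₀U⟩ : ↥(wtSpace θ C μ)) : V)) hfin
  simp only [hθU, LinearMap.zero_apply, ZeroMemClass.coe_zero] at h9
  apply hw₀0
  apply hθinj ((xM * xM : ↥M) : E)
  rw [h9, map_zero]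

theorem rho_s2a [Finite E] (hcop : (Nat.card E).Coprime 6) (θ : E →* Module.End K V)
    (α : MulAut E) (hα : ∀ x, α (α (α x)) = x) (C : Subgroup E)
    (hCα : ∀ c ∈ C, θ (α c) = θ c) (hCα' : ∀ c ∈ C, α c ∈ C) (g : E)
    (he : g⁻¹ * α g ∈ C) : θ (α g) = θ g := by
  have hcop3 : ∀ e : E, Nat.Coprime 3 (orderOf e) := fun e =>
    Nat.Coprime.coprime_dvd_right (orderOf_dvd_natCard e)
      (Nat.Coprime.coprime_dvd_left (by norm_num : 3 ∣ 6) hcop.symm)
  have hpow3 : ∀ e : E, θ (e * e * e) = 1 → θ e = 1 := by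
    intro e he
    obtain ⟨m, hm⟩ := exists_pow_eq_self_of_coprime (hcop3 e)
    have e3 : e ^ 3 = e * e * e := by rw [pow_succ, pow_two]
    rw [← hm, map_pow, e3, he, one_pow]
  obtain ⟨e, he'⟩ : ∃ e : E, e = g⁻¹ * α g := ⟨_, rfl⟩
  rw [← he'] at he
  have h1 : α g = g * e := by rw [he']; group
  have h2 : α (α g) = g * e * α e := by rw [h1, map_mul, h1]
  have h3 : α (α (α g)) = g * e * α e * α (α e) := by rw [h2, map_mul, map_mul, h1]
  rw [hα] at h3
  have h4 : e * α e * α (α e) = 1 := by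
    apply mul_left_cancel (a := g)
    rw [mul_one]
    simpa [mul_assoc] using h3.symm
  have h5 : θ (e * e * e) = 1 := by
    have h6 := congrArg θ h4
    rw [map_mul, map_mul, hCα e he, hCα _ (hCα' e he), hCα e he, map_one] at h6
    rw [map_mul, map_mul]; exact h6
  rw [h1, map_mul, hpow3 e h5, mul_one]

set_option maxHeartbeats 1600000 in
/-- An automorphism of order three induced by an operator `P` with `P² + P + 1 = 0` acts
trivially modulo the kernel of the representation. -/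
theorem rho_centralizes [Finite E] [Group.IsSolvable E] (hcop : (Nat.card E).Coprime 6)
    (hNK : (Nat.card E : K) ≠ 0) (h3K : (3 : K) ≠ 0) (θ : E →* Module.End K V) (α : MulAut E)
    (hα : ∀ x, α (α (α x)) = x) (P : Module.End K V) (hP : ∀ x, P * θ x = θ (α x) * P)
    (hPsum : P * P + P + 1 = 0) : ∀ x, θ (α x) = θ x := by
  classical
  have hθinv : ∀ g : E, θ g⁻¹ * θ g = 1 := fun g => by rw [← map_mul, inv_mul_cancel, map_one]
  have hθinv' : ∀ g : E, θ g * θ g⁻¹ = 1 := fun g => by rw [← map_mul, mul_inv_cancel, map_one]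
  have hinveq : ∀ a b : E, θ a = θ b → θ a⁻¹ = θ b⁻¹ := by
    intro a b hab
    calc θ a⁻¹ = θ a⁻¹ * (θ b * θ b⁻¹) := by rw [hθinv', mul_one]
      _ = θ a⁻¹ * θ a * θ b⁻¹ := by rw [← hab, mul_assoc]
      _ = θ b⁻¹ := by rw [hθinv, one_mul]
  obtain ⟨Pi, hPi⟩ : ∃ Pi : Module.End K V, Pi = -P - 1 := ⟨_, rfl⟩
  have hPPi : P * Pi = 1 := by
    have : P * Pi = -(P * P + P + 1) + 1 := by rw [hPi]; noncomm_ring
    rw [this, hPsum]; simp
  have hconj : ∀ a b : E, θ a = θ b → θ (α a) = θ (α b) := by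
    intro a b hab
    have h1 : θ (α a) * P = θ (α b) * P := by rw [← hP a, ← hP b, hab]
    have h2 := congrArg (fun f => f * Pi) h1
    simp only [mul_assoc, hPPi, mul_one] at h2
    exact h2
  have main : ∀ n : ℕ, ∀ M : Subgroup E, Nat.card M ≤ n → (∀ x ∈ M, α x ∈ M) →
      ∀ x ∈ M, θ (α x) = θ x := by
    intro n
    induction n with
    | zero =>
      intro M hM
      have := Nat.card_pos (α := ↥M)
      omega
    | succ n ih =>
      intro M hMn hMα
      by_contra hcon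
      push Not at hcon
      obtain ⟨x₁, hx₁M, hx₁⟩ := hcon
      have hmin0 : ∀ M' : Subgroup E, M' ≤ M → M' ≠ M → (∀ x ∈ M', α x ∈ M') →
          ∀ x ∈ M', θ (α x) = θ x := by
        intro M' hle hne hα'
        apply ih M' _ hα'
        by_contra hc
        push Not at hc
        apply hne
        exact Subgroup.eq_of_le_of_card_ge hle (by omega)
      obtain ⟨C, hC⟩ : ∃ C : Subgroup E, ∀ c, c ∈ C ↔ (c ∈ M ∧ θ (α c) = θ c) := by
        refine ⟨{ carrier := {c | c ∈ M ∧ θ (α c) = θ c}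
                  one_mem' := ⟨M.one_mem, by rw [map_one]⟩
                  mul_mem' := ?_
                  inv_mem' := ?_ }, fun c => Iff.rfl⟩
        · rintro a b ⟨ha, hA⟩ ⟨hb, hB⟩
          exact ⟨M.mul_mem ha hb, by rw [map_mul, map_mul, hA, hB, map_mul]⟩
        · rintro a ⟨ha, hA⟩
          exact ⟨M.inv_mem ha, by rw [map_inv]; exact hinveq _ _ hA⟩
      have hCM : C ≤ M := fun c hc => ((hC c).mp hc).1
      have hCα : ∀ c ∈ C, θ (α c) = θ c := fun c hc => ((hC c).mp hc).2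
      have hCdef : ∀ x ∈ M, θ (α x) = θ x → x ∈ C := fun x hx h => (hC x).mpr ⟨hx, h⟩
      have hCα' : ∀ c ∈ C, α c ∈ C := fun c hc =>
        hCdef _ (hMα c (hCM hc)) (hconj _ _ (hCα c hc))
      have hmin : ∀ M' : Subgroup E, M' ≤ M → M' ≠ M → (∀ x ∈ M', α x ∈ M') → M' ≤ C := by
        intro M' hle hne hα' x hx
        exact hCdef x (hle hx) (hmin0 M' hle hne hα' x hx)
      have hx₁C : x₁ ∉ C := fun h => hx₁ (hCα x₁ h)
      have hMbot : M ≠ ⊥ := by
        intro h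
        rw [h, Subgroup.mem_bot] at hx₁M
        apply hx₁
        rw [hx₁M, map_one]
      have hlt := H1.commutator_lt_of_isSolvable M hMbot
      have hcommC : ⁅M, M⁆ ≤ C := by
        apply hmin _ hlt.le hlt.ne
        intro x hx
        have h1 : α x ∈ (⁅M, M⁆).map α.toMonoidHom := ⟨x, hx, rfl⟩
        rw [Subgroup.map_commutator] at h1
        have h2 : M.map α.toMonoidHom ≤ M := by
          rintro _ ⟨y, hy, rfl⟩
          exact hMα y hy
        exact Subgroup.commutator_mono h2 h2 h1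
      have hcomm : ∀ g ∈ M, ∀ h ∈ M, ⁅g, h⁆ ∈ C := fun g hg h hh =>
        hcommC (Subgroup.commutator_mem_commutator hg hh)
      have hCn : ∀ g ∈ M, ∀ c ∈ C, g * c * g⁻¹ ∈ C := by
        intro g hg c hc
        have e : g * c * g⁻¹ = ⁅g, c⁆ * c := by rw [commutatorElement_def]; group
        rw [e]; exact C.mul_mem (hcomm g hg c (hCM hc)) hc
      have hcent : ∀ c ∈ C, ∀ g ∈ M, θ c * θ g = θ g * θ c := by
        intro c hc
        obtain ⟨D, hD⟩ : ∃ D : Subgroup E, ∀ g, g ∈ D ↔ (g ∈ M ∧ θ g * θ c = θ c * θ g) := by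
          refine ⟨{ carrier := {g | g ∈ M ∧ θ g * θ c = θ c * θ g}
                    one_mem' := ⟨M.one_mem, by rw [map_one, one_mul, mul_one]⟩
                    mul_mem' := ?_
                    inv_mem' := ?_ }, fun c => Iff.rfl⟩
          · rintro a b ⟨ha, hA⟩ ⟨hb, hB⟩
            refine ⟨M.mul_mem ha hb, ?_⟩
            rw [map_mul, mul_assoc, hB, ← mul_assoc, hA, mul_assoc]
          · rintro a ⟨ha, hA⟩
            refine ⟨M.inv_mem ha, ?_⟩
            calc θ a⁻¹ * θ c = θ a⁻¹ * θ c * (θ a * θ a⁻¹) := by rw [hθinv', mul_one]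
              _ = θ a⁻¹ * (θ c * θ a) * θ a⁻¹ := by simp only [mul_assoc]
              _ = θ a⁻¹ * (θ a * θ c) * θ a⁻¹ := by rw [hA]
              _ = θ a⁻¹ * θ a * θ c * θ a⁻¹ := by simp only [mul_assoc]
              _ = θ c * θ a⁻¹ := by rw [hθinv, one_mul]
        have hDM : D ≤ M := fun g hg => ((hD g).mp hg).1
        have hDα : ∀ g ∈ D, α g ∈ D := by
          intro g hg
          rw [hD] at hg ⊢
          refine ⟨hMα g hg.1, ?_⟩
          have h1 : θ (g * c) = θ (c * g) := by rw [map_mul, map_mul, hg.2]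
          have h2 := hconj _ _ h1
          rw [map_mul, map_mul, map_mul, map_mul, hCα c hc] at h2
          exact h2
        by_cases hDeq : D = M
        · intro g hg
          have : g ∈ D := by rw [hDeq]; exact hg
          exact (((hD g).mp this).2).symm
        · exfalso
          have hDC := hmin D hDM hDeq hDα
          apply hx₁
          apply rho_s2a hcop θ α hα C hCα hCα' x₁
          apply hDC
          rw [hD]
          refine ⟨M.mul_mem (M.inv_mem hx₁M) (hMα x₁ hx₁M), ?_⟩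
          have h1 := hCα _ (hCn x₁ hx₁M c hc)
          rw [map_mul, map_mul, map_inv, map_mul, map_mul, map_mul, map_mul, hCα c hc] at h1
          rw [map_mul]
          calc θ x₁⁻¹ * θ (α x₁) * θ c
              = θ x₁⁻¹ * (θ (α x₁) * θ c * θ (α x₁)⁻¹) * θ (α x₁) := by
                simp only [mul_assoc, hθinv, mul_one]
            _ = θ x₁⁻¹ * (θ x₁ * θ c * θ x₁⁻¹) * θ (α x₁) := by rw [h1]
            _ = θ c * (θ x₁⁻¹ * θ (α x₁)) := by
                simp only [← mul_assoc, hθinv, one_mul]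
      obtain ⟨g₀, hg₀, h₀, hh₀, hne⟩ : ∃ g₀ ∈ M, ∃ h₀ ∈ M, θ g₀ * θ h₀ ≠ θ h₀ * θ g₀ := by
        by_contra hcon
        push Not at hcon
        exact hx₁ (rho_abelian θ α hα P hP hPsum M hMα (Nat.card E) hNK
          (fun z _ => pow_card_eq_one') hcon x₁ hx₁M)
      exact rho_core hcop hNK h3K θ α hα P hP hPsum M C hCM hMα hCα hCdef hcomm hcent hmin
        g₀ h₀ hg₀ hh₀ hne x₁ hx₁M hx₁C
  intro x
  exact main _ ⊤ le_rfl (fun x _ => Subgroup.mem_top _) x (Subgroup.mem_top x)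

end Rho

end Cfsg.Agent.H66.S3L
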