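import Cfsg.Agent.H66.S3Rho
import Cfsg.Agent.H66.S3O3

/-!
# Type I: invariant `r`-subgroups are abelian

`typeI`: an `r`-group `E` (`r ≥ 5`) with a fixed-point-free action of `S₃`, acting on a vector
space `V` in characteristic prime to `6r` compatibly with operators `T a` whose sum vanishes,
acts through an abelian group.
-/

set_option autoImplicit false
set_option linter.style.haveILetI false
set_option linter.unusedVariables false
set_option linter.unusedSectionVars false

namespace Cfsg.Agent.H66.S3L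

open Cfsg Module
open scoped commutatorElement

theorem s3_univ_b : ∀ b : Equiv.Perm (Fin 3), b * b = 1 → b ≠ 1 →
    (1 ∉ ({c3, c3 * c3, b, c3 * b, c3 * (c3 * b)} : Finset (Equiv.Perm (Fin 3))) ∧
      c3 ∉ ({c3 * c3, b, c3 * b, c3 * (c3 * b)} : Finset (Equiv.Perm (Fin 3))) ∧
      c3 * c3 ∉ ({b, c3 * b, c3 * (c3 * b)} : Finset (Equiv.Perm (Fin 3))) ∧
      b ∉ ({c3 * b, c3 * (c3 * b)} : Finset (Equiv.Perm (Fin 3))) ∧
      c3 * b ∉ ({c3 * (c3 * b)} : Finset (Equiv.Perm (Fin 3))) ∧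
      (Finset.univ : Finset (Equiv.Perm (Fin 3))) =
        {1, c3, c3 * c3, b, c3 * b, c3 * (c3 * b)}) := by decide

theorem sum_s3_b {M : Type*} [AddCommMonoid M] (b : Equiv.Perm (Fin 3)) (hb : b * b = 1)
    (hb1 : b ≠ 1) (f : Equiv.Perm (Fin 3) → M) :
    ∑ a, f a = f 1 + f c3 + f (c3 * c3) + f b + f (c3 * b) + f (c3 * (c3 * b)) := by
  obtain ⟨h1, h2, h3, h4, h5, h6⟩ := s3_univ_b b hb hb1
  rw [h6, Finset.sum_insert h1, Finset.sum_insert h2, Finset.sum_insert h3,
    Finset.sum_insert h4, Finset.sum_insert h5, Finset.sum_singleton]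
  abel

section TypeI

variable {K : Type*} [Field K] [IsAlgClosed K] {E : Type*} [Group E] [Finite E]
  [MulDistribMulAction (Equiv.Perm (Fin 3)) E] [Group.IsSolvable E]
  {V : Type*} [AddCommGroup V] [Module K V] [FiniteDimensional K V]
  {θ : E →* Module.End K V} {T : Equiv.Perm (Fin 3) →* Module.End K V}

theorem theta_smul (hcompat : ∀ a x, T a * θ x = θ (a • x) * T a) (a : Equiv.Perm (Fin 3))
    (x : E) : θ (a • x) = T a * θ x * T a⁻¹ := by
  rw [hcompat a x, mul_assoc, T_mul_inv, mul_one]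

theorem theta_conj (hcompat : ∀ a x, T a * θ x = θ (a • x) * T a) (a : Equiv.Perm (Fin 3))
    (x y : E) (h : θ x = θ y) : θ (a • x) = θ (a • y) := by
  rw [theta_smul hcompat, theta_smul hcompat, h]

theorem theta_fixker (hcop : (Nat.card E).Coprime 6)
    (hfpf : ∀ x : E, (∀ a : Equiv.Perm (Fin 3), a • x = x) → x = 1)
    (hcompat : ∀ a x, T a * θ x = θ (a • x) * T a) (x : E)
    (hx : ∀ a : Equiv.Perm (Fin 3), θ (a • x) = θ x) : θ x = 1 := by
  have hcopA : (Nat.card (Equiv.Perm (Fin 3))).Coprime (Nat.card E) := by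
    rw [card_s3]; exact hcop.symm
  apply fix_ker hcopA hfpf θ _ x hx
  intro a y hy
  have := theta_conj hcompat a y 1 (by rw [hy, map_one])
  rw [this, smul_one, map_one]

/-- The case where `c3` acts trivially modulo the kernel. -/
theorem typeI_rho (hcop : (Nat.card E).Coprime 6)
    (hfpf : ∀ x : E, (∀ a : Equiv.Perm (Fin 3), a • x = x) → x = 1)
    (hcompat : ∀ a x, T a * θ x = θ (a • x) * T a) (hrho : ∀ x, θ (c3 • x) = θ x) :
    ∀ x y, θ x * θ y = θ y * θ x := by
  have hodd : Odd (Nat.card E) := by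
    rw [Nat.odd_iff]
    have h2 : ¬ 2 ∣ Nat.card E := by
      intro h
      have := Nat.Coprime.coprime_dvd_left h hcop
      exact absurd this (by decide)
    omega
  have hθinv : ∀ g : E, θ g⁻¹ * θ g = 1 := fun g => by rw [← map_mul, inv_mul_cancel, map_one]
  have hθinv' : ∀ g : E, θ g * θ g⁻¹ = 1 := fun g => by rw [← map_mul, mul_inv_cancel, map_one]
  have hinvsw : ∀ x, θ (sw • x) = θ x⁻¹ := by
    intro x
    obtain ⟨c, j, rfl, hc, hj⟩ := odd_dec hodd (MulDistribMulAction.toMulAut (Equiv.Perm (Fin 3)) E sw)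
      (fun x => by
        show sw • sw • x = x
        rw [← mul_smul, sw_sq, one_smul]) x
    have hc' : sw • c = c := hc
    have hj' : sw • j = j⁻¹ := hj
    have hc1 : θ c = 1 := by
      apply theta_fixker hcop hfpf hcompat
      refine s3_ind (fun a => θ (a • c) = θ c) sw sw_sq sw_ne_one ?_ ?_ ?_
      · show θ ((1 : Equiv.Perm (Fin 3)) • c) = θ c
        rw [one_smul]
      · intro a (ha : θ (a • c) = θ c)
        show θ ((c3 * a) • c) = θ c
        rw [mul_smul, hrho, ha]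
      · intro a (ha : θ (a • c) = θ c)
        show θ ((sw * a) • c) = θ c
        rw [mul_smul, theta_conj hcompat sw _ _ ha, hc']
    have hc2 : θ c⁻¹ = 1 := by
      have := hθinv c
      rwa [hc1, mul_one] at this
    rw [smul_mul', hc', hj', map_mul, hc1, one_mul, mul_inv_rev, map_mul, hc2, mul_one]
  intro x y
  have h1 := hinvsw (x⁻¹ * y⁻¹)
  rw [smul_mul', map_mul, hinvsw, hinvsw, mul_inv_rev, inv_inv, inv_inv, map_mul] at h1
  exact h1

/-- In a single orbit with stabiliser `⟨c3⟩`, the norm of `c3` vanishes. -/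
theorem typeI_rho_sum (hcompat : ∀ a x, T a * θ x = θ (a • x) * T a) (hsum : ∑ a, T a = 0)
    (Z : Subgroup E) (hZ : ∀ a : Equiv.Perm (Fin 3), ∀ z ∈ Z, a • z ∈ Z) (χ : E → K)
    (hc3 : ∀ z ∈ Z, χ (c3 • z) = χ z) (hsw : ∃ z ∈ Z, χ (sw • z) ≠ χ z)
    (htop : ⨆ a : Equiv.Perm (Fin 3), (wtSpace θ Z χ).map (T a) = ⊤) :
    T c3 * T c3 + T c3 + 1 = 0 := by
  have hWP : ∀ w ∈ wtSpace θ Z χ, T c3 w ∈ wtSpace θ Z χ := by
    intro w hw z hz
    have := (wt_smul hcompat Z hZ c3 χ w hw) z hz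
    rw [atr_apply, fixes_inv Z hZ χ c3 hc3 z hz] at this
    exact this
  have e1 : c3 * sw = sw * (c3 * c3) := by decide
  have e2 : c3 * (c3 * sw) = sw * c3 := by decide
  have hNW : ∀ w ∈ wtSpace θ Z χ, (T c3 * T c3 + T c3 + 1) w = 0 := by
    intro w hw
    have hs := congrArg (fun f : Module.End K V => f w) hsum
    rw [sum_s3, e2, e1] at hs
    simp only [map_mul, map_one, LinearMap.add_apply, Module.End.mul_apply,
      Module.End.one_apply, LinearMap.zero_apply] at hs
    obtain ⟨m, hm⟩ : ∃ m : V, m = (T c3 * T c3 + T c3 + 1) w := ⟨_, rfl⟩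
    have hm' : m = T c3 (T c3 w) + T c3 w + w := hm
    have hmW : m ∈ wtSpace θ Z χ := by
      rw [hm']
      exact Submodule.add_mem _ (Submodule.add_mem _ (hWP _ (hWP w hw)) (hWP w hw)) hw
    have h2 : m + T sw m = 0 := by
      rw [hm', map_add, map_add, ← hs]; abel
    obtain ⟨z₁, hz₁, hne⟩ := hsw
    rw [← hm]
    refine wt_indep2 θ Z χ (atr sw χ) ⟨sw • z₁, hZ sw z₁ hz₁, ?_⟩ m (T sw m) hmW
      (wt_smul hcompat Z hZ sw χ m hmW) h2
    rw [atr_apply, inv_smul_smul]
    exact hne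
  have hPQ : T c3 * T sw = T sw * (T c3 * T c3) := by
    rw [← map_mul, ← map_mul, ← map_mul, e1]
  have hPPQ : T c3 * (T c3 * T sw) = T sw * T c3 := by
    rw [← map_mul, ← map_mul, ← map_mul, e2]
  have hNcomm : ∀ a, (T c3 * T c3 + T c3 + 1) * T a = T a * (T c3 * T c3 + T c3 + 1) := by
    refine s3_ind (fun a => (T c3 * T c3 + T c3 + 1) * T a = T a * (T c3 * T c3 + T c3 + 1))
      sw sw_sq sw_ne_one ?_ ?_ ?_
    · show (T c3 * T c3 + T c3 + 1) * T 1 = T 1 * (T c3 * T c3 + T c3 + 1)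
      rw [map_one, one_mul, mul_one]
    · intro a (ha : (T c3 * T c3 + T c3 + 1) * T a = T a * (T c3 * T c3 + T c3 + 1))
      show (T c3 * T c3 + T c3 + 1) * T (c3 * a) = T (c3 * a) * (T c3 * T c3 + T c3 + 1)
      rw [map_mul, ← mul_assoc, mul_assoc (T c3) (T a), ← ha, ← mul_assoc]
      congr 1
      noncomm_ring
    · intro a (ha : (T c3 * T c3 + T c3 + 1) * T a = T a * (T c3 * T c3 + T c3 + 1))
      show (T c3 * T c3 + T c3 + 1) * T (sw * a) = T (sw * a) * (T c3 * T c3 + T c3 + 1)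
      rw [map_mul, ← mul_assoc, mul_assoc (T sw) (T a), ← ha, ← mul_assoc]
      congr 1
      rw [add_mul, add_mul, one_mul, mul_assoc, hPPQ, hPQ, mul_add, mul_add, mul_one]
      abel
  have key : LinearMap.eqLocus (T c3 * T c3 + T c3 + 1) 0 = ⊤ := by
    rw [eq_top_iff, ← htop]
    apply iSup_le
    intro a
    rintro _ ⟨w, hw, rfl⟩
    rw [LinearMap.mem_eqLocus]
    have h1 := congrArg (fun f : Module.End K V => f w) (hNcomm a)
    simp only [Module.End.mul_apply] at h1
    rw [h1, hNW w hw, map_zero]; rfl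
  apply LinearMap.ext
  intro w
  have h1 : w ∈ LinearMap.eqLocus (T c3 * T c3 + T c3 + 1) 0 := by rw [key]; trivial
  exact LinearMap.mem_eqLocus.mp h1

set_option maxHeartbeats 1600000 in
/-- The case of a single orbit of length three. -/
theorem typeI_tau (hcop : (Nat.card E).Coprime 6)
    (hfpf : ∀ x : E, (∀ a : Equiv.Perm (Fin 3), a • x = x) → x = 1)
    (hcompat : ∀ a x, T a * θ x = θ (a • x) * T a) (hsum : ∑ a, T a = 0)
    (Z : Subgroup E) (hZ : ∀ a : Equiv.Perm (Fin 3), ∀ z ∈ Z, a • z ∈ Z)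
    (hZc : ∀ z ∈ Z, ∀ x, θ z * θ x = θ x * θ z) (χ : E → K)
    (b : Equiv.Perm (Fin 3)) (hb : b * b = 1) (hb1 : b ≠ 1)
    (hbχ : ∀ z ∈ Z, χ (b • z) = χ z) (hc3 : ∃ z ∈ Z, χ (c3 • z) ≠ χ z)
    (htop : ⨆ a : Equiv.Perm (Fin 3), (wtSpace θ Z χ).map (T a) = ⊤) :
    ∀ x y, θ x * θ y = θ y * θ x := by
  have hθinv : ∀ g : E, θ g⁻¹ * θ g = 1 := fun g => by rw [← map_mul, inv_mul_cancel, map_one]
  have hθinv' : ∀ g : E, θ g * θ g⁻¹ = 1 := fun g => by rw [← map_mul, mul_inv_cancel, map_one]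
  have hθl : ∀ (g : E) (v : V), θ g⁻¹ (θ g v) = v := fun g v =>
    congrArg (fun f : Module.End K V => f v) (hθinv g)
  have hTapp := compat_apply hcompat
  have hWθ : ∀ (x : E), ∀ w ∈ wtSpace θ Z χ, θ x w ∈ wtSpace θ Z χ := by
    intro x w hw z hz
    have h1 : θ z (θ x w) = θ x (θ z w) :=
      congrArg (fun f : Module.End K V => f w) (hZc z hz x)
    rw [h1, hw z hz, map_smul]
  have hWQ : ∀ w ∈ wtSpace θ Z χ, T b w ∈ wtSpace θ Z χ := by
    intro w hw z hz
    have := (wt_smul hcompat Z hZ b χ w hw) z hz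
    rw [atr_apply, fixes_inv Z hZ χ b hbχ z hz] at this
    exact this
  -- `T b = -1` on the weight space
  have hQW : ∀ w ∈ wtSpace θ Z χ, T b w = -w := by
    intro w hw
    have hs := congrArg (fun f : Module.End K V => f w) hsum
    rw [sum_s3_b b hb hb1] at hs
    simp only [map_mul, map_one, LinearMap.add_apply, Module.End.mul_apply,
      Module.End.one_apply, LinearMap.zero_apply] at hs
    obtain ⟨m, hm⟩ : ∃ m : V, m = w + T b w := ⟨_, rfl⟩
    have hmW : m ∈ wtSpace θ Z χ := by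
      rw [hm]; exact Submodule.add_mem _ hw (hWQ w hw)
    have h2 : m + T c3 m + T c3 (T c3 m) = 0 := by
      rw [hm]
      simp only [map_add]
      rw [← hs]; abel
    obtain ⟨z₁, hz₁, hne⟩ := hc3
    have h3 : m = 0 := by
      refine wt_indep3 θ Z χ (atr c3 χ) (atr c3 (atr c3 χ)) ⟨c3 • z₁, hZ c3 z₁ hz₁, ?_⟩
        ⟨z₁, hz₁, ?_⟩ m (T c3 m) (T c3 (T c3 m)) hmW (wt_smul hcompat Z hZ c3 χ m hmW)
        (wt_smul hcompat Z hZ c3 _ _ (wt_smul hcompat Z hZ c3 χ m hmW)) h2
      · rw [atr_apply, inv_smul_smul]; exact hne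
      · rw [atr_apply, atr_apply, ← mul_smul]
        have e : c3⁻¹ * c3⁻¹ = c3 := by decide
        rw [e]; exact hne.symm
    rw [h3] at hm
    exact eq_neg_of_add_eq_zero_right hm.symm
  -- the unit groups
  obtain ⟨θu, hθu⟩ : ∃ θu : E →* (Module.End K V)ˣ, ∀ x, ((θu x : (Module.End K V)ˣ) :
      Module.End K V) = θ x := ⟨θ.toHomUnits, fun x => MonoidHom.coe_toHomUnits θ x⟩
  obtain ⟨Tu, hTu⟩ : ∃ Tu : Equiv.Perm (Fin 3) →* (Module.End K V)ˣ,
      ∀ a, ((Tu a : (Module.End K V)ˣ) : Module.End K V) = T a :=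
    ⟨T.toHomUnits, fun x => MonoidHom.coe_toHomUnits T x⟩
  have hconjU : ∀ a x, Tu a * θu x * (Tu a)⁻¹ = θu (a • x) := by
    intro a x
    apply Units.ext
    rw [Units.val_mul, Units.val_mul, ← map_inv, hTu, hTu, hθu, hθu, theta_smul hcompat]
  have hconjU' : ∀ a x, (Tu a)⁻¹ * θu x * Tu a = θu (a⁻¹ • x) := by
    intro a x
    have := hconjU a⁻¹ x
    rwa [map_inv, inv_inv] at this
  haveI : Finite ↥θu.range := Finite.of_surjective θu.rangeRestrict θu.rangeRestrict_surjective
  obtain ⟨FixW, hFixW⟩ : ∃ F : Subgroup (Module.End K V)ˣ, ∀ X, X ∈ F ↔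
      ∀ w ∈ wtSpace θ Z χ, (X : Module.End K V) w = w := by
    refine ⟨{ carrier := {X | ∀ w ∈ wtSpace θ Z χ, (X : Module.End K V) w = w}
              one_mem' := fun w _ => rfl
              mul_mem' := ?_
              inv_mem' := ?_ }, fun X => Iff.rfl⟩
    · intro X Y hX hY w hw
      show (X : Module.End K V) ((Y : Module.End K V) w) = w
      rw [hY w hw, hX w hw]
    · intro X hX w hw
      have h1 : ((X⁻¹ : (Module.End K V)ˣ) : Module.End K V) ((X : Module.End K V) w) = w :=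
        congrArg (fun f : Module.End K V => f w) (Units.inv_mul X)
      rw [hX w hw] at h1
      exact h1
  have hcomm := o3_comm θu.range (θu.range ⊓ FixW) (Tu c3) (Tu b)
    (by rw [← map_mul, ← map_mul, c3_cube, map_one])
    (by rw [← map_mul, hb, map_one])
    (by rw [← map_mul, s3_inv_rel b hb hb1, map_mul, map_inv])
    (by
      rintro _ ⟨x, rfl⟩
      exact ⟨c3 • x, (hconjU c3 x).symm⟩)
    (by
      rintro _ ⟨x, rfl⟩ h1 h2
      rw [hconjU] at h1 h2
      have h3 : θ x = 1 := by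
        apply theta_fixker hcop hfpf hcompat
        refine s3_ind (fun a => θ (a • x) = θ x) b hb hb1 ?_ ?_ ?_
        · show θ ((1 : Equiv.Perm (Fin 3)) • x) = θ x
          rw [one_smul]
        · intro a (ha : θ (a • x) = θ x)
          show θ ((c3 * a) • x) = θ x
          rw [mul_smul, theta_conj hcompat c3 _ _ ha, ← hθu, h1, hθu]
        · intro a (ha : θ (a • x) = θ x)
          show θ ((b * a) • x) = θ x
          rw [mul_smul, theta_conj hcompat b _ _ ha, ← hθu, h2, hθu]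
      apply Units.ext
      rw [hθu, h3]; rfl)
    inf_le_left
    (by
      rintro _ ⟨x, rfl⟩ k ⟨hk1, hk2⟩
      refine ⟨Subgroup.mul_mem _ (Subgroup.mul_mem _ ⟨x, rfl⟩ hk1) (Subgroup.inv_mem _ ⟨x, rfl⟩),
        (hFixW _).mpr ?_⟩
      have hk2 := (hFixW k).mp hk2
      intro w hw
      rw [← map_inv]
      show (θu x : Module.End K V) ((k : Module.End K V) ((θu x⁻¹ : Module.End K V) w)) = w
      rw [hθu, hθu, hk2 _ (hWθ x⁻¹ w hw)]
      have := hθl x⁻¹ w
      rwa [inv_inv] at this)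
    (by
      rintro _ ⟨x, rfl⟩
      rw [hconjU, ← map_inv, ← map_mul]
      refine ⟨⟨_, rfl⟩, (hFixW _).mpr ?_⟩
      intro w hw
      rw [hθu, map_mul]
      show θ x⁻¹ (θ (b • x) w) = w
      have h1 := hTapp b x (-w)
      have e1 : T b (-w) = w := by rw [map_neg, hQW w hw, neg_neg]
      have e2 : T b (θ x (-w)) = θ x w := by
        rw [map_neg, map_neg, hQW _ (hWθ x w hw), neg_neg]
      rw [e1, e2] at h1
      rw [← h1, hθl])
    (by
      rintro k ⟨hk1, hk2⟩ ⟨-, hk3⟩ ⟨-, hk4⟩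
      have hk2 := (hFixW k).mp hk2
      have hk3 := (hFixW _).mp hk3
      have hk4 := (hFixW _).mp hk4
      have hP1 : ∀ w ∈ wtSpace θ Z χ, (k : Module.End K V) (T c3 w) = T c3 w := by
        intro w hw
        have h1 := hk3 w hw
        have h2 : ((Tu c3)⁻¹ * k * Tu c3 : (Module.End K V)ˣ) =
            (Tu c3⁻¹ * k * Tu c3 : (Module.End K V)ˣ) := by rw [map_inv]
        rw [h2] at h1
        have h3 : T c3⁻¹ ((k : Module.End K V) (T c3 w)) = w := by
          rw [← hTu, ← hTu]; exact h1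
        have h4 := congrArg (T c3) h3
        rwa [T_apply_inv] at h4
      have hP2 : ∀ w ∈ wtSpace θ Z χ, (k : Module.End K V) (T c3⁻¹ w) = T c3⁻¹ w := by
        intro w hw
        have h1 := hk4 w hw
        have h2 : (Tu c3 * k * (Tu c3)⁻¹ : (Module.End K V)ˣ) =
            (Tu c3 * k * Tu c3⁻¹ : (Module.End K V)ˣ) := by rw [map_inv]
        rw [h2] at h1
        have h3 : T c3 ((k : Module.End K V) (T c3⁻¹ w)) = w := by
          rw [← hTu, ← hTu]; exact h1
        have h4 := congrArg (T c3⁻¹) h3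
        rwa [T_inv_apply] at h4
      have hP2' : ∀ w ∈ wtSpace θ Z χ, (k : Module.End K V) (T c3 (T c3 w)) = T c3 (T c3 w) := by
        intro w hw
        have e : T c3 (T c3 w) = T c3⁻¹ w := by
          have : T c3⁻¹ = T c3 * T c3 := by rw [← map_mul, c3_inv]
          rw [this]; rfl
        rw [e]; exact hP2 w hw
      have key : LinearMap.eqLocus (k : Module.End K V) 1 = ⊤ := by
        rw [eq_top_iff, ← htop]
        apply iSup_le
        intro a
        rintro _ ⟨w, hw, rfl⟩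
        rw [LinearMap.mem_eqLocus]
        show (k : Module.End K V) (T a w) = T a w
        rcases s3_inv_cases b hb hb1 a with h | h | h | h | h | h
        · rw [h, map_one]; exact hk2 w hw
        · rw [h]; exact hP1 w hw
        · rw [h, map_mul]; exact hP2' w hw
        · rw [h]; exact hk2 _ (hWQ w hw)
        · rw [h, map_mul]; exact hP1 _ (hWQ w hw)
        · rw [h, map_mul, map_mul]; exact hP2' _ (hWQ w hw)
      apply Units.ext
      apply LinearMap.ext
      intro w
      have h1 : w ∈ LinearMap.eqLocus (k : Module.End K V) 1 := by rw [key]; trivial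
      exact LinearMap.mem_eqLocus.mp h1)
  intro x y
  have h1 := hcomm (θu x) ⟨x, rfl⟩ (θu y) ⟨y, rfl⟩
  have h2 := congrArg (fun X : (Module.End K V)ˣ => (X : Module.End K V)) h1
  simp only [Units.val_mul, hθu] at h2
  exact h2

end TypeI

universe v

set_option maxHeartbeats 3200000 in
/-- Type I: an `r`-group with a fixed-point-free `S₃`-action acts through an abelian group on
any module on which `S₃` acts compatibly without fixed vectors. -/
theorem typeI {K : Type*} [Field K] [IsAlgClosed K] {E : Type*} [Group E] [Finite E]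
    [MulDistribMulAction (Equiv.Perm (Fin 3)) E] [Group.IsSolvable E]
    (hcop : (Nat.card E).Coprime 6) {r : ℕ} [Fact r.Prime] (hE : IsPGroup r E)
    (hNK : (Nat.card E : K) ≠ 0) (h3K : (3 : K) ≠ 0)
    (hfpf : ∀ x : E, (∀ a : Equiv.Perm (Fin 3), a • x = x) → x = 1) :
    ∀ (n : ℕ) (V : Type v) [AddCommGroup V] [Module K V] [FiniteDimensional K V],
      Module.finrank K V = n → ∀ (θ : E →* Module.End K V)
      (T : Equiv.Perm (Fin 3) →* Module.End K V),
      (∀ a x, T a * θ x = θ (a • x) * T a) → (∑ a, T a = 0) →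
      ∀ x y, θ x * θ y = θ y * θ x := by
  intro n
  induction n using Nat.strong_induction_on with
  | _ n ih =>
    intro V _ _ _ hdim θ T hcompat hsum
    by_contra hcon
    push Not at hcon
    obtain ⟨x₀, y₀, hxy⟩ := hcon
    have hθinv : ∀ g : E, θ g⁻¹ * θ g = 1 := fun g => by
      rw [← map_mul, inv_mul_cancel, map_one]
    have hθinv' : ∀ g : E, θ g * θ g⁻¹ = 1 := fun g => by
      rw [← map_mul, mul_inv_cancel, map_one]
    have hTapp := compat_apply hcompat
    obtain ⟨Z, hZdef⟩ : ∃ Z : Subgroup E, ∀ z, z ∈ Z ↔ ∀ x, θ z * θ x = θ x * θ z := by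
      refine ⟨{ carrier := {z | ∀ x, θ z * θ x = θ x * θ z}
                one_mem' := fun x => by rw [map_one, one_mul, mul_one]
                mul_mem' := ?_
                inv_mem' := ?_ }, fun z => Iff.rfl⟩
      · intro a b ha hb x
        rw [map_mul, mul_assoc, hb x, ← mul_assoc, ha x, mul_assoc]
      · intro a ha x
        calc θ a⁻¹ * θ x = θ a⁻¹ * θ x * (θ a * θ a⁻¹) := by rw [hθinv', mul_one]
          _ = θ a⁻¹ * (θ x * θ a) * θ a⁻¹ := by simp only [mul_assoc]
          _ = θ a⁻¹ * (θ a * θ x) * θ a⁻¹ := by rw [ha x]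
          _ = θ a⁻¹ * θ a * θ x * θ a⁻¹ := by simp only [mul_assoc]
          _ = θ x * θ a⁻¹ := by rw [hθinv, one_mul]
    have hZc : ∀ z ∈ Z, ∀ x, θ z * θ x = θ x * θ z := fun z hz => (hZdef z).mp hz
    have hZ : ∀ a : Equiv.Perm (Fin 3), ∀ z ∈ Z, a • z ∈ Z := by
      intro a z hz
      rw [hZdef]
      intro x
      have h1 : θ (z * a⁻¹ • x) = θ (a⁻¹ • x * z) := by rw [map_mul, map_mul, hZc z hz]
      have h2 := theta_conj hcompat a _ _ h1
      rw [smul_mul', smul_mul', smul_inv_smul, map_mul, map_mul] at h2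
      exact h2
    obtain ⟨z₀, hz₀Z, hz₀⟩ : ∃ z₀ ∈ Z, θ z₀ ≠ 1 := by
      obtain ⟨θu, hθu⟩ : ∃ θu : E →* (Module.End K V)ˣ, ∀ x, ((θu x : (Module.End K V)ˣ) :
          Module.End K V) = θ x := ⟨θ.toHomUnits, fun x => MonoidHom.coe_toHomUnits θ x⟩
      haveI : Finite ↥θu.range :=
        Finite.of_surjective θu.rangeRestrict θu.rangeRestrict_surjective
      have hpg : IsPGroup r ↥θu.range :=
        hE.of_surjective θu.rangeRestrict θu.rangeRestrict_surjective
      haveI : Nontrivial ↥θu.range := by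
        refine ⟨⟨⟨θu x₀, x₀, rfl⟩, 1, ?_⟩⟩
        intro h
        apply hxy
        have h1 : θu x₀ = 1 := congrArg Subtype.val h
        have h2 : θ x₀ = 1 := by rw [← hθu, h1]; rfl
        rw [h2, one_mul, mul_one]
      haveI := hpg.center_nontrivial
      obtain ⟨ζ, hζ⟩ := exists_ne (1 : ↥(Subgroup.center ↥θu.range))
      obtain ⟨z₀, hz₀⟩ : ∃ z₀ : E, θu z₀ = ((ζ : ↥θu.range) : (Module.End K V)ˣ) := ζ.1.2
      refine ⟨z₀, ?_, ?_⟩
      · rw [hZdef]
        intro x
        have h1 := Subgroup.mem_center_iff.mp ζ.2 ⟨θu x, x, rfl⟩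
        have h2 : θu x * θu z₀ = θu z₀ * θu x := by
          rw [hz₀]
          exact congrArg Subtype.val h1
        have h3 := congrArg (fun X : (Module.End K V)ˣ => (X : Module.End K V)) h2
        simp only [Units.val_mul, hθu] at h3
        exact h3.symm
      · intro h
        apply hζ
        apply Subtype.ext
        apply Subtype.ext
        show ((ζ : ↥θu.range) : (Module.End K V)ˣ) = 1
        rw [← hz₀]
        apply Units.ext
        rw [hθu, h]; rfl
    have hZcomm : ∀ z ∈ Z, ∀ z' ∈ Z, θ z * θ z' = θ z' * θ z := fun z hz z' _ => hZc z hz z'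
    have hWθ : ∀ (χ : E → K) (x : E), ∀ w ∈ wtSpace θ Z χ, θ x w ∈ wtSpace θ Z χ := by
      intro χ x w hw z hz
      have h1 : θ z (θ x w) = θ x (θ z w) :=
        congrArg (fun f : Module.End K V => f w) (hZc z hz x)
      rw [h1, hw z hz, map_smul]
    have hUT : ∀ (χ : E → K) (b : Equiv.Perm (Fin 3)),
        ∀ u ∈ (⨆ a : Equiv.Perm (Fin 3), (wtSpace θ Z χ).map (T a)),
        T b u ∈ ⨆ a : Equiv.Perm (Fin 3), (wtSpace θ Z χ).map (T a) := by
      intro χ b u hu
      have h1 : T b u ∈ (⨆ a : Equiv.Perm (Fin 3), (wtSpace θ Z χ).map (T a)).map (T b) :=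
        ⟨u, hu, rfl⟩
      rw [Submodule.map_iSup] at h1
      refine (iSup_le ?_ : ⨆ a : Equiv.Perm (Fin 3), ((wtSpace θ Z χ).map (T a)).map (T b) ≤ _) h1
      intro a
      rintro _ ⟨_, ⟨w, hw, rfl⟩, rfl⟩
      have e : T b (T a w) = T (b * a) w := by rw [map_mul]; rfl
      rw [e]
      exact Submodule.mem_iSup_of_mem (b * a) ⟨w, hw, rfl⟩
    have hUθ : ∀ (χ : E → K) (x : E),
        ∀ u ∈ (⨆ a : Equiv.Perm (Fin 3), (wtSpace θ Z χ).map (T a)),
        θ x u ∈ ⨆ a : Equiv.Perm (Fin 3), (wtSpace θ Z χ).map (T a) := by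
      intro χ x u hu
      have h1 : θ x u ∈ (⨆ a : Equiv.Perm (Fin 3), (wtSpace θ Z χ).map (T a)).map (θ x) :=
        ⟨u, hu, rfl⟩
      rw [Submodule.map_iSup] at h1
      refine (iSup_le ?_ : ⨆ a : Equiv.Perm (Fin 3), ((wtSpace θ Z χ).map (T a)).map (θ x) ≤ _) h1
      intro a
      rintro _ ⟨_, ⟨w, hw, rfl⟩, rfl⟩
      have e := hTapp a (a⁻¹ • x) w
      rw [smul_inv_smul] at e
      rw [← e]
      exact Submodule.mem_iSup_of_mem a ⟨_, hWθ χ _ w hw, rfl⟩
    have hsub : ∀ χ : E → K, (⨆ a : Equiv.Perm (Fin 3), (wtSpace θ Z χ).map (T a)) ≠ ⊤ →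
        ∀ u ∈ (⨆ a : Equiv.Perm (Fin 3), (wtSpace θ Z χ).map (T a)),
        θ x₀ (θ y₀ u) = θ y₀ (θ x₀ u) := by
      intro χ hne u hu
      obtain ⟨U, hU⟩ : ∃ U : Submodule K V,
          U = ⨆ a : Equiv.Perm (Fin 3), (wtSpace θ Z χ).map (T a) := ⟨_, rfl⟩
      rw [← hU] at hne hu
      have hUθ' : ∀ x : E, ∀ u ∈ U, θ x u ∈ U := by rw [hU]; exact hUθ χ
      have hUT' : ∀ b : Equiv.Perm (Fin 3), ∀ u ∈ U, T b u ∈ U := by rw [hU]; exact hUT χ
      have hlt : Module.finrank K ↥U < n := by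
        rw [← hdim]; exact Submodule.finrank_lt hne
      have key := ih _ hlt ↥U rfl (resRep θ U hUθ') (resRep T U hUT')
        (by
          intro a x
          apply LinearMap.ext
          intro u
          apply Subtype.ext
          exact hTapp a x u)
        (by
          apply LinearMap.ext
          intro u
          apply Subtype.ext
          have h := congrArg (fun f : Module.End K V => f (u : V)) hsum
          simp only [LinearMap.sum_apply] at h
          rw [LinearMap.sum_apply]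
          simp only [Submodule.coe_sum]
          exact h) x₀ y₀
      exact congrArg (fun f : Module.End K ↥U => ((f ⟨u, hu⟩ : ↥U) : V)) key
    obtain ⟨χ₁, htop⟩ : ∃ χ₁ : E → K,
        (⨆ a : Equiv.Perm (Fin 3), (wtSpace θ Z χ₁).map (T a)) = ⊤ := by
      by_contra hno
      push Not at hno
      apply hxy
      have key : LinearMap.eqLocus (θ x₀ * θ y₀) (θ y₀ * θ x₀) = ⊤ := by
        apply wt_induction θ Z (Nat.card E) hNK (fun z _ => pow_card_eq_one') hZcomm
        intro χ w hw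
        rw [LinearMap.mem_eqLocus]
        have hwU : w ∈ ⨆ a : Equiv.Perm (Fin 3), (wtSpace θ Z χ).map (T a) := by
          refine Submodule.mem_iSup_of_mem 1 ⟨w, hw, ?_⟩
          rw [map_one]; rfl
        exact hsub χ (hno χ) w hwU
      apply LinearMap.ext
      intro w
      have h1 : w ∈ LinearMap.eqLocus (θ x₀ * θ y₀) (θ y₀ * θ x₀) := by rw [key]; trivial
      exact LinearMap.mem_eqLocus.mp h1
    obtain ⟨w₁, hw₁, hw₁0⟩ : ∃ w₁ ∈ wtSpace θ Z χ₁, w₁ ≠ 0 := by
      by_contra hno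
      push Not at hno
      apply hz₀
      apply LinearMap.ext
      intro v
      have hv : v ∈ ⨆ a : Equiv.Perm (Fin 3), (wtSpace θ Z χ₁).map (T a) := by
        rw [htop]; trivial
      have hbot : (⨆ a : Equiv.Perm (Fin 3), (wtSpace θ Z χ₁).map (T a)) ≤ ⊥ := by
        apply iSup_le
        intro a
        rintro _ ⟨w, hw, rfl⟩
        rw [hno w hw, map_zero]
        exact Submodule.zero_mem _
      have h0 := hbot hv
      rw [Submodule.mem_bot] at h0
      rw [h0, map_zero, map_zero]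
    have hallfix : (∀ a : Equiv.Perm (Fin 3), ∀ z ∈ Z, χ₁ (a • z) = χ₁ z) → False := by
      intro hall
      apply hz₀
      have key : LinearMap.eqLocus (θ z₀) 1 = ⊤ := by
        rw [eq_top_iff, ← htop]
        apply iSup_le
        intro a
        rintro _ ⟨w, hw, rfl⟩
        rw [LinearMap.mem_eqLocus]
        have h1 := hTapp a (a⁻¹ • z₀) w
        rw [smul_inv_smul] at h1
        rw [← h1, wt_trivial_of_fixed hcop hfpf Z hZ χ₁ hall w hw _ (hZ a⁻¹ z₀ hz₀Z)]
        rfl
      apply LinearMap.ext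
      intro w
      have h1 : w ∈ LinearMap.eqLocus (θ z₀) 1 := by rw [key]; trivial
      exact LinearMap.mem_eqLocus.mp h1
    rcases exists_stab' hcompat hsum Z hZ χ₁ w₁ hw₁ hw₁0 with hc | ⟨b, hb, hb1, hbχ⟩
    · by_cases hswf : ∀ z ∈ Z, χ₁ (sw • z) = χ₁ z
      · apply hallfix
        refine s3_ind (fun a => ∀ z ∈ Z, χ₁ (a • z) = χ₁ z) sw sw_sq sw_ne_one ?_ ?_ ?_
        · intro z hz
          show χ₁ ((1 : Equiv.Perm (Fin 3)) • z) = χ₁ z
          rw [one_smul]
        · intro a ha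
          exact fixes_mul Z hZ χ₁ c3 a hc ha
        · intro a ha
          exact fixes_mul Z hZ χ₁ sw a hswf ha
      · push Not at hswf
        have hN := typeI_rho_sum hcompat hsum Z hZ χ₁ hc hswf htop
        have hrho := rho_centralizes hcop hNK h3K θ
          (MulDistribMulAction.toMulAut (Equiv.Perm (Fin 3)) E c3)
          (fun x => by
            show c3 • c3 • c3 • x = x
            rw [← mul_smul, ← mul_smul, c3_cube, one_smul])
          (T c3) (fun x => hcompat c3 x) hN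
        exact hxy (typeI_rho hcop hfpf hcompat hrho x₀ y₀)
    · by_cases hcf : ∀ z ∈ Z, χ₁ (c3 • z) = χ₁ z
      · apply hallfix
        refine s3_ind (fun a => ∀ z ∈ Z, χ₁ (a • z) = χ₁ z) b hb hb1 ?_ ?_ ?_
        · intro z hz
          show χ₁ ((1 : Equiv.Perm (Fin 3)) • z) = χ₁ z
          rw [one_smul]
        · intro a ha
          exact fixes_mul Z hZ χ₁ c3 a hcf ha
        · intro a ha
          exact fixes_mul Z hZ χ₁ b a hbχ ha
      · push Not at hcf
        exact hxy (typeI_tau hcop hfpf hcompat hsum Z hZ hZc χ₁ b hb hb1 hbχ hcf htop x₀ y₀)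

end Cfsg.Agent.H66.S3L
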