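import Cfsg.Agent.H66.S3Base

/-!
# Weights for groups acted on by `S₃`

Simultaneous diagonalisation of a commuting family of operators of order prime to the
characteristic, independence of weight vectors, and the action of `S₃` on weights.
-/

set_option autoImplicit false
set_option linter.style.haveILetI false
set_option linter.unusedVariables false
set_option linter.unusedSectionVars false

namespace Cfsg.Agent.H66.S3L

open Cfsg Module
open scoped commutatorElement

section Weights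

variable {K : Type*} [Field K] {V : Type*} [AddCommGroup V] [Module K V]
variable {H : Type*} [Group H]

/-- Weight decomposition as an induction principle: a submodule containing all weight spaces of
a subgroup acting by commuting operators of order prime to the characteristic is everything. -/
theorem wt_induction [IsAlgClosed K] [FiniteDimensional K V] (θ : H →* Module.End K V)
    (Z : Subgroup H) (n : ℕ) (hn : (n : K) ≠ 0) (hpow : ∀ z ∈ Z, z ^ n = 1)
    (hcomm : ∀ z ∈ Z, ∀ z' ∈ Z, θ z * θ z' = θ z' * θ z) (M : Submodule K V)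
    (hM : ∀ χ : H → K, wtSpace θ Z χ ≤ M) : M = ⊤ := by
  classical
  obtain ⟨f, hf⟩ : ∃ f : ↥Z → Module.End K V, ∀ z, f z = θ (z : H) := ⟨fun z => θ z, fun _ => rfl⟩
  have hss : ∀ z, (f z).IsSemisimple := by
    intro z
    apply Module.End.isSemisimple_of_squarefree_aeval_eq_zero
      (p := (Polynomial.X ^ n - Polynomial.C (1 : K)))
    · exact (Polynomial.separable_X_pow_sub_C (1 : K) hn one_ne_zero).squarefree
    · rw [map_sub, map_pow, Polynomial.aeval_X, Polynomial.aeval_C, hf, ← map_pow, hpow z z.2,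
        map_one, map_one, sub_self]
  have h1 : ⨆ χ : ↥Z → K, ⨅ z, (f z).maxGenEigenspace (χ z) = ⊤ := by
    apply Module.End.iSup_iInf_maxGenEigenspace_eq_top_of_iSup_maxGenEigenspace_eq_top_of_commute
    · intro i j _
      show f i * f j = f j * f i
      rw [hf, hf]; exact hcomm _ i.2 _ j.2
    · intro z
      exact Module.End.iSup_maxGenEigenspace_eq_top (f z)
  rw [eq_top_iff, ← h1]
  apply iSup_le
  intro χ
  refine le_trans ?_ (hM (fun g => if h : g ∈ Z then χ ⟨g, h⟩ else 0))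
  intro v hv
  rw [Submodule.mem_iInf] at hv
  intro z hz
  have h2 := hv ⟨z, hz⟩
  rw [(hss ⟨z, hz⟩).isFinitelySemisimple.maxGenEigenspace_eq_eigenspace,
    Module.End.mem_eigenspace_iff, hf] at h2
  show θ z v = (if h : z ∈ Z then χ ⟨z, h⟩ else 0) • v
  rw [dif_pos hz]
  exact h2

theorem wt_indep2 (θ : H →* Module.End K V) (Z : Subgroup H) (χ₁ χ₂ : H → K)
    (hne : ∃ z ∈ Z, χ₁ z ≠ χ₂ z) (v₁ v₂ : V) (h1 : v₁ ∈ wtSpace θ Z χ₁)
    (h2 : v₂ ∈ wtSpace θ Z χ₂) (hsum : v₁ + v₂ = 0) : v₁ = 0 := by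
  obtain ⟨z, hz, hne⟩ := hne
  have e2 : v₂ = -v₁ := eq_neg_of_add_eq_zero_right hsum
  have h3 : θ z (v₁ + v₂) = 0 := by rw [hsum, map_zero]
  rw [map_add, h1 z hz, h2 z hz, e2, smul_neg, ← sub_eq_add_neg, ← sub_smul] at h3
  rcases smul_eq_zero.mp h3 with h | h
  · exact absurd (sub_eq_zero.mp h) hne
  · exact h

theorem wt_indep3 (θ : H →* Module.End K V) (Z : Subgroup H) (χ₁ χ₂ χ₃ : H → K)
    (hne12 : ∃ z ∈ Z, χ₁ z ≠ χ₂ z) (hne13 : ∃ z ∈ Z, χ₁ z ≠ χ₃ z) (v₁ v₂ v₃ : V)
    (h1 : v₁ ∈ wtSpace θ Z χ₁) (h2 : v₂ ∈ wtSpace θ Z χ₂) (h3 : v₃ ∈ wtSpace θ Z χ₃)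
    (hsum : v₁ + v₂ + v₃ = 0) : v₁ = 0 := by
  obtain ⟨z, hz, hne⟩ := hne13
  have h4 : θ z (v₁ + v₂ + v₃) - χ₃ z • (v₁ + v₂ + v₃) = 0 := by
    rw [hsum, map_zero, smul_zero, sub_zero]
  have h5 : (χ₁ z - χ₃ z) • v₁ + (χ₂ z - χ₃ z) • v₂ = 0 := by
    rw [← h4, map_add, map_add, h1 z hz, h2 z hz, h3 z hz]
    module
  have h6 := wt_indep2 θ Z χ₁ χ₂ hne12 _ _ ((wtSpace θ Z χ₁).smul_mem _ h1)
    ((wtSpace θ Z χ₂).smul_mem _ h2) h5
  rcases smul_eq_zero.mp h6 with h | h
  · exact absurd (sub_eq_zero.mp h) hne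
  · exact h

/-- A weight vector whose weight differs from the weights of all the other summands of a
vanishing sum is zero. -/
theorem indep_one {ι Z : Type*} [DecidableEq ι] (T : Z → Module.End K V) (χ₀ : Z → K)
    (χ : ι → Z → K) : ∀ (s : Finset ι), (∀ i ∈ s, ∃ z, χ i z ≠ χ₀ z) → ∀ (v₀ : V),
      (∀ z, T z v₀ = χ₀ z • v₀) → ∀ (v : ι → V), (∀ i ∈ s, ∀ z, T z (v i) = χ i z • v i) →
      v₀ + ∑ i ∈ s, v i = 0 → v₀ = 0 := by
  intro s
  induction s using Finset.induction_on with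
  | empty =>
    intro _ v₀ _ v _ hsum
    simpa using hsum
  | insert j s hj ih =>
    intro hdist v₀ h0 v hv hsum
    obtain ⟨z, hz⟩ := hdist j (Finset.mem_insert_self j s)
    have h2 : (χ₀ z - χ j z) • v₀ + ∑ i ∈ s, (χ i z - χ j z) • v i = 0 := by
      have h3 : T z (v₀ + ∑ i ∈ insert j s, v i) - χ j z • (v₀ + ∑ i ∈ insert j s, v i) = 0 := by
        rw [hsum, map_zero, smul_zero, sub_zero]
      rw [Finset.sum_insert hj, map_add, map_add, map_sum, h0 z,
        hv j (Finset.mem_insert_self j s) z] at h3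
      rw [← h3, Finset.sum_congr rfl (fun i hi => hv i (Finset.mem_insert_of_mem hi) z),
        Finset.sum_congr rfl (fun i (hi : i ∈ s) => sub_smul (χ i z) (χ j z) (v i)),
        Finset.sum_sub_distrib, ← Finset.smul_sum]
      module
    have h4 := ih (fun i hi => hdist i (Finset.mem_insert_of_mem hi)) ((χ₀ z - χ j z) • v₀)
      (fun z' => by rw [map_smul, h0 z', smul_comm]) (fun i => (χ i z - χ j z) • v i)
      (fun i hi z' => by rw [map_smul, hv i (Finset.mem_insert_of_mem hi) z', smul_comm]) h2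
    rcases smul_eq_zero.mp h4 with h | h
    · exact absurd (sub_eq_zero.mp h).symm hz
    · exact h

end Weights

section S3Weights

variable {K : Type*} [Field K] {V : Type*} [AddCommGroup V] [Module K V]
variable {H : Type*} [Group H] [MulDistribMulAction (Equiv.Perm (Fin 3)) H]
variable (θ : H →* Module.End K V) (T : Equiv.Perm (Fin 3) →* Module.End K V)

/-- The translate of a function by a group element acting by automorphisms. -/
def atr (a : Equiv.Perm (Fin 3)) (χ : H → K) : H → K := fun z => χ (a⁻¹ • z)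

theorem atr_apply (a : Equiv.Perm (Fin 3)) (χ : H → K) (z : H) : atr a χ z = χ (a⁻¹ • z) := rfl

theorem T_mul_inv (a : Equiv.Perm (Fin 3)) : T a * T a⁻¹ = 1 := by
  rw [← map_mul, mul_inv_cancel, map_one]

theorem T_inv_mul (a : Equiv.Perm (Fin 3)) : T a⁻¹ * T a = 1 := by
  rw [← map_mul, inv_mul_cancel, map_one]

theorem T_apply_inv (a : Equiv.Perm (Fin 3)) (v : V) : T a (T a⁻¹ v) = v := by
  have := congrArg (fun f : Module.End K V => f v) (T_mul_inv T a)
  exact this

theorem T_inv_apply (a : Equiv.Perm (Fin 3)) (v : V) : T a⁻¹ (T a v) = v := by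
  have := congrArg (fun f : Module.End K V => f v) (T_inv_mul T a)
  exact this

theorem T_injective (a : Equiv.Perm (Fin 3)) : Function.Injective (T a) := by
  intro v w h
  have := congrArg (T a⁻¹) h
  rwa [T_inv_apply, T_inv_apply] at this

variable {θ T}

theorem compat_apply (hcompat : ∀ a x, T a * θ x = θ (a • x) * T a) (a : Equiv.Perm (Fin 3))
    (x : H) (v : V) : T a (θ x v) = θ (a • x) (T a v) := by
  have := congrArg (fun f : Module.End K V => f v) (hcompat a x)
  exact this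

/-- `T a` maps the weight space of `χ` into the weight space of the translate of `χ`. -/
theorem wt_smul (hcompat : ∀ a x, T a * θ x = θ (a • x) * T a) (Z : Subgroup H)
    (hZ : ∀ a : Equiv.Perm (Fin 3), ∀ z ∈ Z, a • z ∈ Z) (a : Equiv.Perm (Fin 3)) (χ : H → K)
    (w : V) (hw : w ∈ wtSpace θ Z χ) : T a w ∈ wtSpace θ Z (atr a χ) := by
  intro z hz
  have h1 := compat_apply hcompat a (a⁻¹ • z) w
  rw [smul_inv_smul, hw _ (hZ a⁻¹ z hz), map_smul] at h1
  rw [atr_apply]
  exact h1.symm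

/-- A nonzero weight vector has a weight with nontrivial stabiliser in `S₃`. -/
theorem exists_stab (hcompat : ∀ a x, T a * θ x = θ (a • x) * T a) (hsum : ∑ a, T a = 0)
    (Z : Subgroup H) (hZ : ∀ a : Equiv.Perm (Fin 3), ∀ z ∈ Z, a • z ∈ Z) (χ : H → K) (w : V)
    (hw : w ∈ wtSpace θ Z χ) (hw0 : w ≠ 0) :
    ∃ a : Equiv.Perm (Fin 3), a ≠ 1 ∧ ∀ z ∈ Z, χ (a • z) = χ z := by
  classical
  by_contra hcon
  push Not at hcon
  have hsum' : ∑ a ∈ (Finset.univ : Finset (Equiv.Perm (Fin 3))), T a w = 0 := by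
    have := congrArg (fun f : Module.End K V => f w) hsum
    simpa [LinearMap.sum_apply] using this
  have key := weight_indep (fun z : H => θ z) (Z : Set H) (fun a => atr a χ) Finset.univ
    (by
      intro i _ j _ hij
      have hne : i⁻¹ * j ≠ 1 := by
        intro h
        apply hij
        have := congrArg (fun t => i * t) h
        simp only [mul_inv_cancel_left, mul_one] at this
        exact this.symm
      obtain ⟨z, hz, hz2⟩ := hcon (i⁻¹ * j) hne
      refine ⟨j • z, hZ j z hz, ?_⟩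
      rw [atr_apply, atr_apply, inv_smul_smul, ← mul_smul]
      exact hz2)
    (fun a => T a w) (fun a _ z hz => wt_smul hcompat Z hZ a χ w hw z hz) hsum' 1
    (Finset.mem_univ 1)
  apply hw0
  have h1 : T 1 w = 0 := key
  rwa [map_one] at h1

/-- The elements of `S₃` fixing a weight form a subgroup. -/
theorem fixes_mul (Z : Subgroup H) (hZ : ∀ a : Equiv.Perm (Fin 3), ∀ z ∈ Z, a • z ∈ Z)
    (χ : H → K) (a b : Equiv.Perm (Fin 3)) (ha : ∀ z ∈ Z, χ (a • z) = χ z)
    (hb : ∀ z ∈ Z, χ (b • z) = χ z) : ∀ z ∈ Z, χ ((a * b) • z) = χ z := by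
  intro z hz
  rw [mul_smul, ha _ (hZ b z hz), hb z hz]

theorem fixes_inv (Z : Subgroup H) (hZ : ∀ a : Equiv.Perm (Fin 3), ∀ z ∈ Z, a • z ∈ Z)
    (χ : H → K) (a : Equiv.Perm (Fin 3)) (ha : ∀ z ∈ Z, χ (a • z) = χ z) :
    ∀ z ∈ Z, χ (a⁻¹ • z) = χ z := by
  intro z hz
  have := ha _ (hZ a⁻¹ z hz)
  rw [smul_inv_smul] at this
  exact this.symm

/-- A nonzero weight vector has a weight fixed by `c3` or by an involution. -/
theorem exists_stab' (hcompat : ∀ a x, T a * θ x = θ (a • x) * T a) (hsum : ∑ a, T a = 0)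
    (Z : Subgroup H) (hZ : ∀ a : Equiv.Perm (Fin 3), ∀ z ∈ Z, a • z ∈ Z) (χ : H → K) (w : V)
    (hw : w ∈ wtSpace θ Z χ) (hw0 : w ≠ 0) :
    (∀ z ∈ Z, χ (c3 • z) = χ z) ∨
      ∃ b : Equiv.Perm (Fin 3), b * b = 1 ∧ b ≠ 1 ∧ ∀ z ∈ Z, χ (b • z) = χ z := by
  obtain ⟨a, ha1, ha⟩ := exists_stab hcompat hsum Z hZ χ w hw hw0
  rcases s3_ne_one a ha1 with h | h | h
  · left; rw [← h]; exact ha
  · left
    have := fixes_inv Z hZ χ a ha
    rw [h, inv_inv] at this
    exact this
  · right; exact ⟨a, h, ha1, ha⟩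

/-- A weight fixed by all of `S₃` is trivial (no fixed points, coprime action). -/
theorem wt_trivial_of_fixed [Finite H] [Group.IsSolvable H] (hcop : (Nat.card H).Coprime 6)
    (hfpf : ∀ x : H, (∀ a : Equiv.Perm (Fin 3), a • x = x) → x = 1) (Z : Subgroup H)
    (hZ : ∀ a : Equiv.Perm (Fin 3), ∀ z ∈ Z, a • z ∈ Z) (χ : H → K)
    (hχ : ∀ a : Equiv.Perm (Fin 3), ∀ z ∈ Z, χ (a • z) = χ z) (w : V)
    (hw : w ∈ wtSpace θ Z χ) : ∀ z ∈ Z, θ z w = w := by
  letI : MulDistribMulAction (Equiv.Perm (Fin 3)) ↥Z := subAct Z hZ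
  have hcopZ : (Nat.card (Equiv.Perm (Fin 3))).Coprime (Nat.card ↥Z) := by
    rw [card_s3]
    exact (Nat.Coprime.coprime_dvd_left (Subgroup.card_subgroup_dvd_card Z) hcop).symm
  have key := fix_induction (G := ↥Z) (A := Equiv.Perm (Fin 3)) hcopZ
    (fun x hx => Subtype.ext (hfpf x (fun a => congrArg Subtype.val (hx a))))
    (fun z => θ (z : H) w = w) (by simp)
    (by
      intro a g
      have h1 : ((g⁻¹ * a • g : ↥Z) : H) = (g : H)⁻¹ * a • (g : H) := rfl
      rw [h1, map_mul, Module.End.mul_apply, hw _ (hZ a g g.2), hχ a g g.2, ← hw g g.2,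
        ← Module.End.mul_apply, ← map_mul, inv_mul_cancel, map_one, Module.End.one_apply])
    (by
      intro x y hx hy
      rw [Subgroup.coe_mul, map_mul, Module.End.mul_apply, hy, hx])
    (by
      intro x hx
      have h2 : θ ((x⁻¹ : ↥Z) : H) (θ (x : H) w) = w := by
        rw [← Module.End.mul_apply, ← map_mul, Subgroup.coe_inv, inv_mul_cancel, map_one,
          Module.End.one_apply]
      rwa [hx] at h2)
  intro z hz
  exact key ⟨z, hz⟩

end S3Weights

end Cfsg.Agent.H66.S3L
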