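import Cfsg.Agent.H74.TsDefs
import Cfsg.Agent.H51.JcNORM
import Cfsg.Agent.H63.SnIfV

/-!
# TS-WNE (piece of S2948, for helper74): `W_K ≠ 1`
-/

set_option autoImplicit false
open Cfsg

namespace Cfsg.Agent.H66.Ts

open Cfsg.Agent.H74.Ts
open scoped commutatorElement

universe u

/-- An element `g` of odd order commuting with `c := v g v⁻¹ g⁻¹`, where `c² = 1`, commutes
with `v`. -/
theorem wne_odd_comm {G : Type u} [Group G] (v g : G) (hodd : Odd (orderOf g))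
    (hc : g * (v * g * v⁻¹ * g⁻¹) = (v * g * v⁻¹ * g⁻¹) * g)
    (hc2 : (v * g * v⁻¹ * g⁻¹) * (v * g * v⁻¹ * g⁻¹) = 1) : g * v = v * g := by
  obtain ⟨c, hcdef⟩ : ∃ c, c = v * g * v⁻¹ * g⁻¹ := ⟨_, rfl⟩
  rw [← hcdef] at hc hc2
  have h1 : v * g * v⁻¹ = c * g := by rw [hcdef]; group
  have hcomm : Commute c g := hc.symm
  have h2 : ∀ n : ℕ, v * g ^ n * v⁻¹ = c ^ n * g ^ n := by
    intro n
    have h : v * g ^ n * v⁻¹ = (v * g * v⁻¹) ^ n := by rw [conj_pow]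
    rw [h, h1, hcomm.mul_pow]
  have h3 := h2 (orderOf g)
  rw [pow_orderOf_eq_one, mul_one, mul_one, mul_inv_cancel] at h3
  obtain ⟨k, hk⟩ := hodd
  have hc1 : c = 1 := by
    have h : c ^ (2 * k + 1) = c := by
      rw [pow_succ, pow_mul, pow_two, hc2, one_pow, one_mul]
    rw [← h, ← hk]; exact h3.symm
  have h4 : v * g * v⁻¹ = g := by rw [h1, hc1, one_mul]
  calc g * v = (v * g * v⁻¹) * v := by rw [h4]
    _ = v * g := by group

/-- TS-WNE. -/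
theorem wne : StWne.{u} := by
  intro G _ _ L K hKL hKgen hQN hOQ hKC hW
  apply hKC
  have hVQ : ∀ v ∈ omegaCenterOf (pCoreOf 2 L), v ∈ pCoreOf 2 L ∧
      v ∈ Subgroup.centralizer (pCoreOf 2 L : Set G) ∧ v ^ 2 = 1 :=
    fun v hv => Cfsg.Agent.H63.Sn.mem_omegaCenterOf (pCoreOf 2 L) hv
  have hLV : ∀ l ∈ L, ∀ v ∈ omegaCenterOf (pCoreOf 2 L),
      l * v * l⁻¹ ∈ omegaCenterOf (pCoreOf 2 L) :=
    fun l hl v hv => Cfsg.Agent.H51.Jc.conj_mem_omegaCenterOf (Subgroup.le_normalizer hl) hv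
  have hKQO : K ⊓ pCoreOf 2 L ≤ pCoreOf 2 K := by
    apply Cfsg.Agent.H31.X.H54.le_pCoreOf inf_le_left
    · apply Cfsg.Agent.H31.X.H54.le_normalizer_of_conj_mem
      intro g hg x hx
      exact ⟨K.mul_mem (K.mul_mem hg hx.1) (K.inv_mem hg),
        Cfsg.Agent.H31.X.H54.conj_mem_of_le_normalizer
          (Cfsg.Agent.H31.X.H54.le_normalizer_pCoreOf L) (hKL hg) hx.2⟩
    · exact (Cfsg.Agent.H31.X.H54.isPGroup_pCoreOf L).to_inf_right
  have hc_mem : ∀ v ∈ omegaCenterOf (pCoreOf 2 L), ∀ g ∈ K,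
      v * g * v⁻¹ * g⁻¹ ∈ omegaCenterOf (pCoreOf 2 K) := by
    intro v hv g hg
    have hcV : v * g * v⁻¹ * g⁻¹ ∈ omegaCenterOf (pCoreOf 2 L) := by
      have e : v * g * v⁻¹ * g⁻¹ = v * (g * v⁻¹ * g⁻¹) := by group
      rw [e]; exact Subgroup.mul_mem _ hv (hLV g (hKL hg) _ (Subgroup.inv_mem _ hv))
    have hcK : v * g * v⁻¹ * g⁻¹ ∈ K := by
      have hvN : v ∈ Subgroup.normalizer (K : Set G) := hQN (hVQ v hv).1
      exact K.mul_mem ((Subgroup.mem_normalizer_iff.mp hvN g).mp hg) (K.inv_mem hg)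
    obtain ⟨hcQ, hcC, hc2⟩ := hVQ _ hcV
    apply Cfsg.Agent.H63.Sn.omegaCenterOf_mem (pCoreOf 2 K) (hKQO ⟨hcK, hcQ⟩)
    · rw [Subgroup.mem_centralizer_iff] at hcC ⊢
      intro o ho
      exact hcC o (hOQ ho)
    · exact hc2
  have hcg : ∀ v ∈ omegaCenterOf (pCoreOf 2 L), ∀ g ∈ K,
      g * (v * g * v⁻¹ * g⁻¹) = (v * g * v⁻¹ * g⁻¹) * g := by
    intro v hv g hg
    have h1 : ⁅v * g * v⁻¹ * g⁻¹, g⁆ ∈ wOf K :=
      Subgroup.commutator_mem_commutator (hc_mem v hv g hg) hg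
    rw [hW, Subgroup.mem_bot, commutatorElement_def] at h1
    have h2 := mul_inv_eq_one.mp h1
    have h3 := mul_inv_eq_iff_eq_mul.mp h2
    exact h3.symm
  have hcc : ∀ v ∈ omegaCenterOf (pCoreOf 2 L), ∀ g ∈ K,
      (v * g * v⁻¹ * g⁻¹) * (v * g * v⁻¹ * g⁻¹) = 1 := by
    intro v hv g hg
    have h := (Cfsg.Agent.H63.Sn.mem_omegaCenterOf _ (hc_mem v hv g hg)).2.2
    rw [pow_two] at h
    exact h
  have hcl : Subgroup.closure {g : G | g ∈ K ∧ Odd (orderOf g)} ≤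
      Subgroup.centralizer (omegaCenterOf (pCoreOf 2 L) : Set G) := by
    rw [Subgroup.closure_le]
    rintro g ⟨hg, hodd⟩
    rw [SetLike.mem_coe, Subgroup.mem_centralizer_iff]
    intro v hv
    exact (wne_odd_comm v g hodd (hcg v hv g hg) (hcc v hv g hg)).symm
  rw [hKgen] at hcl
  exact hcl

example : StWne.{u} := wne

end Cfsg.Agent.H66.Ts
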